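import Cfsg.Agent.H7.Alt3

set_option autoImplicit false

namespace CfsgH7

open Module Equiv

universe w

theorem card_le_of_ker {H Q M : Type*} [Group H] [Group Q] [Monoid M] [Finite M] (π : H →* Q)
    (hπ : Function.Surjective π) (ρ : H →* M) (h : ∀ x, ρ x = 1 → π x = 1) :
    Nat.card Q ≤ Nat.card M := by
  choose s hs using hπ
  refine Nat.card_le_card_of_injective (fun q => ρ (s q)) fun a b e => ?_
  have := h ((s a)⁻¹ * s b) (by rw [map_mul, ← show ρ (s a) = ρ (s b) from e, ← map_mul]; simp)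
  rw [map_mul, map_inv, hs, hs] at this
  exact inv_mul_eq_one.1 this

theorem base_change {F K W H : Type*} [Field F] [Field K] (φ : F →+* K) [AddCommGroup W]
    [Module F W] [FiniteDimensional F W] [Monoid H] (ρ : H →* End F W) :
    ∃ ρ' : H →* End K (Fin (finrank F W) → K), ∀ h, ρ' h = 1 → ρ h = 1 := by
  let b := Module.finBasis F W
  refine ⟨(Matrix.toLinAlgEquiv' (R := K) (n := Fin (finrank F W))).toMonoidHom.comp
    ((RingHom.mapMatrix φ).toMonoidHom.comp ((LinearMap.toMatrixAlgEquiv b).toMonoidHom.comp ρ)),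
    fun h e => ?_⟩
  have e1 : (RingHom.mapMatrix φ) (LinearMap.toMatrixAlgEquiv b (ρ h)) = 1 :=
    (Matrix.toLinAlgEquiv' (R := K)).injective (by rw [map_one]; exact e)
  have e2 : LinearMap.toMatrixAlgEquiv b (ρ h) = 1 :=
    Matrix.map_injective φ.injective (e1.trans (map_one (RingHom.mapMatrix φ)).symm)
  exact (LinearMap.toMatrixAlgEquiv b).injective (by rw [map_one]; exact e2)

section
variable {K V H : Type*} [Field K] [IsAlgClosed K] [AddCommGroup V] [Module K V]
  [FiniteDimensional K V] [Group H] (ρ : H →* End K V)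

theorem exists_weight [Nontrivial V] (R : Subgroup H) (hR : ∀ x ∈ R, ∀ y ∈ R, x * y = y * x) :
    ∃ (χ : R → K) (v : V), v ≠ 0 ∧ ∀ x : R, ρ x v = χ x • v := by
  obtain ⟨U, hU⟩ := exists_minimal_of_wellFoundedLT
    (fun U : Submodule K V => U ≠ ⊥ ∧ ∀ x ∈ R, ∀ v ∈ U, ρ x v ∈ U) ⟨⊤, by simp, by simp⟩
  haveI : Nontrivial U := Submodule.nontrivial_iff_ne_bot.2 hU.1.1
  have : ∀ x : R, ∃ μ : K, ∀ v ∈ U, ρ x v = μ • v := fun x => by
    obtain ⟨μ, hμ⟩ := End.exists_eigenvalue ((ρ x).restrict (hU.1.2 x x.2))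
    obtain ⟨v, hv⟩ := hμ.exists_hasEigenvector
    have h1 := hU.2 (y := U ⊓ (ρ x).eigenspace μ) ⟨(Submodule.ne_bot_iff _).2 ⟨v, ⟨v.2,
      End.mem_eigenspace_iff.2 (congrArg Subtype.val hv.apply_eq_smul)⟩,
      fun e => hv.2 (Subtype.ext e)⟩, fun y hy u hu => ⟨hU.1.2 y hy u hu.1, by
        have := End.mem_eigenspace_iff.1 hu.2
        rw [SetLike.mem_coe, End.mem_eigenspace_iff, ← End.mul_apply, ← map_mul, hR x x.2 y hy,
          map_mul, End.mul_apply, this, map_smul]⟩⟩ inf_le_left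
    exact ⟨μ, fun u hu => End.mem_eigenspace_iff.1 (h1 hu).2⟩
  choose χ hχ using this
  obtain ⟨v, hv, hv0⟩ := (Submodule.ne_bot_iff _).1 hU.1.1
  exact ⟨χ, v, hv0, fun x => hχ x v hv⟩

omit [IsAlgClosed K] [FiniteDimensional K V] in
theorem scalar_of_fixed (hirr : ∀ W : Submodule K V, (∀ h, ∀ v ∈ W, ρ h v ∈ W) → W = ⊥ ∨ W = ⊤)
    (R : Subgroup H) [hR : R.Normal] (χ : R → K) {v : V} (hv : v ≠ 0)
    (h : ∀ x : R, ρ x v = χ x • v) (hχ : ∀ g (x : R), χ ⟨g⁻¹ * x * g, hR.conj_mem' _ x.2 g⟩ = χ x)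
    (x : R) (u : V) : ρ x u = χ x • u := by
  have hm : ∀ u, u ∈ (⨅ x : R, (ρ x).eigenspace (χ x)) ↔ ∀ x : R, ρ x u = χ x • u := fun u => by
    simp [Submodule.mem_iInf, End.mem_eigenspace_iff]
  rcases hirr (⨅ x : R, (ρ x).eigenspace (χ x)) (fun g u hu => by
    rw [hm] at hu ⊢
    intro x
    have := congrArg (ρ g) (hu ⟨g⁻¹ * x * g, hR.conj_mem' _ x.2 g⟩)
    rw [map_smul, hχ, ← End.mul_apply, ← map_mul] at this
    rw [← this, ← End.mul_apply, ← map_mul]
    congr 2
    group) with e | e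
  · exact (hv (by rw [← Submodule.mem_bot K, ← e, hm]; exact h)).elim
  · exact (hm u).1 (e ▸ Submodule.mem_top) x

theorem ab_case {Q : Type*} [Group Q] [Nontrivial V] (π : H →* Q) (hπ : Function.Surjective π)
    (hN : ∀ M : Subgroup H, M.Normal → M ≤ π.ker ∨ M = ⊤) (hρ : Function.Injective ρ)
    (hirr : ∀ W : Submodule K V, (∀ h, ∀ v ∈ W, ρ h v ∈ W) → W = ⊥ ∨ W = ⊤)
    (R : Subgroup H) [hR : R.Normal] (hc : ∀ x ∈ R, ∀ y ∈ R, x * y = y * x)
    (hZ : ¬ R ≤ Subgroup.center H) : Nat.card Q ≤ (finrank K V).factorial := by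
  let Ω := {χ : R → K // ∃ v : V, v ≠ 0 ∧ ∀ x : R, ρ x v = χ x • v}
  letI : MulAction H Ω :=
    { smul := fun g χ => ⟨fun x => χ.1 ⟨g⁻¹ * x * g, hR.conj_mem' _ x.2 g⟩, by
        obtain ⟨v, hv, h⟩ := χ.2
        refine ⟨ρ g v, fun e => hv ?_, fun x => ?_⟩
        · have := congrArg (ρ g⁻¹) e
          rwa [← End.mul_apply, ← map_mul, inv_mul_cancel, map_one, map_zero] at this
        · rw [← map_smul, ← h, ← End.mul_apply, ← map_mul, ← End.mul_apply, ← map_mul]
          congr 2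
          simp [mul_assoc]⟩
      one_smul := fun χ => Subtype.ext (funext fun x => congrArg χ.1 (Subtype.ext (by simp)))
      mul_smul := fun g h χ => Subtype.ext (funext fun x => congrArg χ.1 (Subtype.ext (by
        simp [mul_assoc]))) }
  choose v hv0 hv using fun χ : Ω => χ.2
  have li := li_of_weights (fun x : R => ρ x) v (fun χ => χ.1) Subtype.val_injective hv0 hv
  haveI : Finite Ω := li.finite
  haveI := Fintype.ofFinite Ω
  rcases hN _ (MulAction.toPermHom H Ω).normal_ker with h | h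
  · refine (card_le_of_ker π hπ (MulAction.toPermHom H Ω) fun x hx => h hx).trans ?_
    rw [Nat.card_perm]
    exact Nat.factorial_le (by simpa using li.fintype_card_le_finrank)
  · obtain ⟨χ, u, hu0, hu⟩ := exists_weight ρ R hc
    have := scalar_of_fixed ρ hirr R χ hu0 hu fun g x => by
      have e : MulAction.toPermHom H Ω g = 1 := by rw [← MonoidHom.mem_ker, h]; trivial
      exact congrFun (congrArg Subtype.val (DFunLike.congr_fun e ⟨χ, u, hu0, hu⟩)) x
    refine (hZ fun x hx => Subgroup.mem_center_iff.2 fun g => hρ (LinearMap.ext fun w => ?_)).elim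
    rw [map_mul, map_mul, End.mul_apply, End.mul_apply, this ⟨x, hx⟩, this ⟨x, hx⟩, map_smul]

theorem card_map_le [Nontrivial V] (hρ : Function.Injective ρ)
    (hirr : ∀ W : Submodule K V, (∀ h, ∀ v ∈ W, ρ h v ∈ W) → W = ⊥ ∨ W = ⊤)
    (R : Subgroup H) (hc : ∀ x ∈ R, ∀ y ∈ R, y * x * y⁻¹ * x⁻¹ ∈ Subgroup.center H)
    (hZ : ∀ x ∈ R, (∀ y ∈ R, x * y = y * x) → x ∈ Subgroup.center H) :
    Nat.card (R.map (QuotientGroup.mk' (Subgroup.center H))) ≤ finrank K V * finrank K V := by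
  obtain ⟨χ, u, hu0, hu⟩ := exists_weight ρ (Subgroup.center H)
    fun x hx y _ => (Subgroup.mem_center_iff.1 hx y).symm
  have hχ := scalar_of_fixed ρ hirr _ χ hu0 hu fun g x => congrArg χ (Subtype.ext (by
    simp only [mul_assoc, ← Subgroup.mem_center_iff.1 x.2 g, inv_mul_cancel_left]))
  choose s hs hs' using fun a : R.map (QuotientGroup.mk' (Subgroup.center H)) => a.2
  have li := li_of_weights (fun y : R => LinearMap.mulLeft K (ρ y) ∘ₗ LinearMap.mulRight K (ρ y⁻¹))
    (fun a => ρ (s a)) (fun a y => χ ⟨_, hc (s a) (hs a) y y.2⟩) (fun a b e => ?_) (fun a e => ?_)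
    (fun a y => ?_)
  · haveI := li.finite
    haveI := Fintype.ofFinite (R.map (QuotientGroup.mk' (Subgroup.center H)))
    rw [Nat.card_eq_fintype_card, ← Module.finrank_linearMap K K]
    exact li.fintype_card_le_finrank
  · apply Subtype.ext
    rw [← hs' a, ← hs' b, eq_comm]
    refine QuotientGroup.eq.2 (hZ _ (R.mul_mem (R.inv_mem (hs b)) (hs a)) fun y hy => ?_)
    have e1 := congrFun e ⟨y⁻¹, R.inv_mem hy⟩
    have e2 : y⁻¹ * s a * y⁻¹⁻¹ * (s a)⁻¹ = y⁻¹ * s b * y⁻¹⁻¹ * (s b)⁻¹ :=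
      hρ (LinearMap.ext fun w => by
        rw [hχ ⟨_, hc (s a) (hs a) _ (R.inv_mem hy)⟩, hχ ⟨_, hc (s b) (hs b) _ (R.inv_mem hy)⟩]
        exact congrArg (· • w) e1)
    calc _ = (s b)⁻¹ * y * (y⁻¹ * s a * y⁻¹⁻¹ * (s a)⁻¹) * s a := by group
      _ = _ := by rw [e2]; group
  · have := congrArg (ρ (s a)⁻¹ * ·) e
    simp only [← map_mul, inv_mul_cancel, map_one, mul_zero] at this
    exact one_ne_zero this
  · ext w
    simp only [LinearMap.comp_apply, LinearMap.mulLeft_apply, LinearMap.mulRight_apply,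
      LinearMap.smul_apply, ← map_mul]
    rw [← hχ, ← End.mul_apply, ← map_mul]
    congr 2
    simp [mul_assoc]

end

/-- the induction statement -/
def AltP (r n : ℕ) : Prop :=
  ∀ (K : Type) [Field K] [IsAlgClosed K] (p : ℕ) [CharP K p] (V : Type) [AddCommGroup V]
    [Module K V] [FiniteDimensional K V] (H : Type w) [Group H] [Finite H]
    (π : H →* alternatingGroup (Fin r)) (ρ : H →* End K V), Function.Surjective π →
    (∀ h, ρ h = 1 → π h = 1) → finrank K V = n → r - 1 - (if p ∣ r then 1 else 0) ≤ n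

theorem card_alt {r : ℕ} (hr : 9 ≤ r) : 2 * Nat.card (alternatingGroup (Fin r)) = r.factorial := by
  haveI : Nontrivial (Fin r) := Fin.nontrivial_iff_two_le.2 (by omega)
  rw [two_mul_nat_card_alternatingGroup, Nat.card_perm]
  simp

theorem elem_case {r n : ℕ} (hr : 9 ≤ r) (IH : ∀ d < n, AltP.{w} r d) {H : Type w} [Group H]
    [Finite H] (π : H →* alternatingGroup (Fin r)) (hπ : Function.Surjective π) {A : Type*}
    [CommGroup A] [Finite A] (l : ℕ) [Fact l.Prime] (hl : ∀ a : A, a ^ l = 1)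
    (hA : Nat.card A ≤ n * n) (φ : H →* MulAut A) (hφ : ∀ h, φ h = 1 → π h = 1) : r - 1 ≤ n := by
  haveI : Module (ZMod l) (Additive A) := AddCommGroup.zmodModule fun x => hl x.toMul
  let θ : H →* End (ZMod l) (Additive A) :=
    { toFun := fun h => (MonoidHom.toAdditive (φ h).toMonoidHom).toZModLinearMap l
      map_one' := LinearMap.ext fun x => by
        rw [map_one]
        rfl
      map_mul' := fun g h => by ext x; simp }
  have hθ : ∀ h, θ h = 1 → π h = 1 := fun h e => hφ h (MulEquiv.ext fun a =>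
    (LinearMap.congr_fun e (Additive.ofMul a) :))
  by_cases hd : finrank (ZMod l) (Additive A) < n
  · obtain ⟨ρ', h'⟩ := base_change (algebraMap (ZMod l) (AlgebraicClosure (ZMod l))) θ
    have := IH _ hd _ l _ H π ρ' hπ (fun h e => hθ h (h' h e)) (by simp)
    split_ifs at this <;> omega
  exfalso
  haveI : Finite (End (ZMod l) (Additive A)) := Module.finite_of_finite (ZMod l)
  have h1 := card_le_of_ker π hπ θ hθ
  have h2 : Nat.card A = l ^ finrank (ZMod l) (Additive A) := by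
    have := Module.natCard_eq_pow_finrank (K := ZMod l) (V := Additive A)
    rwa [Nat.card_zmod] at this
  rw [Module.natCard_eq_pow_finrank (K := ZMod l) (V := End (ZMod l) (Additive A)),
    Module.finrank_linearMap, Nat.card_zmod,
    pow_mul, ← h2] at h1
  generalize finrank (ZMod l) (Additive A) = d at *
  have h3 : 2 ^ d ≤ d * d := (Nat.pow_le_pow_left (Fact.out : l.Prime).two_le d).trans
    (h2 ▸ hA.trans (Nat.mul_le_mul (by omega) (by omega)))
  have h4 : d ≤ 4 := by
    by_contra h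
    have : ∀ k, 5 ≤ k → k * k < 2 ^ k := fun k hk => by
      induction k, hk using Nat.le_induction with
      | base => decide
      | succ k hk ih => rw [pow_succ]; nlinarith
    exact (this d (by omega)).not_ge h3
  have h5 : Nat.card A ≤ 16 := hA.trans (Nat.mul_le_mul (by omega : n ≤ 4) (by omega : n ≤ 4))
  have h6 : Nat.card A ^ d ≤ 16 ^ 4 := (Nat.pow_le_pow_left h5 d).trans
    (Nat.pow_le_pow_right (by omega) h4)
  have h7 := card_alt hr
  have h8 := Nat.factorial_le hr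
  have h9 : Nat.factorial 9 = 362880 := by decide
  omega

theorem alt_noncomm {r : ℕ} (hr : 9 ≤ r) : ¬ ∀ a b : alternatingGroup (Fin r), a * b = b * a := by
  intro h
  have h1 := commutator_alternatingGroup_eq_top (α := Fin r) (by simp; omega)
  haveI := alternatingGroup.isSimpleGroup (α := Fin r) (by simp; omega)
  haveI := Group.isSolvable_of_comm h
  exact (Group.IsSolvable.commutator_lt_top_of_nontrivial (alternatingGroup (Fin r))).ne h1

theorem irr_case {r : ℕ} (hr : 9 ≤ r) {K V : Type*} [Field K] [IsAlgClosed K] (p : ℕ) [CharP K p]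
    [AddCommGroup V] [Module K V] [FiniteDimensional K V] (IH : ∀ d < finrank K V, AltP.{w} r d)
    {H : Type w} [Group H] [Finite H] (π : H →* alternatingGroup (Fin r)) (ρ : H →* End K V)
    (hπ : Function.Surjective π) (hρ : Function.Injective ρ)
    (hmin : ∀ M : Subgroup H, M.map π = ⊤ → M = ⊤)
    (hirr : ∀ W : Submodule K V, (∀ h, ∀ v ∈ W, ρ h v ∈ W) → W = ⊥ ∨ W = ⊤) :
    r - 1 - (if p ∣ r then 1 else 0) ≤ finrank K V := by
  haveI := alternatingGroup.isSimpleGroup (α := Fin r) (by simp; omega)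
  have hN : ∀ M : Subgroup H, M.Normal → M ≤ π.ker ∨ M = ⊤ := fun M hM =>
    ((hM.map π hπ).eq_bot_or_eq_top).imp (Subgroup.map_eq_bot_iff _).1 (hmin M)
  have hker : ∀ h, ρ h = 1 → π h = 1 := fun h e => by
    rw [hρ (e.trans (map_one ρ).symm), map_one]
  by_cases hZ : π.ker ≤ Subgroup.center H
  · refine central_bound p hr ((alternatingGroup (Fin r)).subtype.comp π) (fun h e g => ?_)
      (fun σ hσ => ?_) ρ fun h e => ?_
    · exact Subgroup.mem_center_iff.1 (hZ (Subtype.ext e)) g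
    · obtain ⟨h, e⟩ := hπ ⟨σ, hσ⟩
      exact ⟨h, congrArg Subtype.val e⟩
    · exact congrArg Subtype.val (hker h e)
  refine le_trans (Nat.sub_le _ _) ?_
  haveI : Nontrivial V := by
    by_contra h
    rw [not_nontrivial_iff_subsingleton] at h
    exact hZ fun x _ => by rw [show x = 1 from hρ (Subsingleton.elim _ _)]; exact one_mem _
  obtain ⟨R, ⟨hR, hRN, hRZ⟩, hm⟩ := exists_minimal_of_wellFoundedLT
    (fun R : Subgroup H => R.Normal ∧ R ≤ π.ker ∧ ¬ R ≤ Subgroup.center H)
    ⟨π.ker, π.normal_ker, le_rfl, hZ⟩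
  have hm' : ∀ M : Subgroup H, M.Normal → M ≤ R → R ≤ M ∨ M ≤ Subgroup.center H := fun M h1 h2 =>
    or_iff_not_imp_right.2 fun h3 => hm ⟨h1, h2.trans hRN, h3⟩ h2
  by_cases hc : ∀ x ∈ R, ∀ y ∈ R, x * y = y * x
  · have h1 := ab_case ρ π hπ hN hρ hirr R hc hRZ
    by_contra h2
    have h3 := Nat.factorial_le (show finrank K V ≤ r - 2 by omega)
    have h4 := card_alt hr
    obtain ⟨s, rfl⟩ : ∃ s, r = s + 2 := ⟨r - 2, by omega⟩
    rw [Nat.factorial_succ, Nat.factorial_succ] at h4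
    rw [Nat.add_sub_cancel] at h3
    have h5 := Nat.factorial_pos s
    have h6 : 3 * s.factorial ≤ (s + 1 + 1) * ((s + 1) * s.factorial) :=
      Nat.mul_le_mul (by omega) (Nat.le_mul_of_pos_left _ (by omega))
    omega
  have hF : π.ker ≤ frattini H := le_iInf₂ fun M hM => by
    by_contra h
    refine hM.1 (hmin M (eq_top_iff.2 fun q _ => ?_))
    obtain ⟨g, rfl⟩ := hπ q
    have h1 : M ⊔ π.ker = ⊤ := hM.2 _ (left_lt_sup.2 h)
    rw [← Subgroup.mem_comap, Subgroup.comap_map_eq, h1]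
    trivial
  have hRR : ⁅R, R⁆ ≤ Subgroup.center H := by
    haveI := frattini_nilpotent (G := H)
    haveI : Group.IsSolvable R := Group.isSolvable_of_isSolvable_injective
      (Subgroup.inclusion_injective (hRN.trans hF))
    haveI : Nontrivial R := (Subgroup.nontrivial_iff_ne_bot _).2 fun h => hRZ (h ▸ bot_le)
    have h1 := Group.IsSolvable.commutator_lt_top_of_nontrivial R
    rw [← Subgroup.map_subtype_lt_map_subtype, ← MonoidHom.range_eq_map, Subgroup.range_subtype,
      Subgroup.map_subtype_commutator] at h1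
    exact (hm' _ inferInstance h1.le).resolve_left h1.not_ge
  have hc' : ∀ x ∈ R, ∀ y ∈ R, y * x * y⁻¹ * x⁻¹ ∈ Subgroup.center H := fun x hx y hy =>
    hRR (Subgroup.commutator_mem_commutator hy hx)
  have hZ' : ∀ x ∈ R, (∀ y ∈ R, x * y = y * x) → x ∈ Subgroup.center H := fun x hx h =>
    (hm' (R ⊓ Subgroup.centralizer R) inferInstance inf_le_left).resolve_left
      (fun h => hc fun x hx y hy => (h hy).2 x hx) ⟨hx, fun y hy => (h y hy).symm⟩
  have hA := card_map_le ρ hρ hirr R hc' hZ'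
  set A := R.map (QuotientGroup.mk' (Subgroup.center H)) with hAdef
  haveI hAn : A.Normal := hR.map _ (QuotientGroup.mk'_surjective _)
  have hAc : ∀ a b : A, a * b = b * a := by
    rintro ⟨_, x, hx, rfl⟩ ⟨_, y, hy, rfl⟩
    apply Subtype.ext
    have := (QuotientGroup.eq_one_iff _).2 (hc' y hy x hx)
    simpa [mul_inv_eq_one, mul_inv_eq_iff_eq_mul] using this
  letI : CommGroup A := { (inferInstance : Group A) with mul_comm := hAc }
  haveI : Nontrivial A := (Subgroup.nontrivial_iff_ne_bot _).2 fun h => hRZ (by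
    rwa [hAdef, Subgroup.map_eq_bot_iff, QuotientGroup.ker_mk'] at h)
  obtain ⟨l, hl, hl'⟩ := Nat.exists_prime_and_dvd (Finite.one_lt_card (α := A)).ne'
  haveI := Fact.mk hl
  have hexp : ∀ a : A, a ^ l = 1 := by
    obtain ⟨a, ha⟩ := exists_prime_orderOf_dvd_card' l hl'
    let B : Subgroup A := (powMonoidHom l).ker
    haveI : B.Characteristic := Subgroup.characteristic_iff_le_comap.2 fun f x hx => by
      simp only [B, Subgroup.mem_comap, MonoidHom.mem_ker, powMonoidHom_apply] at hx ⊢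
      rw [← map_pow, hx, map_one]
    haveI : (B.map A.subtype).Normal := inferInstance
    rcases hm' (R ⊓ (B.map A.subtype).comap (QuotientGroup.mk' _)) inferInstance inf_le_left
      with h | h
    · rintro ⟨_, x, hx, rfl⟩
      obtain ⟨b, hb, e⟩ := (h hx).2
      rw [← show b = ⟨_, x, hx, rfl⟩ from Subtype.ext e]
      exact hb
    · obtain ⟨_, x, hx, rfl⟩ := a
      have := h ⟨hx, ⟨_, x, hx, rfl⟩, by
        rw [SetLike.mem_coe, MonoidHom.mem_ker, powMonoidHom_apply, ← ha, pow_orderOf_eq_one], rfl⟩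
      rw [show (⟨_, x, hx, rfl⟩ : A) = 1 from Subtype.ext ((QuotientGroup.eq_one_iff _).2 this),
        orderOf_one] at ha
      exact (hl.one_lt.ne ha).elim
  let φ : H →* MulAut A := MulAut.conjNormal.comp (QuotientGroup.mk' _)
  rcases hN _ φ.normal_ker with h | h
  · exact elem_case hr IH π hπ l hexp hA φ fun x hx => h hx
  exfalso
  refine hRZ fun x hx => ?_
  have h1 : ∀ g, g * x * g⁻¹ * x⁻¹ ∈ Subgroup.center H := fun g => by
    have e : φ g = 1 := by rw [← MonoidHom.mem_ker, h]; trivial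
    have e1 := congrArg Subtype.val (DFunLike.congr_fun e ⟨_, x, hx, rfl⟩)
    rw [← QuotientGroup.eq_one_iff]
    simpa [φ, mul_inv_eq_one] using e1
  let ψ : H →* Subgroup.center H :=
    { toFun := fun g => ⟨_, h1 g⟩
      map_one' := Subtype.ext (by simp)
      map_mul' := fun g k => Subtype.ext (by
        have := Subgroup.mem_center_iff.1 (h1 k) (x * g⁻¹ * x⁻¹)
        simp only [Subgroup.coe_mul]
        calc _ = g * (k * x * k⁻¹ * x⁻¹ * (x * g⁻¹ * x⁻¹)) := by group
          _ = _ := by rw [← this]; group) }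
  rcases hN _ ψ.normal_ker with h2 | h2
  · refine (alt_noncomm hr fun a b => ?_).elim
    obtain ⟨a, rfl⟩ := hπ a
    obtain ⟨b, rfl⟩ := hπ b
    have := h2 (show a * b * a⁻¹ * b⁻¹ ∈ ψ.ker by
      rw [MonoidHom.mem_ker, map_mul, map_mul, map_mul, map_inv, map_inv,
        show ψ a * ψ b = ψ b * ψ a from Subtype.ext (Subgroup.mem_center_iff.1 (ψ b).2 _)]
      simp)
    simpa [mul_inv_eq_one, mul_inv_eq_iff_eq_mul] using this
  · refine Subgroup.mem_center_iff.2 fun g => ?_
    have e : ψ g = 1 := by rw [← MonoidHom.mem_ker, h2]; trivial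
    simpa [ψ, mul_inv_eq_one, mul_inv_eq_iff_eq_mul] using congrArg Subtype.val e

theorem altP {r : ℕ} (hr : 9 ≤ r) (n : ℕ) : AltP.{w} r n := by
  induction n using Nat.strong_induction_on with
  | _ n IH =>
  intro K _ _ p _ V _ _ _ H _ _ π ρ hπ hρ hn
  induction hc : Nat.card H using Nat.strong_induction_on generalizing H with
  | _ c ih =>
  subst hc hn
  by_cases hmin : ∀ M : Subgroup H, M.map π = ⊤ → M = ⊤
  swap
  · push Not at hmin
    obtain ⟨M, h1, h2⟩ := hmin
    refine ih _ (Finite.card_subtype_lt (p := (· ∈ M)) (x := (not_forall.1 fun h => h2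
      (eq_top_iff.2 fun x _ => h x)).choose) (not_forall.1 fun h => h2
      (eq_top_iff.2 fun x _ => h x)).choose_spec) M (π.comp M.subtype) (ρ.comp M.subtype)
      (fun q => ?_) (fun h e => hρ h e) rfl
    obtain ⟨x, hx, e⟩ : q ∈ M.map π := h1 ▸ Subgroup.mem_top q
    exact ⟨⟨x, hx⟩, e⟩
  by_cases hk : ρ.ker = ⊥
  swap
  · refine ih _ ?_ (H ⧸ ρ.ker) (QuotientGroup.lift _ π hρ) (QuotientGroup.lift _ ρ le_rfl)
      (fun q => ?_) (fun h e => ?_) rfl
    · rw [Subgroup.card_eq_card_quotient_mul_card_subgroup ρ.ker]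
      exact lt_mul_of_one_lt_right Nat.card_pos (Subgroup.one_lt_card_iff_ne_bot _ |>.2 hk)
    · obtain ⟨x, rfl⟩ := hπ q
      exact ⟨x, rfl⟩
    · obtain ⟨x, rfl⟩ := QuotientGroup.mk_surjective h
      exact hρ x e
  have hinj : Function.Injective ρ := (injective_iff_map_eq_one ρ).2 fun a ha => by
    rw [← Subgroup.mem_bot, ← hk]; exact ha
  by_cases hirr : ∀ W : Submodule K V, (∀ h, ∀ v ∈ W, ρ h v ∈ W) → W = ⊥ ∨ W = ⊤
  · exact irr_case hr p IH π ρ hπ hinj hmin hirr
  push Not at hirr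
  obtain ⟨W, hW, hW0, hW1⟩ := hirr
  haveI := alternatingGroup.isSimpleGroup (α := Fin r) (by simp; omega)
  have hN : ∀ M : Subgroup H, M.Normal → M ≤ π.ker ∨ M = ⊤ := fun M hM =>
    ((hM.map π hπ).eq_bot_or_eq_top).imp (Subgroup.map_eq_bot_iff _).1 (hmin M)
  let ρ₁ : H →* End K W :=
    { toFun := fun h => (ρ h).restrict (hW h)
      map_one' := by ext; simp
      map_mul' := fun g h => by ext; simp }
  let ρ₂ : H →* End K (V ⧸ W) :=
    { toFun := fun h => W.mapQ W (ρ h) (hW h)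
      map_one' := by ext; simp
      map_mul' := fun g h => by ext; simp }
  have d1 := W.finrank_quotient_add_finrank
  have d2 : finrank K W < finrank K V := Submodule.finrank_lt hW1
  have d3 : finrank K W ≠ 0 := fun h => hW0 (Submodule.finrank_eq_zero.1 h)
  rcases hN _ ρ₁.normal_ker with h1 | h1
  · exact (IH _ d2 K p W H π ρ₁ hπ (fun h e => h1 e) rfl).trans d2.le
  rcases hN _ ρ₂.normal_ker with h2 | h2
  · exact (IH _ (by omega) K p _ H π ρ₂ hπ (fun h e => h2 e) rfl).trans (by omega)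
  refine (alt_noncomm hr fun a b => ?_).elim
  obtain ⟨a, rfl⟩ := hπ a
  obtain ⟨b, rfl⟩ := hπ b
  have e1 : ∀ g, ∀ v ∈ W, ρ g v = v := fun g v hv => by
    have e : ρ₁ g = 1 := by rw [← MonoidHom.mem_ker, h1]; trivial
    exact congrArg Subtype.val (LinearMap.congr_fun e ⟨v, hv⟩)
  have e2 : ∀ g v, ρ g v - v ∈ W := fun g v => by
    have e : ρ₂ g = 1 := by rw [← MonoidHom.mem_ker, h2]; trivial
    exact (Submodule.Quotient.eq W).1 (LinearMap.congr_fun e (Submodule.Quotient.mk v))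
  rw [← map_mul, ← map_mul, show a * b = b * a from hinj (LinearMap.ext fun v => ?_)]
  have e3 := e1 a _ (e2 b v)
  have e4 := e1 b _ (e2 a v)
  simp only [map_sub, map_mul, End.mul_apply] at e3 e4 ⊢
  linear_combination (norm := abel) e3 - e4

theorem alt_section_bound {F : Type w} [Field F] [Fintype F] (p : ℕ) [Fact p.Prime] [CharP F p]
    (n : ℕ) (r : ℕ) (H : Subgroup (GL (Fin n) F)) (K : Subgroup ↥H) [K.Normal]
    (h : Nonempty (↥H ⧸ K ≃* ↥(alternatingGroup (Fin r)))) (hr : 9 ≤ r) :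
    r - 1 - (if p ∣ r then 1 else 0) ≤ n := by
  obtain ⟨e⟩ := h
  letI := ZMod.algebra F p
  let φ : F →ₐ[ZMod p] AlgebraicClosure (ZMod p) := IsAlgClosed.lift
  let ρ : H →* End F (Fin n → F) := (Matrix.toLinAlgEquiv' (R := F) (n := Fin n)).toMonoidHom.comp
    ((Units.coeHom _).comp H.subtype)
  obtain ⟨ρ', h'⟩ := base_change φ.toRingHom ρ
  refine altP hr n _ p _ H (e.toMonoidHom.comp (QuotientGroup.mk' K)) ρ'
    (e.surjective.comp (QuotientGroup.mk'_surjective K)) (fun g hg => ?_) (by simp)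
  have : g = 1 := Subtype.ext (Units.ext ((Matrix.toLinAlgEquiv' (R := F)).injective
    (by rw [OneMemClass.coe_one, Units.val_one, map_one]; exact h' g hg)))
  rw [this, map_one]

end CfsgH7
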