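import Mathlib

set_option autoImplicit false

namespace CfsgH7

open Module

/-- three distinct indices below `r` -/
notation "D3(" r "; " a ", " b ", " c ")" => a < r ∧ b < r ∧ c < r ∧ a ≠ b ∧ a ≠ c ∧ b ≠ c

/-- the three-cycle `(x y z)` sends `a` to `a'` -/
notation "R3(" x ", " y ", " z "; " a ", " a' ")" =>
  (a = x ∧ a' = y) ∨ (a = y ∧ a' = z) ∨ (a = z ∧ a' = x) ∨ (a ≠ x ∧ a ≠ y ∧ a ≠ z ∧ a' = a)

/-- canonical lifts of the three-cycles acting on a vector space -/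
structure TSys (K V : Type*) [Field K] [AddCommGroup V] [Module K V] (r : ℕ) where
  T : ℕ → ℕ → ℕ → End K V
  ζ : End K V
  cyc : ∀ {a b c}, D3(r; a, b, c) → T a b c = T b c a
  inv : ∀ {a b c}, D3(r; a, b, c) → ∀ v, T a b c (T a c b v) = v
  sq : ∀ {a b c}, D3(r; a, b, c) → ∀ v, T a b c (T a b c v) = T a c b v
  conj : ∀ {x y z a b c} (a' b' c'), D3(r; x, y, z) → D3(r; a, b, c) → R3(x, y, z; a, a') →
    R3(x, y, z; b, b') → R3(x, y, z; c, c') → ∀ v, T x y z (T a b c v) = T a' b' c' (T x y z v)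
  four : ∀ {a b c d}, D3(r; a, b, c) → D3(r; a, b, d) → c ≠ d →
    ∀ v, T a b c (T a b d (T a b c (T a b d v))) = ζ v
  comm : ∀ {a b c}, D3(r; a, b, c) → ∀ v, ζ (T a b c v) = T a b c (ζ v)

theorem alt_fresh {r : ℕ} (l : List ℕ) (h : l.length < r) : ∃ k < r, k ∉ l := by
  by_contra hh
  push Not at hh
  have h1 : Finset.range r ⊆ l.toFinset := fun k hk => List.mem_toFinset.2 (hh k (by simpa using hk))
  have h2 := Finset.card_le_card h1
  have h3 := List.toFinset_card_le l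
  rw [Finset.card_range] at h2
  omega

theorem exists_R3 (x y z a : ℕ) : ∃ a', R3(x, y, z; a, a') := by
  by_cases h1 : a = x
  · exact ⟨y, by omega⟩
  by_cases h2 : a = y
  · exact ⟨z, by omega⟩
  by_cases h3 : a = z
  · exact ⟨x, by omega⟩
  exact ⟨a, by omega⟩

theorem d3_shift {s r k a b c : ℕ} (hs : s + k ≤ r) (h : D3(s; a, b, c)) :
    D3(r; a + k, b + k, c + k) := by omega

theorem r3_shift {x y z a a' : ℕ} (k : ℕ) (h : R3(x, y, z; a, a')) :
    R3(x + k, y + k, z + k; a + k, a' + k) := by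
  simpa only [ne_eq, add_left_inj] using h

theorem r3_lt {r x y z a a' : ℕ} (h : D3(r; x, y, z)) (ha : a < r) (h1 : R3(x, y, z; a, a')) :
    a' < r := by
  obtain ⟨e1, e2, e3, -⟩ := h
  rcases h1 with ⟨-, rfl⟩ | ⟨-, rfl⟩ | ⟨-, rfl⟩ | ⟨-, -, -, rfl⟩ <;> assumption

theorem r3_ne {r x y z a a' b b' : ℕ} (h : D3(r; x, y, z)) (hab : a ≠ b)
    (h1 : R3(x, y, z; a, a')) (h2 : R3(x, y, z; b, b')) : a' ≠ b' := by
  obtain ⟨-, -, -, e1, e2, e3⟩ := h
  rcases h1 with ⟨rfl, rfl⟩ | ⟨rfl, rfl⟩ | ⟨rfl, rfl⟩ | ⟨h3, h4, h5, rfl⟩ <;>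
  rcases h2 with ⟨rfl, rfl⟩ | ⟨rfl, rfl⟩ | ⟨rfl, rfl⟩ | ⟨h6, h7, h8, rfl⟩ <;> omega

theorem d3_r3 {r x y z a a' b b' c c' : ℕ} (h : D3(r; x, y, z)) (h' : D3(r; a, b, c))
    (h1 : R3(x, y, z; a, a')) (h2 : R3(x, y, z; b, b')) (h3 : R3(x, y, z; c, c')) :
    D3(r; a', b', c') :=
  ⟨r3_lt h h'.1 h1, r3_lt h h'.2.1 h2, r3_lt h h'.2.2.1 h3, r3_ne h h'.2.2.2.1 h1 h2,
    r3_ne h h'.2.2.2.2.1 h1 h3, r3_ne h h'.2.2.2.2.2 h2 h3⟩

theorem d3_cyc {r a b c : ℕ} (h : D3(r; a, b, c)) : D3(r; b, c, a) :=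
  ⟨h.2.1, h.2.2.1, h.1, h.2.2.2.2.2, h.2.2.2.1.symm, h.2.2.2.2.1.symm⟩

theorem d3_swap {r a b c : ℕ} (h : D3(r; a, b, c)) : D3(r; a, c, b) :=
  ⟨h.1, h.2.2.1, h.2.1, h.2.2.2.2.1, h.2.2.2.1, h.2.2.2.2.2.symm⟩

namespace TSys

variable {K V : Type*} [Field K] [AddCommGroup V] [Module K V] {r : ℕ} (S : TSys K V r)

theorem inv' {a b c : ℕ} (h : D3(r; a, b, c)) (v : V) : S.T a c b (S.T a b c v) = v :=
  S.inv (d3_swap h) v

theorem cube {a b c : ℕ} (h : D3(r; a, b, c)) (v : V) :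
    S.T a b c (S.T a b c (S.T a b c v)) = v := by rw [S.sq h v, S.inv h]

theorem inj {a b c : ℕ} (h : D3(r; a, b, c)) : Function.Injective (S.T a b c) :=
  fun v w e => by rw [← S.inv' h v, e, S.inv' h]

theorem disj {a b c x y z : ℕ} (h : D3(r; a, b, c)) (h' : D3(r; x, y, z))
    (hd : a ≠ x ∧ a ≠ y ∧ a ≠ z ∧ b ≠ x ∧ b ≠ y ∧ b ≠ z ∧ c ≠ x ∧ c ≠ y ∧ c ≠ z) (v : V) :
    S.T x y z (S.T a b c v) = S.T a b c (S.T x y z v) :=
  S.conj a b c h' h (by simp [hd]) (by simp [hd]) (by simp [hd]) v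

theorem zeta_sq (hr : 4 ≤ r) (v : V) : S.ζ (S.ζ v) = v := by
  rw [← S.four (a := 1) (b := 0) (c := 3) (d := 2) (by omega) (by omega) (by omega) v,
    ← S.four (a := 0) (b := 1) (c := 2) (d := 3) (by omega) (by omega) (by omega),
    S.cyc (a := 1) (b := 0) (c := 3) (by omega), S.cyc (a := 1) (b := 0) (c := 2) (by omega),
    S.inv (by omega), S.inv (by omega), S.inv (by omega), S.inv (by omega)]

theorem three {a b c d : ℕ} (h : D3(r; a, b, c)) (h' : D3(r; a, b, d)) (hcd : c ≠ d) (v : V) :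
    S.T a b c v = S.ζ (S.T a b d (S.T b c d v)) := by
  have h1 := S.four (a := d) (b := b) (c := a) (d := c) (by omega) (by omega) (by omega)
  have h2 := S.conj (x := b) (y := c) (z := d) (a := a) (b := d) (c := b) a b c (by omega)
    (by omega) (by omega) (by omega) (by omega)
  rw [S.cyc (a := d) (b := b) (c := a) (by omega), S.cyc (a := b) (b := a) (c := d) (by omega),
    S.cyc (a := d) (b := b) (c := c) (by omega)] at h1
  apply S.inj (a := a) (b := d) (c := b) (by omega)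
  obtain ⟨w, rfl⟩ : ∃ w, v = S.T b c d w := ⟨_, (S.inv (by omega) v).symm⟩
  rw [← h2, S.comm h', S.inv' h', ← h1, S.cube (by omega)]

/-- conjugation realising an even permutation -/
theorem transport (l : List ℕ) (hl : l.Nodup) (hl' : ∀ x ∈ l, x < r) (hr : l.length + 2 ≤ r) :
    ∃ (σ : ℕ → ℕ) (g : V ≃ₗ[K] V), (∀ i (h : i < l.length), σ i = l[i]) ∧
      Function.Injective σ ∧ (∀ i < r, σ i < r) ∧
      ∀ a b c, D3(r; a, b, c) → ∀ v, g (S.T a b c v) = S.T (σ a) (σ b) (σ c) (g v) := by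
  induction l using List.reverseRecOn with
  | nil => exact ⟨id, LinearEquiv.refl _ _, by simp, Function.injective_id, fun _ h => h,
      fun _ _ _ _ _ => rfl⟩
  | append_singleton l y ih =>
    rw [List.length_append, List.length_singleton] at hr
    have hy : y ∉ l := by
      have := List.nodup_append.1 hl
      exact fun h => this.2.2 y h y (by simp) rfl
    obtain ⟨σ, g, h1, h2, h3, h4⟩ := ih (List.nodup_append.1 hl).1
      (fun x hx => hl' x (by simp [hx])) (by omega)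
    have key : ∀ σ' : ℕ → ℕ, (∀ i < l.length, σ' i = σ i) → σ' l.length = y →
        ∀ i (h : i < (l ++ [y]).length), σ' i = (l ++ [y])[i] := fun σ' e1 e2 i h => by
      by_cases hi : i < l.length
      · rw [List.getElem_append_left hi, e1 i hi, h1 i hi]
      · have : i = l.length := by simp at h; omega
        subst this
        simp [e2]
    by_cases hx : σ l.length = y
    · exact ⟨σ, g, key σ (fun _ _ => rfl) hx, h2, h3, h4⟩
    obtain ⟨z, hz, hz'⟩ := alt_fresh (r := r) (σ l.length :: y :: l) (by simp; omega)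
    simp only [List.mem_cons, not_or] at hz'
    have hD : D3(r; σ l.length, y, z) :=
      ⟨h3 _ (by omega), hl' y (by simp), hz, hx, Ne.symm hz'.1, Ne.symm hz'.2.1⟩
    choose τ hτ using exists_R3 (σ l.length) y z
    have hτi : Function.Injective τ := fun i j e => by
      by_contra hij
      exact r3_ne hD hij (hτ i) (hτ j) e
    obtain ⟨t, ht⟩ : ∃ t : V ≃ₗ[K] V, ∀ v, t v = S.T (σ l.length) y z v :=
      ⟨LinearEquiv.ofBijective _ ⟨S.inj hD, fun v => ⟨_, S.inv hD v⟩⟩, fun _ => rfl⟩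
    refine ⟨τ ∘ σ, g.trans t, key _ (fun i hi => ?_) ?_,
      hτi.comp h2, fun i hi => ?_, fun a b c h v => ?_⟩
    · have e1 := hτ (σ i)
      have e2 : σ i ≠ σ l.length := h2.ne (by omega)
      have e3 : σ i ∈ l := h1 i hi ▸ List.getElem_mem hi
      have e4 : σ i ≠ y := fun h => hy (h ▸ e3)
      have e5 : σ i ≠ z := fun h => hz'.2.2 (h ▸ e3)
      rcases e1 with h | h | h | h
      exacts [(e2 h.1).elim, (e4 h.1).elim, (e5 h.1).elim, h.2.2.2]
    · rcases hτ (σ l.length) with h | h | h | h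
      exacts [h.2, (hx h.1).elim, (hz'.1 h.1.symm).elim, (h.1 rfl).elim]
    · exact r3_lt hD (h3 i hi) (hτ _)
    · rw [LinearEquiv.trans_apply, LinearEquiv.trans_apply, ht, ht, h4 a b c h]
      exact S.conj _ _ _ hD ⟨h3 a h.1, h3 b h.2.1, h3 c h.2.2.1, h2.ne h.2.2.2.1,
        h2.ne h.2.2.2.2.1, h2.ne h.2.2.2.2.2⟩ (hτ _) (hτ _) (hτ _) _

theorem tr3 (hr : 5 ≤ r) {a b c : ℕ} (h : D3(r; a, b, c)) :
    ∃ g : V ≃ₗ[K] V, ∀ v, g (S.T 0 1 2 v) = S.T a b c (g v) := by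
  obtain ⟨σ, g, h1, -, -, h4⟩ := S.transport [a, b, c] (by simp; omega) (by simp; omega)
    (by simpa using hr)
  refine ⟨g, fun v => ?_⟩
  rw [h4 0 1 2 (by omega), h1 0 (by simp), h1 1 (by simp), h1 2 (by simp)]
  rfl

/-- nontriviality -/
def NT : Prop := ∃ v, S.T 0 1 2 v ≠ v

theorem triv_of (hr : 5 ≤ r) (h0 : ¬ S.NT) {a b c : ℕ} (h : D3(r; a, b, c)) (v : V) :
    S.T a b c v = v := by
  obtain ⟨g, hg⟩ := S.tr3 hr h
  obtain ⟨v, rfl⟩ := g.surjective v
  rw [← hg, not_not.1 (not_exists.1 h0 v)]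

theorem NT.exists_ne {S : TSys K V r} (h0 : S.NT) (hr : 5 ≤ r) {a b c : ℕ} (h : D3(r; a, b, c)) :
    ∃ v, S.T a b c v ≠ v := by
  obtain ⟨g, hg⟩ := S.tr3 hr h
  obtain ⟨v, hv⟩ := h0
  exact ⟨g v, by rw [← hg]; exact g.injective.ne hv⟩

open Classical in
/-- restriction to the last indices and an invariant subspace -/
noncomputable def res (k s : ℕ) (hs : s + k ≤ r) (U : Submodule K V)
    (hU : ∀ a b c, D3(s; a, b, c) → ∀ v ∈ U, S.T (a + k) (b + k) (c + k) v ∈ U)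
    (hζ : ∀ v ∈ U, S.ζ v ∈ U) : TSys K U s where
  T a b c := if h : D3(s; a, b, c) then (S.T (a + k) (b + k) (c + k)).restrict (hU a b c h) else 1
  ζ := S.ζ.restrict hζ
  cyc {a b c} h := by
    rw [dif_pos h, dif_pos (d3_cyc h)]
    exact LinearMap.ext fun v => Subtype.ext (LinearMap.congr_fun (S.cyc (d3_shift hs h)) v.1)
  inv {a b c} h v := by
    rw [dif_pos h, dif_pos (d3_swap h)]
    exact Subtype.ext (S.inv (d3_shift hs h) v.1)
  sq {a b c} h v := by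
    rw [dif_pos h, dif_pos (d3_swap h)]
    exact Subtype.ext (S.sq (d3_shift hs h) v.1)
  conj {x y z a b c} a' b' c' h h' h1 h2 h3 v := by
    rw [dif_pos h, dif_pos h', dif_pos (d3_r3 h h' h1 h2 h3)]
    exact Subtype.ext (S.conj _ _ _ (d3_shift hs h) (d3_shift hs h') (r3_shift k h1)
      (r3_shift k h2) (r3_shift k h3) v.1)
  four {a b c d} h h' hcd v := by
    rw [dif_pos h, dif_pos h']
    exact Subtype.ext (S.four (d3_shift hs h) (d3_shift hs h') (by simpa using hcd) v.1)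
  comm {a b c} h v := by
    rw [dif_pos h]
    exact Subtype.ext (S.comm (d3_shift hs h) v.1)

theorem res_T (k s : ℕ) (hs : s + k ≤ r) (U : Submodule K V)
    (hU : ∀ a b c, D3(s; a, b, c) → ∀ v ∈ U, S.T (a + k) (b + k) (c + k) v ∈ U)
    (hζ : ∀ v ∈ U, S.ζ v ∈ U) {a b c : ℕ} (h : D3(s; a, b, c)) (v : U) :
    ((S.res k s hs U hU hζ).T a b c v : V) = S.T (a + k) (b + k) (c + k) v := by
  simp only [res, dif_pos h]
  rfl

theorem res_ζ (k s : ℕ) (hs : s + k ≤ r) (U : Submodule K V)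
    (hU : ∀ a b c, D3(s; a, b, c) → ∀ v ∈ U, S.T (a + k) (b + k) (c + k) v ∈ U)
    (hζ : ∀ v ∈ U, S.ζ v ∈ U) (v : U) : ((S.res k s hs U hU hζ).ζ v : V) = S.ζ v := rfl

theorem card_le_finrank [FiniteDimensional K V] (w : ℕ → V) (s t : Finset ℕ) (hst : s ⊆ t)
    (h : ∀ c : ℕ → K, (∀ j ∉ s, c j = 0) → ∑ j ∈ t, c j • w j = 0 → ∀ j ∈ s, c j = 0) :
    s.card ≤ finrank K V := by
  classical
  have : LinearIndependent K (fun j : s => w j) := by
    rw [Fintype.linearIndependent_iff]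
    intro g hg i
    have := h (fun j => if h : j ∈ s then g ⟨j, h⟩ else 0) (fun j hj => dif_neg hj) (by
      rw [← Finset.sum_subset hst (fun j _ hj => by rw [dif_neg hj, zero_smul]), ← hg,
        ← Finset.sum_coe_sort]
      exact Finset.sum_congr rfl fun j _ => by rw [dif_pos j.2]) i i.2
    simpa using this
  simpa using this.fintype_card_le_finrank

end TSys

end CfsgH7
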