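import Cfsg.Agent.H7.Alt1

set_option autoImplicit false

namespace CfsgH7

open Module

namespace TSys

variable {K V : Type*} [Field K] [AddCommGroup V] [Module K V] {r : ℕ} (S : TSys K V r)

theorem nat_bound [FiniteDimensional K V] (p : ℕ) [CharP K p] (hr : 9 ≤ r) (h0 : S.NT)
    (H0 : ∀ v, S.T 3 4 5 (S.T 0 1 2 v - v) = S.T 0 1 2 v - v) :
    r - 1 - (if p ∣ r then 1 else 0) ≤ finrank K V := by
  have H : ∀ {a b c x y z : ℕ}, D3(r; a, b, c) → D3(r; x, y, z) →
      (a ≠ x ∧ a ≠ y ∧ a ≠ z ∧ b ≠ x ∧ b ≠ y ∧ b ≠ z ∧ c ≠ x ∧ c ≠ y ∧ c ≠ z) →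
      ∀ v, S.T x y z (S.T a b c v - v) = S.T a b c v - v := by
    intro a b c x y z h h' hd v
    obtain ⟨σ, g, h1, -, -, h4⟩ := S.transport [a, b, c, x, y, z] (by simp; omega)
      (by simp; omega) (by simp; omega)
    obtain ⟨v, rfl⟩ := g.surjective v
    have := congrArg g (H0 v)
    rwa [h4 3 4 5 (by omega), map_sub, h4 0 1 2 (by omega), h1 0 (by simp), h1 1 (by simp),
      h1 2 (by simp), h1 3 (by simp), h1 4 (by simp), h1 5 (by simp)] at this
  obtain ⟨w₀, hw₀⟩ : ∃ w₀, S.T 0 1 4 (S.T 0 2 3 w₀ - w₀) ≠ S.T 0 2 3 w₀ - w₀ := by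
    by_contra hh
    push Not at hh
    have h2 : ∀ {a b c x y : ℕ}, D3(r; a, b, c) → D3(r; a, x, y) →
        (b ≠ x ∧ b ≠ y ∧ c ≠ x ∧ c ≠ y) → ∀ v, S.T a x y (S.T a b c v - v) = S.T a b c v - v := by
      intro a b c x y h h' hd v
      obtain ⟨σ, g, h1, -, -, h4⟩ := S.transport [a, x, b, c, y] (by simp; omega)
        (by simp; omega) (by simp; omega)
      obtain ⟨v, rfl⟩ := g.surjective v
      have := congrArg g (hh v)
      rwa [h4 0 1 4 (by omega), map_sub, h4 0 2 3 (by omega), h1 0 (by simp), h1 1 (by simp),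
        h1 2 (by simp), h1 3 (by simp), h1 4 (by simp)] at this
    have h3 : ∀ v, S.T 1 2 3 v = S.T 1 2 0 v := fun v => by
      obtain ⟨v, rfl⟩ : ∃ w, v = S.T 0 3 4 w := ⟨_, (S.inv (by omega) v).symm⟩
      have e1 := h2 (a := 0) (b := 1) (c := 2) (x := 3) (y := 4) (by omega) (by omega) (by omega) v
      have e2 := h2 (a := 0) (b := 3) (c := 4) (x := 1) (y := 2) (by omega) (by omega) (by omega) v
      rw [map_sub, S.conj 3 1 2 (by omega) (by omega) (by omega) (by omega) (by omega)] at e1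
      rw [map_sub] at e2
      rw [← S.cyc (a := 3) (by omega), ← S.cyc (a := 0) (by omega)]
      linear_combination (norm := abel) e1 - e2
    have h4 : ∀ v, S.ζ v = S.T 1 2 0 v := fun v => by
      rw [← S.four (a := 1) (b := 2) (c := 0) (d := 3) (by omega) (by omega) (by omega), h3, h3,
        S.cube (by omega)]
    obtain ⟨v, hv⟩ := h0
    have h5 := S.zeta_sq (by omega) (S.T 1 2 0 v)
    rw [h4, h4, S.cube (by omega)] at h5
    exact hv (by rw [S.cyc (by omega), ← h5])
  have hv : ∀ x y z, D3(r; x, y, z) → (x = 1 ∨ 4 ≤ x) ∧ (y = 1 ∨ 4 ≤ y) ∧ (z = 1 ∨ 4 ≤ z) →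
      S.T x y z (S.T 0 2 3 w₀ - w₀) = S.T 0 2 3 w₀ - w₀ :=
    fun x y z h h' => H (by omega) h (by omega) w₀
  generalize S.T 0 2 3 w₀ - w₀ = v at hw₀ hv
  have hζv : S.ζ v = v := by
    rw [← S.four (a := 4) (b := 5) (c := 6) (d := 7) (by omega) (by omega) (by omega),
      hv 4 5 7 (by omega) (by omega), hv 4 5 6 (by omega) (by omega),
      hv 4 5 7 (by omega) (by omega), hv 4 5 6 (by omega) (by omega)]
  have hx : ∀ k, 4 ≤ k → k < r → S.T 0 1 k v = S.T 0 1 4 v := fun k hk hk' => by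
    by_cases h4 : k = 4
    · rw [h4]
    · rw [S.three (d := 4) (by omega) (by omega) h4, hv 1 k 4 (by omega) (by omega),
        S.comm (by omega), hζv]
  have hu0 := sub_ne_zero.2 hw₀
  have hu1 : ∀ x y z, D3(r; x, y, z) → 2 ≤ x ∧ 2 ≤ y ∧ 2 ≤ z →
      S.T x y z (S.T 0 1 4 v - v) = S.T 0 1 4 v - v := fun x y z h h' => by
    obtain ⟨k, hk, hk'⟩ := alt_fresh (r := r) [0, 1, 2, 3, x, y, z] (by simp; omega)
    simp only [List.mem_cons, not_or] at hk'
    rw [← hx k (by omega) hk]
    exact H (by omega) h (by omega) v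
  have hu2 : S.T 0 1 4 (S.T 1 4 5 (S.T 0 1 4 v - v)) = -(S.T 0 1 4 v - v) := by
    have := S.four (a := 1) (b := 4) (c := 0) (d := 5) (by omega) (by omega) (by omega) v
    rw [← S.cyc (a := 0) (by omega), hv 1 4 5 (by omega) (by omega)] at this
    rw [map_sub, map_sub, this, hζv, hv 1 4 5 (by omega) (by omega), neg_sub]
  have hu3 : S.T 0 1 4 (S.T 0 1 4 (S.T 0 1 4 v - v)) + S.T 0 1 4 (S.T 0 1 4 v - v) +
      (S.T 0 1 4 v - v) = 0 := by
    simp only [map_sub, S.cube (a := 0) (b := 1) (c := 4) (by omega)]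
    abel
  have hζu : S.ζ (S.T 0 1 4 v - v) = S.T 0 1 4 v - v := by rw [map_sub, S.comm (by omega), hζv]
  generalize S.T 0 1 4 v - v = u at hu0 hu1 hu2 hu3 hζu
  obtain ⟨w, hw1, hw⟩ : ∃ w : ℕ → V, w 1 = u ∧ ∀ j k, D3(r; 1, j, k) → 2 ≤ j ∧ 2 ≤ k →
      S.T 1 j k u = w j := by
    refine ⟨fun j => if j = 1 then u else S.T 1 j (if j = 2 then 3 else 2) u, by simp,
      fun j k h h' => ?_⟩
    beta_reduce
    rw [if_neg (by omega)]
    obtain ⟨l, hl, hl'⟩ : ∃ l, (if j = 2 then 3 else 2) = l ∧ l ≠ j ∧ 2 ≤ l ∧ l ≤ 3 :=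
      ⟨_, rfl, by split_ifs <;> omega⟩
    rw [hl]
    by_cases hk : k = l
    · rw [hk]
    · rw [S.three (d := l) h (by omega) hk, hu1 j k l (by omega) (by omega), S.comm (by omega),
        hζu]
  have P0 : ∀ b c j j', D3(r; 1, b, c) → 2 ≤ b ∧ 2 ≤ c ∧ 1 ≤ j ∧ j < r → R3(1, b, c; j, j') →
      S.T 1 b c (w j) = w j' := by
    rintro b c j j' h h' (⟨rfl, rfl⟩ | ⟨rfl, rfl⟩ | ⟨rfl, rfl⟩ | ⟨h1, h2, h3, rfl⟩)
    · rw [hw1, hw _ _ h (by omega)]
    · rw [← hw _ _ h (by omega), S.sq h, hw _ _ (by omega) (by omega)]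
    · rw [← hw j b (by omega) (by omega), S.inv h, hw1]
    · rw [← hw j' b (by omega) (by omega), ← S.conj (a := b) (b := j') (c := c) 1 b c (by omega)
        (by omega) (by omega) (by omega) (by omega), hu1 b j' c (by omega) (by omega)]
  have P1 : ∀ a b c j j', D3(r; a, b, c) → 1 ≤ a ∧ 1 ≤ b ∧ 1 ≤ c ∧ 1 ≤ j ∧ j < r →
      R3(a, b, c; j, j') → S.T a b c (w j) = w j' := by
    intro a b c j j' h h' hR
    by_cases ha : a = 1
    · subst ha; exact P0 b c j j' h (by omega) hR
    by_cases hb : b = 1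
    · subst hb; rw [S.cyc h]; exact P0 c a j j' (by omega) (by omega) (by omega)
    by_cases hc : c = 1
    · subst hc; rw [← S.cyc (by omega)]; exact P0 a b j j' (by omega) (by omega) (by omega)
    by_cases hj : j = 1
    · obtain rfl : j' = 1 := by omega
      rw [hj, hw1, hu1 a b c h (by omega)]
    obtain ⟨k, hk, hk'⟩ := alt_fresh (r := r) [0, 1, j, a, b, c] (by simp; omega)
    simp only [List.mem_cons, not_or] at hk'
    rw [← hw j k (by omega) (by omega), S.conj 1 j' k h (by omega) (by omega) hR (by omega),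
      hu1 a b c h (by omega), hw j' k (by omega) (by omega)]
  have Q4 : S.T 0 1 4 (w 4) = -u := by rw [← hw 4 5 (by omega) (by omega), hu2]
  have Q1 : S.T 0 1 4 u = w 4 - u := by
    apply S.inj (a := 0) (b := 1) (c := 4) (by omega)
    rw [map_sub, Q4]
    linear_combination (norm := abel) hu3
  have Q2 : ∀ j, 2 ≤ j → j < r → j ≠ 4 → S.T 0 1 4 (w j) = w j - u := fun j h1 h2 h3 => by
    obtain ⟨l, hl, hl'⟩ := alt_fresh (r := r) [0, 1, 4, j] (by simp; omega)
    simp only [List.mem_cons, not_or] at hl'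
    have e1 := S.conj (x := 4) (y := j) (z := l) (a := 0) (b := 1) (c := 4) 0 1 j (by omega)
      (by omega) (by omega) (by omega) (by omega) u
    rw [Q1, map_sub, hu1 4 j l (by omega) (by omega),
      P1 4 j l 4 j (by omega) (by omega) (by omega)] at e1
    rw [S.three (d := j) (by omega) (by omega) (by omega), P1 1 4 j j 1 (by omega) (by omega)
      (by omega), hw1, S.comm (by omega), hζu, e1]
  have hne : ∀ a b, 1 ≤ a → 1 ≤ b → a < r → b < r → a ≠ b → w a ≠ w b := by
    intro a b h1 h2 h3 h4 h5 e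
    have e1 : ∀ j, 1 ≤ j → j < r → w j = w b := fun j h6 h7 => by
      by_cases hjb : j = b
      · rw [hjb]
      by_cases hja : j = a
      · rw [hja, e]
      obtain ⟨l, hl, hl'⟩ := alt_fresh (r := r) [0, a, b, j] (by simp; omega)
      simp only [List.mem_cons, not_or] at hl'
      rw [← P1 a j l a j (by omega) (by omega) (by omega), e,
        P1 a j l b b (by omega) (by omega) (by omega)]
    have e2 : w 4 = u := by rw [← hw1, e1 4 (by omega) (by omega), e1 1 (by omega) (by omega)]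
    rw [e2, Q1, e2, sub_self] at Q4
    exact hu0 (neg_eq_zero.1 Q4.symm)
  have hc : ∀ c : ℕ → K, ∑ j ∈ Finset.Ico 1 r, c j • w j = 0 →
      ∀ a, 1 ≤ a → a < r → c a = c 1 := by
    intro c hc a h1 h2
    by_contra h3
    have h4 : a ≠ 1 := fun h => h3 (by rw [h])
    obtain ⟨x, hx, hx'⟩ := alt_fresh (r := r) [0, 1, a] (by simp; omega)
    obtain ⟨y, hy, hy'⟩ := alt_fresh (r := r) [0, 1, a, x] (by simp; omega)
    obtain ⟨z, hz, hz'⟩ := alt_fresh (r := r) [0, 1, a, x, y] (by simp; omega)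
    simp only [List.mem_cons, not_or] at hx' hy' hz'
    have e1 : ∑ j ∈ Finset.Ico 1 r, c j • (S.T a 1 x (w j) - w j) = 0 := by
      simp only [smul_sub, Finset.sum_sub_distrib, ← map_smul, ← map_sum, hc, map_zero, sub_self]
    rw [← Finset.sum_subset (s₁ := {a, 1, x}) (by
      intro j hj
      simp only [Finset.mem_insert, Finset.mem_singleton, Finset.mem_Ico] at hj ⊢
      omega) (fun j hj hj' => by
        simp only [Finset.mem_insert, Finset.mem_singleton, Finset.mem_Ico] at hj hj'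
        rw [P1 a 1 x j j (by omega) (by omega) (by omega), sub_self, smul_zero]),
      Finset.sum_insert (by simp; omega), Finset.sum_pair (by omega),
      P1 a 1 x a 1 (by omega) (by omega) (by omega), P1 a 1 x 1 x (by omega) (by omega) (by omega),
      P1 a 1 x x a (by omega) (by omega) (by omega)] at e1
    have e2 := congrArg (S.T 1 y z) e1
    simp only [map_add, map_smul, map_sub, map_zero] at e2
    rw [P1 1 y z 1 y (by omega) (by omega) (by omega), P1 1 y z a a (by omega) (by omega) (by omega),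
      P1 1 y z x x (by omega) (by omega) (by omega)] at e2
    have e3 : (c a - c 1) • (w y - w 1) = 0 := by
      linear_combination (norm := module) e2 - e1
    rcases smul_eq_zero.1 e3 with h | h
    · exact h3 (sub_eq_zero.1 h)
    · exact hne y 1 (by omega) (by omega) hy (by omega) (by omega) (sub_eq_zero.1 h)
  split_ifs with hp
  · have := card_le_finrank w (Finset.Ico 2 r) (Finset.Ico 1 r)
      (Finset.Ico_subset_Ico_left (by omega)) fun c h1 h2 j hj => by
        rw [Finset.mem_Ico] at hj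
        rw [hc c h2 j (by omega) hj.2, h1 1 (by simp)]
    rw [Nat.card_Ico] at this
    omega
  · have := card_le_finrank w (Finset.Ico 1 r) (Finset.Ico 1 r) subset_rfl fun c h1 h2 j hj => by
      rw [Finset.mem_Ico] at hj
      rw [hc c h2 j hj.1 hj.2]
      by_contra h3
      rw [Finset.sum_congr rfl fun j hj => by
        rw [hc c h2 j (Finset.mem_Ico.1 hj).1 (Finset.mem_Ico.1 hj).2], ← Finset.smul_sum,
        smul_eq_zero, or_iff_right h3] at h2
      have e1 : ∑ j ∈ Finset.Ico 1 r, (S.T 0 1 4 (w j) - w j + u) = ((r - 1 : ℕ) : K) • u := by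
        simp only [Finset.sum_add_distrib, Finset.sum_sub_distrib, ← map_sum, h2, map_zero,
          Finset.sum_const, Nat.card_Ico, Nat.cast_smul_eq_nsmul]
        simp
      rw [← Finset.sum_subset (s₁ := {1, 4}) (by
        intro j hj
        simp only [Finset.mem_insert, Finset.mem_singleton, Finset.mem_Ico] at hj ⊢
        omega) (fun j hj hj' => by
          simp only [Finset.mem_insert, Finset.mem_singleton, Finset.mem_Ico] at hj hj'
          rw [Q2 j (by omega) (by omega) (by omega)]; abel),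
        Finset.sum_pair (by omega), Q4, hw1, Q1, Nat.cast_sub (by omega)] at e1
      have e2 : (r : K) • u = 0 := by linear_combination (norm := module) -e1
      exact hp ((CharP.cast_eq_zero_iff K p r).1 ((smul_eq_zero.1 e2).resolve_right hu0))
    rw [Nat.card_Ico] at this
    omega

end TSys

end CfsgH7
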