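import Cfsg.Agent.H7.Alt1b
import Cfsg.Agent.H8.Root

set_option autoImplicit false

namespace CfsgH7

open Module

universe u v

section
variable {K V : Type*} [Field K] [AddCommGroup V] [Module K V]

theorem li_of_weights {ι κ : Type*} (f : κ → End K V) (v : ι → V) (χ : ι → κ → K)
    (hχ : Function.Injective χ) (hv : ∀ i, v i ≠ 0) (h : ∀ i k, f k (v i) = χ i k • v i) :
    LinearIndependent K v := by
  classical
  rw [linearIndependent_iff']
  intro s
  induction s using Finset.induction_on with
  | empty => simp
  | insert a s ha ih =>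
    intro g hg
    rw [Finset.sum_insert ha] at hg
    have h1 : ∀ i ∈ s, g i = 0 := fun i hi => by
      obtain ⟨k, hk⟩ := Function.ne_iff.1 (hχ.ne (show i ≠ a from fun e => ha (e ▸ hi)))
      have e : ∑ j ∈ s, (g j * (χ j k - χ a k)) • v j = 0 := by
        have e1 := congrArg (f k) hg
        have e2 := congrArg (χ a k • ·) hg
        simp only [map_add, map_sum, map_smul, h, map_zero, smul_add, Finset.smul_sum,
          smul_zero] at e1 e2
        have : ∑ j ∈ s, (g j * (χ j k - χ a k)) • v j =
            ∑ j ∈ s, g j • χ j k • v j - ∑ j ∈ s, χ a k • g j • v j := by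
          rw [← Finset.sum_sub_distrib]
          exact Finset.sum_congr rfl fun j _ => by module
        rw [this]
        linear_combination (norm := module) e1 - e2
      exact (mul_eq_zero.1 (ih _ e i hi)).resolve_right (sub_ne_zero.2 hk)
    intro i hi
    rcases Finset.mem_insert.1 hi with rfl | hi
    · rw [Finset.sum_eq_zero (fun j hj => by rw [h1 j hj, zero_smul]), add_zero] at hg
      exact (smul_eq_zero.1 hg).resolve_right (hv _)
    · exact h1 i hi

variable [FiniteDimensional K V]

theorem four_le_of_weights (A B : End K V) (v : Fin 4 → V) (α β : Fin 4 → K)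
    (hχ : ∀ i j, α i = α j → β i = β j → i = j) (hv : ∀ i, v i ≠ 0)
    (h1 : ∀ i, A (v i) = α i • v i) (h2 : ∀ i, B (v i) = β i • v i) : 4 ≤ finrank K V := by
  have := (li_of_weights (fun b : Bool => cond b A B) v (fun i b => cond b (α i) (β i))
    (fun i j e => hχ i j (congrFun e true) (congrFun e false)) hv
    (fun i b => by cases b; exacts [h2 i, h1 i])).fintype_card_le_finrank
  simpa using this

theorem finrank3_le (A B C : Submodule K V)
    (h : ∀ a ∈ A, ∀ b ∈ B, ∀ c ∈ C, a + b + c = 0 → a = 0 ∧ b = 0 ∧ c = 0) :
    finrank K A + finrank K B + finrank K C ≤ finrank K V := by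
  have := LinearMap.finrank_le_finrank_of_injective
    (f := (A.subtype.coprod B.subtype).coprod C.subtype) (by
      rw [injective_iff_map_eq_zero]
      rintro ⟨⟨a, b⟩, c⟩ e
      obtain ⟨h1, h2, h3⟩ := h a a.2 b b.2 c c.2 e
      simp [Subtype.ext_iff, h1, h2, h3])
  simpa [Module.finrank_prod] using this

theorem finrank_le_of_maps (g : End K V) (hg : Function.Injective g) {A B : Submodule K V}
    (h : ∀ v ∈ A, g v ∈ B) : finrank K A ≤ finrank K B :=
  LinearMap.finrank_le_finrank_of_injective (f := g.restrict h)
    fun x y e => Subtype.ext (hg (congrArg Subtype.val e))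

theorem three_mul_le (N : End K V) (h : ∀ v, N (N (N v)) = 0) :
    3 * finrank K (LinearMap.range (N ∘ₗ N)) ≤ finrank K V := by
  have h1 := N.finrank_range_add_finrank_ker
  have h2 := (N.domRestrict (LinearMap.range N)).finrank_range_add_finrank_ker
  have h3 : LinearMap.range (N.domRestrict (LinearMap.range N)) = LinearMap.range (N ∘ₗ N) := by
    rw [LinearMap.range_domRestrict, LinearMap.range_comp]
  have h4 : finrank K (LinearMap.range (N ∘ₗ N)) ≤ finrank K (LinearMap.ker N) :=
    Submodule.finrank_mono (by rintro _ ⟨v, rfl⟩; exact h v)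
  have h5 : finrank K (LinearMap.range (N ∘ₗ N)) ≤
      finrank K (LinearMap.ker (N.domRestrict (LinearMap.range N))) := by
    refine LinearMap.finrank_le_finrank_of_injective (f := LinearMap.codRestrict _
      (Submodule.inclusion (LinearMap.range_comp_le_range N N)) ?_) fun x y e => ?_
    · rintro ⟨_, v, rfl⟩
      exact h v
    · exact Subtype.ext (congrArg (fun z => z.1.1) e)
  rw [h3] at h2
  omega

end

open CfsgH8 in
theorem cliff {K : Type*} [Field K] [IsAlgClosed K] (k : ℕ) :
    ∀ (M : Type u) (V : Type v) [AddCommGroup M] [Module K M] [FiniteDimensional K M]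
      [AddCommGroup V] [Module K V] [FiniteDimensional K V] [Nontrivial V]
      (Q : QuadraticForm K M) (γ : M →ₗ[K] End K V), ND Q → finrank K M = 2 * k →
      (∀ x v, γ x (γ x v) = Q x • v) → 2 ^ k ≤ finrank K V := by
  induction k with
  | zero => intro M V _ _ _ _ _ _ _ Q γ _ _ _; exact finrank_pos
  | succ k ih =>
    intro M V _ _ _ _ _ _ _ Q γ hQ hM hγ
    have ac : ∀ x y v, γ x (γ y v) + γ y (γ x v) = QuadraticMap.polar Q x y • v := by
      intro x y v
      have := hγ (x + y) v
      simp only [map_add, LinearMap.add_apply, Q_add, hγ] at this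
      linear_combination (norm := module) this
    obtain ⟨e, he0, he⟩ : ∃ e, e ≠ 0 ∧ Q e = 0 := by
      obtain ⟨f, hf⟩ := exists_linearIndependent_of_le_finrank (R := K) (M := M) (n := 2)
        (by omega)
      by_cases h : Q (f 0) = 0
      · exact ⟨f 0, hf.ne_zero 0, h⟩
      obtain ⟨a, ha⟩ := IsAlgClosed.exists_root (Polynomial.C (Q (f 0)) * Polynomial.X ^ 2 +
        Polynomial.C (QuadraticMap.polar Q (f 0) (f 1)) * Polynomial.X + Polynomial.C (Q (f 1)))
        (by rw [Polynomial.degree_quadratic h]; decide)
      refine ⟨a • f 0 + f 1, fun e => ?_, ?_⟩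
      · have := Fintype.linearIndependent_iff.1 hf ![a, 1] (by simpa using e) 1
        simp at this
      · simp only [Polynomial.IsRoot, Polynomial.eval_add, Polynomial.eval_mul, Polynomial.eval_C,
          Polynomial.eval_pow, Polynomial.eval_X] at ha
        rw [Q_add, Q_smul, polar_sl]
        linear_combination ha
    obtain ⟨f, hf, hef⟩ := hQ.exists_partner' he he0
    have hU : ∀ x : perp2 Q e f, ∀ v ∈ LinearMap.ker (γ e), γ x v ∈ LinearMap.ker (γ e) := by
      intro x v hv
      have := ac e x v
      rw [LinearMap.mem_ker] at hv ⊢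
      rwa [hv, (mem_perp2.1 x.2).1, map_zero, zero_smul, add_zero] at this
    haveI : Nontrivial (LinearMap.ker (γ e)) := by
      obtain ⟨v, hv⟩ := exists_ne (0 : V)
      by_cases h : γ e v = 0
      · exact ⟨⟨⟨v, h⟩, 0, fun e => hv (congrArg Subtype.val e)⟩⟩
      · exact ⟨⟨⟨γ e v, by rw [LinearMap.mem_ker, hγ, he, zero_smul]⟩, 0,
          fun e => h (congrArg Subtype.val e)⟩⟩
    have h1 := ih (perp2 Q e f) (LinearMap.ker (γ e)) (res Q _)
      { toFun := fun x => (γ x).restrict (hU x)
        map_add' := fun x y => by ext v; simp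
        map_smul' := fun c x => by ext v; simp } (nd_perp2 hQ he hf hef)
      (by have := finrank_perp2 hQ he hef; omega) (fun x v => Subtype.ext (hγ x v))
    have h2 := (γ e).finrank_range_add_finrank_ker
    have h3 : finrank K (LinearMap.ker (γ e)) ≤ finrank K (LinearMap.range (γ e)) :=
      Submodule.finrank_mono fun v hv => ⟨γ f v, by
        have := ac e f v
        rwa [LinearMap.mem_ker.1 hv, hef, map_zero, one_smul, add_zero] at this⟩
    rw [pow_succ]
    omega

open CfsgH8 in
theorem cliff_gram {K V : Type*} [Field K] [IsAlgClosed K] [AddCommGroup V] [Module K V]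
    [FiniteDimensional K V] [Nontrivial V] (k : ℕ) (g : ℕ → End K V) (α β : K)
    (h1 : ∀ i < 2 * k, ∀ v, g i (g i v) = α • v)
    (h2 : ∀ i < 2 * k, ∀ j < 2 * k, i ≠ j → ∀ v, g i (g j v) + g j (g i v) = β • v)
    (hα : 2 * α - β ≠ 0) (hβ : 2 * α - β + 2 * k * β ≠ 0) : 2 ^ k ≤ finrank K V := by
  classical
  let A : Matrix (Fin (2 * k)) (Fin (2 * k)) K := fun i j => if i = j then α else if i < j then β else 0
  let γ : (Fin (2 * k) → K) →ₗ[K] End K V := Fintype.linearCombination K fun i => g i
  let Q : QuadraticForm K (Fin (2 * k) → K) := LinearMap.BilinMap.toQuadraticMap (Matrix.toBilin' A)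
  have hγ : ∀ x v, γ x (γ x v) = Q x • v := by
    intro x v
    have e : ∑ z : Fin (2 * k) × Fin (2 * k),
        (x z.1 * x z.2) • (g z.1 (g z.2 v) - A z.1 z.2 • v) = 0 := by
      refine Finset.sum_ninvolution Prod.swap (fun z => ?_) (fun z hz e => hz ?_)
        (fun _ => Finset.mem_univ _) (fun _ => rfl)
      · obtain ⟨i, j⟩ := z
        rcases lt_trichotomy i j with h | rfl | h
        · have := h2 i i.2 j j.2 (Fin.val_ne_of_ne h.ne) v
          simp only [A, Prod.swap, if_neg h.ne, if_neg h.ne', if_pos h, if_neg h.not_gt]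
          linear_combination (norm := module) (x i * x j) • this
        · simp [A, h1 i i.2]
        · have := h2 i i.2 j j.2 (Fin.val_ne_of_ne h.ne') v
          simp only [A, Prod.swap, if_neg h.ne, if_neg h.ne', if_pos h, if_neg h.not_gt]
          linear_combination (norm := module) (x i * x j) • this
      · obtain ⟨i, j⟩ := z
        obtain rfl : j = i := congrArg Prod.fst e
        simp [A, h1 j j.2]
    simp only [smul_sub, Finset.sum_sub_distrib, sub_eq_zero, Fintype.sum_prod_type] at e
    simp only [γ, Q, Fintype.linearCombination_apply, LinearMap.sum_apply, LinearMap.smul_apply,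
      map_sum, map_smul, LinearMap.BilinMap.toQuadraticMap_apply, Matrix.toBilin'_apply,
      Finset.sum_smul, Finset.smul_sum]
    rw [Finset.sum_comm]
    convert e using 3 with i _ j _ i _ j _
    · rw [smul_smul, mul_comm]
    · rw [smul_smul]; congr 1; ring
  refine cliff k _ V Q γ (ND.of_forall fun x hx => ?_) (by simp) hγ
  obtain ⟨v, hv⟩ := exists_ne (0 : V)
  have e1 : ∀ j, (2 * α - β) * x j + β * ∑ i, x i = 0 := fun j => by
    have e := hγ (x + Pi.single j 1) v
    have e' : γ (Pi.single j 1) = g j := by simp [γ]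
    simp only [map_add, LinearMap.add_apply, Q_add, hγ, hx] at e
    rw [e'] at e
    have e2 : γ x (g j v) + g j (γ x v) = 0 := by linear_combination (norm := module) e
    have e3 : γ x (g j v) + g j (γ x v) =
        ∑ i, (x i * (β + if i = j then 2 * α - β else 0)) • v := by
      simp only [γ, Fintype.linearCombination_apply, LinearMap.sum_apply, LinearMap.smul_apply,
        map_sum, map_smul, ← Finset.sum_add_distrib]
      refine Finset.sum_congr rfl fun i _ => ?_
      split_ifs with h
      · rw [h, h1 j j.2]; module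
      · have := h2 i i.2 j j.2 (Fin.val_ne_of_ne h) v
        linear_combination (norm := module) x i • this
    rw [e2, ← Finset.sum_smul, eq_comm, smul_eq_zero, or_iff_left hv] at e3
    simp only [mul_add, Finset.sum_add_distrib, mul_ite, mul_zero, Finset.sum_ite_eq',
      Finset.mem_univ, if_true, ← Finset.sum_mul] at e3
    linear_combination e3
  have e2 : ∑ i, x i = 0 := by
    have := Finset.sum_eq_zero (s := Finset.univ) fun j _ => e1 j
    simp only [Finset.sum_add_distrib, ← Finset.mul_sum, Finset.sum_const, Finset.card_univ,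
      Fintype.card_fin, nsmul_eq_mul, Nat.cast_mul, Nat.cast_ofNat] at this
    exact (mul_eq_zero.1 (by linear_combination this :
      (2 * α - β + 2 * k * β) * ∑ i, x i = 0)).resolve_left hβ
  funext j
  have := e1 j
  rw [e2, mul_zero, add_zero] at this
  exact (mul_eq_zero.1 this).resolve_left hα

end CfsgH7
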