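import Cfsg.Agent.H7.Alt2a

set_option autoImplicit false

namespace CfsgH7

open Module

namespace TSys

variable {K V : Type*} [Field K] [AddCommGroup V] [Module K V] {r : ℕ} (S : TSys K V r)

theorem surj {a b c : ℕ} (h : D3(r; a, b, c)) (v : V) : ∃ w, v = S.T a b c w :=
  ⟨_, (S.inv h v).symm⟩

/-- restriction to a subspace invariant under the centraliser of the first indices -/
noncomputable def resC (k : ℕ) (hk : k ≤ r) (U : Submodule K V)
    (hU : ∀ g : End K V, (∀ a b c, D3(k; a, b, c) → ∀ v, g (S.T a b c v) = S.T a b c (g v)) →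
      (∀ v, g (S.ζ v) = S.ζ (g v)) → ∀ v ∈ U, g v ∈ U) : TSys K U (r - k) :=
  S.res k (r - k) (by omega) U
    (fun a b c h => hU _ (fun x y z h' => S.disj (by simpa using d3_shift (k := 0) hk h')
      (d3_shift (by omega) h) (by clear h; omega)) fun v => (S.comm (d3_shift (by omega) h) v).symm)
    (hU _ (fun x y z h' => S.comm (by simpa using d3_shift (k := 0) hk h')) fun _ => rfl)

theorem resC_T (k : ℕ) (hk : k ≤ r) (U : Submodule K V) (hU) {a b c : ℕ}
    (h : D3(r - k; a, b, c)) (v : U) :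
    ((S.resC k hk U hU).T a b c v : V) = S.T (a + k) (b + k) (c + k) v := S.res_T _ _ _ _ _ _ h v

theorem resC_ζ (k : ℕ) (hk : k ≤ r) (U : Submodule K V) (hU) (v : U) :
    ((S.resC k hk U hU).ζ v : V) = S.ζ v := rfl

theorem resC_triv (k : ℕ) (hk : k ≤ r) (hk' : k + 5 ≤ r) (U : Submodule K V) (hU)
    (h0 : ¬ (S.resC k hk U hU).NT) {a b c : ℕ} (h : D3(r; a, b, c)) (h' : k ≤ a ∧ k ≤ b ∧ k ≤ c)
    (v : V) (hv : v ∈ U) : S.T a b c v = v := by
  obtain ⟨a, rfl⟩ := Nat.exists_eq_add_of_le' h'.1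
  obtain ⟨b, rfl⟩ := Nat.exists_eq_add_of_le' h'.2.1
  obtain ⟨c, rfl⟩ := Nat.exists_eq_add_of_le' h'.2.2
  have hD : D3(r - k; a, b, c) := by omega
  have := congrArg Subtype.val ((S.resC k hk U hU).triv_of (by omega) h0 hD ⟨v, hv⟩)
  rwa [S.resC_T k hk U hU hD] at this

theorem triv_of_four (hr : 5 ≤ r) (h : ∀ v, S.T 0 1 2 (S.T 0 1 3 v) = v) : ¬ S.NT := by
  have c2 := S.conj (x := 2) (y := 3) (z := 4) (a := 0) (b := 1) (c := 2) 0 1 3 (by omega)
    (by omega) (by omega) (by omega) (by omega)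
  have c3 := S.conj (x := 2) (y := 3) (z := 4) (a := 0) (b := 1) (c := 3) 0 1 4 (by omega)
    (by omega) (by omega) (by omega) (by omega)
  have c4 := S.conj (x := 2) (y := 3) (z := 4) (a := 0) (b := 1) (c := 4) 0 1 2 (by omega)
    (by omega) (by omega) (by omega) (by omega)
  have h34 : ∀ v, S.T 0 1 3 (S.T 0 1 4 v) = v := fun v => by
    obtain ⟨w, rfl⟩ := S.surj (a := 2) (b := 3) (c := 4) (by omega) v
    rw [← c3, ← c2, h]
  have h42 : ∀ v, S.T 0 1 4 (S.T 0 1 2 v) = v := fun v => by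
    obtain ⟨w, rfl⟩ := S.surj (a := 2) (b := 3) (c := 4) (by omega) v
    rw [← c4, ← c3, h34]
  rintro ⟨v, hv⟩
  apply hv
  have e := h (S.T 0 1 4 (S.T 0 1 2 (S.T 0 1 2 v)))
  rw [h34, S.cube (by omega), h42] at e
  exact e.symm

theorem s_conj (hr : 5 ≤ r) (v : V) :
    S.T 1 2 3 (S.T 2 3 4 (S.T 0 1 2 v)) = S.T 0 2 1 (S.T 1 2 3 (S.T 2 3 4 v)) := by
  rw [S.conj (x := 2) 0 1 3 (by omega) (by omega) (by omega) (by omega) (by omega),
    S.conj (x := 1) 0 2 1 (by omega) (by omega) (by omega) (by omega) (by omega)]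

theorem eig_inv {a b c : ℕ} (h : D3(r; a, b, c)) {μ : K} {v : V} (hv : S.T a c b v = μ • v) :
    S.T a b c v = μ ^ 2 • v := by
  rw [← S.sq (d3_swap h), hv, map_smul, hv, smul_smul, pow_two]

theorem s_eig (hr : 5 ≤ r) {μ : K} {v : V} (hv : S.T 0 1 2 v = μ • v) :
    S.T 0 1 2 (S.T 1 2 3 (S.T 2 3 4 v)) = μ ^ 2 • S.T 1 2 3 (S.T 2 3 4 v) :=
  S.eig_inv (by omega) (by rw [← S.s_conj hr, hv, map_smul, map_smul])

theorem s_inj (hr : 5 ≤ r) : Function.Injective fun v => S.T 1 2 3 (S.T 2 3 4 v) :=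
  (S.inj (by omega)).comp (S.inj (by omega))

theorem one_dim [FiniteDimensional K V] (hr : 5 ≤ r) (h : finrank K V ≤ 1) : ¬ S.NT := by
  obtain ⟨u, hu⟩ := finrank_le_one_iff.1 h
  have hc : ∀ f g : End K V, ∀ v, f (g v) = g (f v) := fun f g v => by
    obtain ⟨c, rfl⟩ := hu v
    obtain ⟨a, ha⟩ := hu (f u)
    obtain ⟨b, hb⟩ := hu (g u)
    simp only [map_smul, ← ha, ← hb]
    module
  rintro ⟨v, hv⟩
  have e := S.s_conj hr v
  rw [hc (S.T 0 2 1), hc (S.T 0 2 1)] at e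
  have e' := S.s_inj hr e
  apply hv
  have e2 := congrArg (S.T 0 1 2) e'
  rw [S.inv (by omega)] at e2
  have e3 := S.cube (a := 0) (b := 1) (c := 2) (by omega) v
  rwa [e2] at e3

theorem H0_of_567 (hr : 9 ≤ r)
    (h : ∀ v, S.T 5 6 7 (S.T 0 1 2 v - v) = S.T 0 1 2 v - v) (v : V) :
    S.T 3 4 5 (S.T 0 1 2 v - v) = S.T 0 1 2 v - v := by
  obtain ⟨σ, g, h1, -, -, h4⟩ := S.transport [0, 1, 2, 5, 6, 7] (by simp)
    (by simp; omega) (by simp; omega)
  apply g.injective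
  rw [h4 3 4 5 (by omega), map_sub, h4 0 1 2 (by omega), h1 0 (by simp), h1 1 (by simp),
    h1 2 (by simp), h1 3 (by simp), h1 4 (by simp), h1 5 (by simp)]
  exact h _

theorem H0_of_four (hr : 9 ≤ r)
    (h : ∀ v, S.T 4 5 6 (S.T 0 1 2 (S.T 0 1 3 v) - v) = S.T 0 1 2 (S.T 0 1 3 v) - v) (v : V) :
    S.T 3 4 5 (S.T 0 1 2 v - v) = S.T 0 1 2 v - v := by
  obtain ⟨σ, g, h1, -, -, h4⟩ := S.transport [3, 4, 5, 6, 0, 1, 2] (by simp)
    (by simp; omega) (by simp; omega)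
  have e : ∀ v, S.T 0 1 2 (S.T 3 4 5 (S.T 3 4 6 v) - v) = S.T 3 4 5 (S.T 3 4 6 v) - v := fun v => by
    obtain ⟨v, rfl⟩ := g.surjective v
    have := congrArg g (h v)
    rwa [h4 4 5 6 (by omega), map_sub, h4 0 1 2 (by omega), h4 0 1 3 (by omega), h1 0 (by simp),
      h1 1 (by simp), h1 2 (by simp), h1 3 (by simp), h1 4 (by simp), h1 5 (by simp),
      h1 6 (by simp)] at this
  have hU : ∀ g : End K V, (∀ a b c, D3(3; a, b, c) → ∀ v, g (S.T a b c v) = S.T a b c (g v)) →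
      (∀ v, g (S.ζ v) = S.ζ (g v)) → ∀ v ∈ LinearMap.range (S.T 0 1 2 - 1),
      g v ∈ LinearMap.range (S.T 0 1 2 - 1) := by
    rintro g hg - _ ⟨v, rfl⟩
    exact ⟨g v, by simp [hg 0 1 2 (by omega)]⟩
  refine S.resC_triv 3 (by omega) (by omega) _ hU (TSys.triv_of_four _ (by omega) ?_) (by omega)
    (by omega) _ ⟨v, rfl⟩
  rintro ⟨_, w, rfl⟩
  apply Subtype.ext
  rw [S.resC_T _ _ _ _ (by omega), S.resC_T _ _ _ _ (by omega)]
  have e1 := e w
  simp only [map_sub, LinearMap.sub_apply, End.one_apply] at e1 ⊢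
  rw [S.disj (a := 0) (b := 1) (c := 2) (x := 3) (y := 4) (z := 6) (by omega) (by omega) (by omega),
    S.disj (a := 0) (b := 1) (c := 2) (x := 3) (y := 4) (z := 5) (by omega) (by omega) (by omega)]
  linear_combination (norm := abel) e1

theorem quad_all (hr : 5 ≤ r) (hq : ∀ v, S.T 0 1 2 (S.T 0 1 2 v) + S.T 0 1 2 v + v = 0)
    {a b c : ℕ} (h : D3(r; a, b, c)) (v : V) : S.T a b c (S.T a b c v) + S.T a b c v + v = 0 := by
  obtain ⟨g, hg⟩ := S.tr3 hr h
  obtain ⟨v, rfl⟩ := g.surjective v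
  rw [← hg, ← hg, ← map_add, ← map_add, hq, map_zero]

theorem quad_rel (hr : 5 ≤ r) (hq : ∀ v, S.T 0 1 2 (S.T 0 1 2 v) + S.T 0 1 2 v + v = 0)
    {c d : ℕ} (h : D3(r; 0, 1, c)) (h' : D3(r; 0, 1, d)) (hcd : c ≠ d) (v : V) :
    S.T 0 1 c (S.T 0 1 d v) = S.ζ (S.T 0 1 d (S.T 0 1 c v) + S.T 0 1 c v + S.T 0 1 d v + v) := by
  have e := S.four h h' hcd (S.T 0 1 d (S.T 0 1 d (S.T 0 1 c (S.T 0 1 c v))))
  rw [S.cube h', S.cube h] at e
  rw [e]
  congr 1
  have e1 := S.quad_all hr hq h' (S.T 0 1 c (S.T 0 1 c v))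
  have e2 := S.quad_all hr hq h v
  have e3 := congrArg (S.T 0 1 d) e2
  simp only [map_add, map_zero] at e3
  linear_combination (norm := abel) e1 - e2 - e3

theorem quad_core [IsAlgClosed K] [FiniteDimensional K V] [Nontrivial V] (hr : 5 ≤ r)
    (hq : ∀ v, S.T 0 1 2 (S.T 0 1 2 v) + S.T 0 1 2 v + v = 0) (hζ : ∀ v, S.ζ v = -v) (k : ℕ)
    (hk : (2 * k + 2 ≤ r ∧ (2 : K) ≠ 0 ∧ (k + 1 : K) ≠ 0) ∨ (2 * k + 3 ≤ r ∧ (2 * k + 1 : K) ≠ 0)) :
    2 ^ k ≤ finrank K V := by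
  have q : ∀ i, i + 2 < r → ∀ v, S.T 0 1 (i + 2) (S.T 0 1 (i + 2) v) = - S.T 0 1 (i + 2) v - v :=
    fun i hi v => by
      have := S.quad_all hr hq (a := 0) (b := 1) (c := i + 2) (by omega) v
      linear_combination (norm := abel) this
  have q2 : ∀ i j, i + 2 < r → j + 2 < r → i ≠ j → ∀ v, S.T 0 1 (i + 2) (S.T 0 1 (j + 2) v) +
      S.T 0 1 (j + 2) (S.T 0 1 (i + 2) v) + S.T 0 1 (i + 2) v + S.T 0 1 (j + 2) v + v = 0 :=
    fun i j hi hj hij v => by
      rw [S.quad_rel hr hq (c := i + 2) (d := j + 2) (by omega) (by omega) (by omega), hζ]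
      abel
  rcases hk with ⟨h1, h2, h3⟩ | ⟨h1, h2⟩
  · refine cliff_gram k (fun i => (2 : K) • S.T 0 1 (i + 2) + 1) (-3) (-2) (fun i hi v => ?_)
      (fun i hi j hj hij v => ?_) ?_ ?_
    · simp only [LinearMap.add_apply, LinearMap.smul_apply, End.one_apply, map_add, map_smul,
        q i (by omega)]
      module
    · simp only [LinearMap.add_apply, LinearMap.smul_apply, End.one_apply, map_add, map_smul]
      linear_combination (norm := module) (4 : K) • q2 i j (by omega) (by omega) hij v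
    · intro h
      exact mul_ne_zero h2 h2 (by linear_combination -h)
    · intro h
      exact mul_ne_zero (mul_ne_zero h2 h2) h3 (by linear_combination -h)
  · refine cliff_gram k (fun i => S.T 0 1 (i + 1 + 2) - S.T 0 1 (0 + 2)) (-1) (-1)
      (fun i hi v => ?_) (fun i hi j hj hij v => ?_) (by norm_num) ?_
    · simp only [LinearMap.sub_apply, map_sub, q (i + 1) (by omega), q 0 (by omega)]
      linear_combination (norm := module) -q2 (i + 1) 0 (by omega) (by omega) (by omega) v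
    · simp only [LinearMap.sub_apply, map_sub, q 0 (by omega)]
      linear_combination (norm := module) q2 (i + 1) (j + 1) (by omega) (by omega) (by omega) v -
        q2 (i + 1) 0 (by omega) (by omega) (by omega) v -
        q2 (j + 1) 0 (by omega) (by omega) (by omega) v
    · intro h
      exact h2 (by linear_combination -h)

theorem hU_ζ (μ : K) (g : End K V)
    (_ : ∀ a b c, D3(0; a, b, c) → ∀ v, g (S.T a b c v) = S.T a b c (g v))
    (h : ∀ v, g (S.ζ v) = S.ζ (g v)) (v : V) (hv : v ∈ S.ζ.eigenspace μ) :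
    g v ∈ S.ζ.eigenspace μ := by
  rw [End.mem_eigenspace_iff] at hv ⊢
  rw [← h, hv, map_smul]

theorem quad_bound [IsAlgClosed K] [FiniteDimensional K V] (hr : 5 ≤ r) (h0 : S.NT)
    (hq : ∀ v, S.T 0 1 2 (S.T 0 1 2 v) + S.T 0 1 2 v + v = 0) (k : ℕ)
    (hk : (2 * k + 2 ≤ r ∧ (2 : K) ≠ 0 ∧ (k + 1 : K) ≠ 0) ∨ (2 * k + 3 ≤ r ∧ (2 * k + 1 : K) ≠ 0)) :
    2 ^ k ≤ finrank K V := by
  haveI : Nontrivial (S.ζ.eigenspace (-1)) := by
    rw [Submodule.nontrivial_iff_ne_bot]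
    intro h
    have h1 : ∀ v, S.ζ v = -v → v = 0 := fun v hv => by
      rw [← Submodule.mem_bot K, ← h, End.mem_eigenspace_iff, hv, neg_one_smul]
    have h2 : ∀ v, S.ζ v = v := fun v => by
      rw [← sub_eq_zero]
      exact h1 _ (by rw [map_sub, S.zeta_sq (by omega), neg_sub])
    refine S.triv_of_four hr (fun v => ?_) h0
    have e1 := S.quad_rel hr hq (c := 2) (d := 3) (by omega) (by omega) (by omega) v
    have e2 := S.quad_rel hr hq (c := 3) (d := 2) (by omega) (by omega) (by omega) v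
    rw [h2] at e1 e2
    have e3 : S.T 0 1 2 v + S.T 0 1 3 v + v = 0 :=
      h1 _ (by rw [h2]; linear_combination (norm := abel) - e1 - e2)
    have e4 : S.T 0 1 3 v = S.T 0 1 2 (S.T 0 1 2 v) := by
      linear_combination (norm := abel) e3 - hq v
    rw [e4, S.cube (by omega)]
  refine ((S.resC 0 (by omega) _ (S.hU_ζ (-1))).quad_core (by omega) (fun v => ?_) (fun v => ?_) k
    (by simpa using hk)).trans (Submodule.finrank_le _)
  · apply Subtype.ext
    simp only [Submodule.coe_add, Submodule.coe_zero]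
    rw [S.resC_T _ _ _ _ (by omega), S.resC_T _ _ _ _ (by omega)]
    exact hq v
  · apply Subtype.ext
    rw [resC_ζ, End.mem_eigenspace_iff.1 v.2]
    simp

end TSys

end CfsgH7
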