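import Cfsg.Agent.H7.Alt2b

set_option autoImplicit false

namespace CfsgH7

open Module

universe u v

namespace TSys

section
variable {K V : Type*} [Field K] [AddCommGroup V] [Module K V] {r : ℕ} (S : TSys K V r)

theorem hU_t (μ : K) (g : End K V)
    (h : ∀ a b c, D3(3; a, b, c) → ∀ v, g (S.T a b c v) = S.T a b c (g v))
    (_ : ∀ v, g (S.ζ v) = S.ζ (g v)) (v : V) (hv : v ∈ (S.T 0 1 2).eigenspace μ) :
    g v ∈ (S.T 0 1 2).eigenspace μ := by
  rw [End.mem_eigenspace_iff] at hv ⊢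
  rw [← h 0 1 2 (by omega), hv, map_smul]

theorem exists_eig (hr : 5 ≤ r) (h0 : S.NT) {ω : K} (hω : ω ^ 2 + ω + 1 = 0) :
    ∃ u, u ≠ 0 ∧ S.T 0 1 2 u = ω • u := by
  obtain ⟨v, hv⟩ := h0
  have hc := S.cube (a := 0) (b := 1) (c := 2) (by omega) v
  by_cases h : S.T 0 1 2 (S.T 0 1 2 v - v) = ω ^ 2 • (S.T 0 1 2 v - v)
  · refine ⟨S.T 1 2 3 (S.T 2 3 4 (S.T 0 1 2 v - v)),
      fun e => sub_ne_zero.2 hv (S.s_inj hr (by simpa using e)), ?_⟩
    rw [S.s_eig hr h]
    congr 1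
    linear_combination (ω ^ 2 - ω) * hω
  · refine ⟨_, sub_ne_zero.2 h, ?_⟩
    simp only [map_sub, map_smul, hc]
    linear_combination (norm := module) hω • (S.T 0 1 2 v - S.T 0 1 2 (S.T 0 1 2 v)) +
      ((ω - 1) * hω) • (S.T 0 1 2 v - v)

theorem g_eig (hr : 6 ≤ r) {α β : K} {v : V} (h0 : v ≠ 0) (h1 : S.T 0 1 2 v = α • v)
    (h2 : S.T 3 4 5 v = β • v) : ∃ w, w ≠ 0 ∧ S.T 0 1 2 w = β ^ 2 • w ∧ S.T 3 4 5 w = α • w := by
  refine ⟨S.T 0 1 3 (S.T 0 1 4 (S.T 2 5 4 v)), fun e => h0 ?_, S.eig_inv (by omega) ?_, ?_⟩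
  · apply S.inj (a := 2) (b := 5) (c := 4) (by omega)
    apply S.inj (a := 0) (b := 1) (c := 4) (by omega)
    apply S.inj (a := 0) (b := 1) (c := 3) (by omega)
    simpa using e
  · rw [← S.conj (a := 3) (b := 2) (c := 0) 0 2 1 (by omega) (by omega) (by omega) (by omega)
      (by omega), ← S.conj (a := 3) (b := 2) (c := 4) 3 2 0 (by omega) (by omega) (by omega)
      (by omega) (by omega), ← S.conj (a := 3) (b := 4) (c := 5) 3 2 4 (by omega) (by omega)
      (by omega) (by omega) (by omega), h2, map_smul, map_smul, map_smul]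
  · rw [← S.conj (a := 1) (b := 4) (c := 5) 3 4 5 (by omega) (by omega) (by omega) (by omega)
      (by omega), ← S.conj (a := 0) (b := 1) (c := 5) 1 4 5 (by omega) (by omega) (by omega)
      (by omega) (by omega), ← S.conj (a := 0) (b := 1) (c := 2) 0 1 5 (by omega) (by omega)
      (by omega) (by omega) (by omega), h1, map_smul, map_smul, map_smul]

theorem exists_omega [IsAlgClosed K] : ∃ ω : K, ω ^ 2 + ω + 1 = 0 := by
  obtain ⟨a, ha⟩ := IsAlgClosed.exists_root (Polynomial.C (1 : K) * Polynomial.X ^ 2 +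
    Polynomial.C 1 * Polynomial.X + Polynomial.C 1)
    (by rw [Polynomial.degree_quadratic one_ne_zero]; decide)
  exact ⟨a, by simpa using ha⟩

theorem m6 [IsAlgClosed K] [FiniteDimensional K V] (h3 : (3 : K) ≠ 0) (hr : 6 ≤ r) (h0 : S.NT) :
    4 ≤ finrank K V := by
  obtain ⟨ω, hω⟩ := exists_omega (K := K)
  obtain ⟨u, hu0, hu⟩ := S.exists_eig (by omega) h0 hω
  haveI : Nontrivial ((S.T 0 1 2).eigenspace ω) :=
    ⟨⟨⟨u, End.mem_eigenspace_iff.2 hu⟩, 0, fun e => hu0 (congrArg Subtype.val e)⟩⟩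
  have hU : ∀ v ∈ (S.T 0 1 2).eigenspace ω, S.T 3 4 5 v ∈ (S.T 0 1 2).eigenspace ω := fun v hv => by
    rw [End.mem_eigenspace_iff] at hv ⊢
    rw [S.disj (by omega) (by omega) (by omega), hv, map_smul]
  obtain ⟨μ, hμ⟩ := End.exists_eigenvalue ((S.T 3 4 5).restrict hU)
  obtain ⟨⟨v, hv1⟩, hv⟩ := hμ.exists_hasEigenvector
  have hv0 : v ≠ 0 := fun e => hv.2 (Subtype.ext e)
  have hv2 : S.T 3 4 5 v = μ • v := congrArg Subtype.val hv.apply_eq_smul
  rw [End.mem_eigenspace_iff] at hv1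
  have hμ3 : μ ^ 3 = 1 := by
    have := S.cube (a := 3) (b := 4) (c := 5) (by omega) v
    simp only [hv2, map_smul, smul_smul] at this
    have e : (μ ^ 3 - 1) • v = 0 := by linear_combination (norm := module) this
    exact sub_eq_zero.1 ((smul_eq_zero.1 e).resolve_right hv0)
  obtain ⟨v1, a1, b1, c1⟩ := S.g_eig hr hv0 hv1 hv2
  obtain ⟨v2, a2, b2, c2⟩ := S.g_eig hr a1 b1 c1
  obtain ⟨v3, a3, b3, c3⟩ := S.g_eig hr a2 b2 c2
  have hne : ω ≠ ω ^ 2 := fun e => h3 (by linear_combination (3 - 2 * ω) * hω - (2 * ω + 1) * e)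
  have h4 : (μ ^ 2) ^ 2 = μ := by linear_combination μ * hμ3
  rw [h4] at b3
  have hω4 : (ω ^ 2) ^ 2 = ω := by linear_combination (ω ^ 2 - ω) * hω
  refine four_le_of_weights (S.T 0 1 2) (S.T 3 4 5) ![v, v1, v2, v3] ![ω, μ ^ 2, ω ^ 2, μ]
    ![μ, ω, μ ^ 2, ω ^ 2] (fun i j => ?_) (fun i => ?_) (fun i => ?_) (fun i => ?_)
  · fin_cases i <;> fin_cases j <;> simp only [Fin.zero_eta, Fin.mk_one, Fin.reduceFinMk,
      Matrix.cons_val, Fin.isValue, Matrix.cons_val_zero, Matrix.cons_val_one, implies_true] <;>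
    intro e1 e2 <;> exfalso <;> apply hne <;> grind
  all_goals fin_cases i <;> assumption

theorem Wq_le (h3 : (3 : K) ≠ 0) {a b c x y z : ℕ} (h : D3(r; a, b, c)) (h' : D3(r; x, y, z))
    (hd : a ≠ x ∧ a ≠ y ∧ a ≠ z ∧ b ≠ x ∧ b ≠ y ∧ b ≠ z ∧ c ≠ x ∧ c ≠ y ∧ c ≠ z)
    (hk : ∀ v, S.T x y z v = v → S.T a b c v = v) (w : V)
    (hw : S.T a b c (S.T a b c w) + S.T a b c w + w = 0) :
    S.T x y z (S.T x y z w) + S.T x y z w + w = 0 := by
  have e1 := hk (S.T x y z (S.T x y z w) + S.T x y z w + w) (by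
    simp only [map_add, S.cube h']; abel)
  have e2 := congrArg (S.T x y z) hw
  have e3 := congrArg (S.T x y z) e2
  have e4 := congrArg (S.T a b c) e1
  simp only [map_add, map_zero, S.disj h h' hd] at e1 e2 e3 e4
  have e5 : (3 : K) • (S.T x y z (S.T x y z w) + S.T x y z w + w) = 0 := by
    linear_combination (norm := module) e2 + e3 + hw - e4 - (2 : K) • e1
  exact (smul_eq_zero.1 e5).resolve_left h3

theorem quad_of_small [IsAlgClosed K] [FiniteDimensional K V] (h3 : (3 : K) ≠ 0) (hr : 9 ≤ r)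
    (h0 : S.NT) (h1 : finrank K ((S.T 0 1 2).eigenspace 1) ≤ 1) (k : ℕ)
    (hk : (2 * k + 2 ≤ r ∧ (2 : K) ≠ 0 ∧ (k + 1 : K) ≠ 0) ∨ (2 * k + 3 ≤ r ∧ (2 * k + 1 : K) ≠ 0)) :
    2 ^ k ≤ finrank K V := by
  have e0 : ∀ v, S.T 0 1 2 v = v → S.T 3 4 5 v = v := fun v hv =>
    S.resC_triv 3 (by omega) (by omega) _ (S.hU_t 1) (TSys.one_dim _ (by omega) h1) (by omega)
      (by omega) v (by rw [End.mem_eigenspace_iff, hv, one_smul])
  have e1 : ∀ {a b c x y z : ℕ}, D3(r; a, b, c) → D3(r; x, y, z) →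
      (a ≠ x ∧ a ≠ y ∧ a ≠ z ∧ b ≠ x ∧ b ≠ y ∧ b ≠ z ∧ c ≠ x ∧ c ≠ y ∧ c ≠ z) → ∀ w,
      S.T a b c (S.T a b c w) + S.T a b c w + w = 0 →
      S.T x y z (S.T x y z w) + S.T x y z w + w = 0 := by
    intro a b c x y z h h' hd
    refine S.Wq_le h3 h h' hd fun v hv => ?_
    obtain ⟨σ, g, h1, -, -, h4⟩ := S.transport [x, y, z, a, b, c] (by simp; omega)
      (by simp; omega) (by simp; omega)
    obtain ⟨v, rfl⟩ := g.surjective v
    have e2 := h4 0 1 2 (by omega) v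
    have e3 := h4 3 4 5 (by omega) v
    rw [h1 0 (by simp), h1 1 (by simp), h1 2 (by simp)] at e2
    rw [h1 3 (by simp), h1 4 (by simp), h1 5 (by simp)] at e3
    exact e3.symm.trans (congrArg g (e0 v (g.injective (e2.trans hv))))
  have e2 : ∀ {a b c a' b' c' : ℕ}, D3(r; a, b, c) → D3(r; a', b', c') → ∀ w,
      S.T a b c (S.T a b c w) + S.T a b c w + w = 0 →
      S.T a' b' c' (S.T a' b' c' w) + S.T a' b' c' w + w = 0 := by
    intro a b c a' b' c' h h' w hw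
    obtain ⟨x, hx, hx'⟩ := alt_fresh (r := r) [a, b, c, a', b', c'] (by simp; omega)
    obtain ⟨y, hy, hy'⟩ := alt_fresh (r := r) [a, b, c, a', b', c', x] (by simp; omega)
    obtain ⟨z, hz, hz'⟩ := alt_fresh (r := r) [a, b, c, a', b', c', x, y] (by simp; omega)
    simp only [List.mem_cons, not_or, List.not_mem_nil] at hx' hy' hz'
    have hD : D3(r; x, y, z) := ⟨hx, hy, hz, Ne.symm hy'.2.2.2.2.2.2.1, Ne.symm hz'.2.2.2.2.2.2.1,
      Ne.symm hz'.2.2.2.2.2.2.2.1⟩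
    exact e1 hD h' (by simp [hx', hy', hz']) _ (e1 h hD (by simp [hx', hy', hz', Ne.symm]) _ hw)
  let W := LinearMap.ker (S.T 0 1 2 * S.T 0 1 2 + S.T 0 1 2 + 1)
  have hW : ∀ v, v ∈ W ↔ S.T 0 1 2 (S.T 0 1 2 v) + S.T 0 1 2 v + v = 0 := fun v => by simp [W]
  have hU : ∀ a b c, D3(r; a, b, c) → ∀ v ∈ W, S.T (a + 0) (b + 0) (c + 0) v ∈ W := by
    intro a b c h v hv
    rw [hW] at hv ⊢
    refine e2 h (by omega) _ ?_
    have := congrArg (S.T a b c) (e2 (by omega) h v hv)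
    simpa using this
  have hζ : ∀ v ∈ W, S.ζ v ∈ W := fun v hv => by
    rw [hW] at hv ⊢
    have := congrArg S.ζ hv
    simpa only [map_add, map_zero, S.comm (a := 0) (b := 1) (c := 2) (by omega)] using this
  refine ((S.res 0 r le_rfl W hU hζ).quad_bound (by omega) ?_ (fun v => ?_) k hk).trans
    (Submodule.finrank_le _)
  · obtain ⟨v, hv⟩ := h0
    have hc := S.cube (a := 0) (b := 1) (c := 2) (by omega) v
    have hm : S.T 0 1 2 v - v ∈ W := by rw [hW]; simp only [map_sub, hc]; abel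
    refine ⟨⟨_, hm⟩, fun e => hv ?_⟩
    have e' := congrArg Subtype.val e
    rw [S.res_T _ _ _ _ _ _ (by omega)] at e'
    rw [hW] at hm
    change S.T 0 1 2 (S.T 0 1 2 v - v) = S.T 0 1 2 v - v at e'
    rw [e', e'] at hm
    have e5 : (3 : K) • (S.T 0 1 2 v - v) = 0 := by linear_combination (norm := module) hm
    exact sub_eq_zero.1 ((smul_eq_zero.1 e5).resolve_left h3)
  · apply Subtype.ext
    simp only [Submodule.coe_add, Submodule.coe_zero]
    rw [S.res_T _ _ _ _ _ _ (by omega), S.res_T _ _ _ _ _ _ (by omega)]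
    exact (hW v).1 v.2

end

theorem bound_ne3 {K : Type u} [Field K] [IsAlgClosed K] (p : ℕ) [CharP K p] {r : ℕ} (hr : 9 ≤ r)
    (IH : ∀ s < r, 9 ≤ s → ∀ (V : Type v) [AddCommGroup V] [Module K V] [FiniteDimensional K V]
      (S : TSys K V s), S.NT → s - 2 ≤ finrank K V)
    {V : Type v} [AddCommGroup V] [Module K V] [FiniteDimensional K V] (S : TSys K V r)
    (h0 : S.NT) (h3 : (3 : K) ≠ 0) : r - 1 - (if p ∣ r then 1 else 0) ≤ finrank K V := by
  obtain ⟨ω, hω⟩ := exists_omega (K := K)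
  have hω4 : (ω ^ 2) ^ 2 = ω := by linear_combination (ω ^ 2 - ω) * hω
  have hne : ω - ω ^ 2 ≠ 0 := fun e =>
    h3 (by linear_combination (3 - 2 * ω) * hω - (2 * ω + 1) * e)
  by_cases hL : (S.resC 3 (by omega) _ (S.hU_t ω)).NT
  swap
  · refine S.nat_bound p hr h0 (S.H0_of_567 hr fun v => ?_)
    have e1 : ∀ u, S.T 0 1 2 u = ω • u → S.T 5 6 7 u = u := fun u hu =>
      S.resC_triv 3 (by omega) (by omega) _ (S.hU_t ω) hL (by omega) (by omega) u
        (End.mem_eigenspace_iff.2 hu)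
    have e2 : ∀ u, S.T 0 1 2 u = ω ^ 2 • u → S.T 5 6 7 u = u := fun u hu => by
      have e := e1 _ (hω4 ▸ S.s_eig (by omega) hu)
      rw [S.disj (a := 1) (x := 5) (by omega) (by omega) (by omega),
        S.disj (a := 2) (x := 5) (by omega) (by omega) (by omega)] at e
      exact S.s_inj (by omega) e
    have hc := S.cube (a := 0) (b := 1) (c := 2) (by omega) v
    have e3 := e1 (S.T 0 1 2 (S.T 0 1 2 v - v) - ω ^ 2 • (S.T 0 1 2 v - v)) (by
      simp only [map_sub, map_smul, hc]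
      linear_combination (norm := module) hω • (S.T 0 1 2 v - S.T 0 1 2 (S.T 0 1 2 v)) +
        ((ω - 1) * hω) • (S.T 0 1 2 v - v))
    have e4 := e2 (S.T 0 1 2 (S.T 0 1 2 v - v) - ω • (S.T 0 1 2 v - v)) (by
      simp only [map_sub, map_smul, hc]
      linear_combination (norm := module) hω • (S.T 0 1 2 v - S.T 0 1 2 (S.T 0 1 2 v)) +
        ((ω - 1) * hω) • (S.T 0 1 2 v - v))
    rw [map_sub, map_smul] at e3 e4
    have e5 : (ω - ω ^ 2) • (S.T 5 6 7 (S.T 0 1 2 v - v) - (S.T 0 1 2 v - v)) = 0 := by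
      linear_combination (norm := module) e3 - e4
    exact sub_eq_zero.1 ((smul_eq_zero.1 e5).resolve_left hne)
  have d1 := TSys.m6 _ h3 (by omega) hL
  have d2 : finrank K ((S.T 0 1 2).eigenspace ω) ≤ finrank K ((S.T 0 1 2).eigenspace (ω ^ 2)) :=
    finrank_le_of_maps (S.T 1 2 3 * S.T 2 3 4) (S.s_inj (by omega)) fun v hv => by
      rw [End.mem_eigenspace_iff] at hv ⊢
      exact S.s_eig (by omega) hv
  have d3 := finrank3_le ((S.T 0 1 2).eigenspace ω) ((S.T 0 1 2).eigenspace (ω ^ 2))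
    ((S.T 0 1 2).eigenspace 1) fun a ha b hb c hc e => by
      rw [End.mem_eigenspace_iff] at ha hb hc
      have e1 := congrArg (S.T 0 1 2) e
      simp only [map_add, ha, hb, hc, map_zero] at e1
      have e2 := congrArg (S.T 0 1 2) e1
      simp only [map_add, map_smul, ha, hb, hc, map_zero] at e2
      have e3 : (3 : K) • c = 0 := by
        linear_combination (norm := module) e + e1 + e2 - hω • a - ((ω ^ 2 - ω + 1) * hω) • b
      have hc0 := (smul_eq_zero.1 e3).resolve_left h3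
      have e4 : (ω - ω ^ 2) • a = 0 := by
        linear_combination (norm := module) e1 - ω ^ 2 • e - (1 - ω ^ 2) • hc0
      have ha0 := (smul_eq_zero.1 e4).resolve_left hne
      exact ⟨ha0, by simpa [ha0, hc0] using e, hc0⟩
  by_cases h12 : 12 ≤ r
  · have := IH (r - 3) (by omega) (by omega) _ _ hL
    omega
  by_cases h1 : 2 ≤ finrank K ((S.T 0 1 2).eigenspace 1)
  · omega
  by_cases h9 : r = 9
  · omega
  by_cases h10 : r = 10
  · split_ifs with hp
    · omega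
    rw [h10, ← CharP.cast_eq_zero_iff K p] at hp
    have := S.quad_of_small h3 hr h0 (by omega) 4 (Or.inl ⟨by omega,
      fun e => hp (by push_cast; linear_combination 5 * e),
      fun e => hp (by push_cast at e ⊢; linear_combination 2 * e)⟩)
    omega
  · have := S.quad_of_small h3 hr h0 (by omega) 4 (Or.inr ⟨by omega,
      fun e => mul_ne_zero h3 h3 (by push_cast at e; linear_combination e)⟩)
    omega

end TSys

end CfsgH7
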