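import Cfsg.Agent.H7.Alt2c

set_option autoImplicit false

namespace CfsgH7

open Module

universe u v

namespace TSys

section
variable {K V : Type*} [Field K] [AddCommGroup V] [Module K V] {r : ℕ} (S : TSys K V r)

/-- lift of a double transposition -/
def ka : End K V := S.T 0 1 2 * S.T 0 1 3
/-- lift of a double transposition -/
def kb : End K V := S.T 0 1 2 * S.T 1 2 3
/-- lift of a double transposition -/
def kc : End K V := S.T 0 1 3 * S.T 0 1 2

theorem t_ka (hr : 4 ≤ r) (v : V) : S.T 0 1 2 (S.ka v) = S.kb (S.T 0 1 2 v) := by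
  simp only [ka, kb, End.mul_apply]
  rw [← S.conj (a := 0) (b := 1) (c := 3) 1 2 3 (by omega) (by omega) (by omega) (by omega)
    (by omega)]

theorem t_kb (hr : 4 ≤ r) (v : V) : S.T 0 1 2 (S.kb v) = S.kc (S.T 0 1 2 v) := by
  simp only [kc, kb, End.mul_apply]
  rw [S.conj (a := 1) (b := 2) (c := 3) 2 0 3 (by omega) (by omega) (by omega) (by omega)
    (by omega), S.conj (a := 2) (b := 0) (c := 3) 0 1 3 (by omega) (by omega) (by omega) (by omega)
    (by omega)]

theorem t_kc (v : V) : S.T 0 1 2 (S.kc v) = S.ka (S.T 0 1 2 v) := rfl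

theorem ka_sq (hr : 4 ≤ r) (v : V) : S.ka (S.ka v) = S.ζ v :=
  S.four (by omega) (by omega) (by omega) v

theorem kb_sq (hr : 4 ≤ r) (v : V) : S.kb (S.kb v) = S.ζ v := by
  obtain ⟨w, rfl⟩ := S.surj (a := 0) (b := 1) (c := 2) (by omega) v
  rw [← S.t_ka hr, ← S.t_ka hr, S.ka_sq hr, S.comm (by omega)]

theorem kc_sq (hr : 4 ≤ r) (v : V) : S.kc (S.kc v) = S.ζ v :=
  S.four (by omega) (by omega) (by omega) v

theorem ka_kb (hr : 4 ≤ r) (v : V) : S.ka (S.kb v) = S.kc v := by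
  simp only [ka, kb, kc, End.mul_apply]
  rw [S.three (a := 0) (b := 1) (c := 2) (d := 3) (by omega) (by omega) (by omega) v,
    ← S.comm (by omega), ← S.four (a := 0) (b := 1) (c := 2) (d := 3) (by omega) (by omega)
    (by omega), S.cube (by omega)]

theorem kb_ka (hr : 4 ≤ r) (v : V) : S.kb (S.ka v) = S.ζ (S.ka (S.kb v)) := by
  obtain ⟨w, rfl⟩ : ∃ w, v = S.kb w := ⟨S.kb (S.ζ v), by rw [S.kb_sq hr, S.zeta_sq hr]⟩
  have h := S.kc_sq hr w
  rw [← S.ka_kb hr, ← S.ka_kb hr] at h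
  have h2 := congrArg (fun z => S.ζ (S.ka z)) h
  simp only [S.ka_sq hr, S.zeta_sq hr] at h2
  rw [S.kb_sq hr, h2]

theorem comm_ka {g : End K V}
    (h : ∀ a b c, D3(4; a, b, c) → ∀ v, g (S.T a b c v) = S.T a b c (g v)) (v : V) :
    g (S.ka v) = S.ka (g v) := by
  simp only [ka, End.mul_apply]
  rw [h _ _ _ (by omega), h _ _ _ (by omega)]

theorem comm_kb {g : End K V}
    (h : ∀ a b c, D3(4; a, b, c) → ∀ v, g (S.T a b c v) = S.T a b c (g v)) (v : V) :
    g (S.kb v) = S.kb (g v) := by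
  simp only [kb, End.mul_apply]
  rw [h _ _ _ (by omega), h _ _ _ (by omega)]

theorem comm456 (hr : 7 ≤ r) (a b c : ℕ) (h : D3(4; a, b, c)) (v : V) :
    S.T 4 5 6 (S.T a b c v) = S.T a b c (S.T 4 5 6 v) :=
  S.disj (by omega) (by omega) (by omega) v

/-- joint eigenspace -/
def W (α β : K) : Submodule K V := S.ka.eigenspace α ⊓ S.kb.eigenspace β

theorem mem_W {α β : K} {v : V} : v ∈ S.W α β ↔ S.ka v = α • v ∧ S.kb v = β • v := by
  simp [W, End.mem_eigenspace_iff]

theorem hU_W (α β : K) (g : End K V)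
    (h : ∀ a b c, D3(4; a, b, c) → ∀ v, g (S.T a b c v) = S.T a b c (g v))
    (_ : ∀ v, g (S.ζ v) = S.ζ (g v)) (v : V) (hv : v ∈ S.W α β) : g v ∈ S.W α β := by
  rw [mem_W] at hv ⊢
  rw [← S.comm_ka h, ← S.comm_kb h, hv.1, hv.2, map_smul, map_smul]
  exact ⟨rfl, rfl⟩

theorem t_W (hr : 4 ≤ r) {α β : K} (v : V) (hv : v ∈ S.W α β) : S.T 0 1 2 v ∈ S.W (α * β) α := by
  rw [mem_W] at hv ⊢
  rw [← S.t_kc, ← S.t_ka hr, ← S.ka_kb hr, hv.2, map_smul, hv.1, smul_smul, map_smul, map_smul,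
    mul_comm]
  exact ⟨rfl, rfl⟩

theorem key_W (hr : 4 ≤ r) (h2 : (2 : K) ≠ 0) (hζ : ∀ v, S.ζ v = v) (τ : End K V)
    (hτ : ∀ v, τ (S.T 0 1 2 v) = S.T 0 1 2 (τ v)) (h : ∀ v ∈ S.W (-1) (-1), τ v = v) (v : V) :
    τ (S.ka v - v) = S.ka v - v := by
  have e : S.ka (S.ka v - v) = -(S.ka v - v) := by rw [map_sub, S.ka_sq hr, hζ, neg_sub]
  generalize S.ka v - v = u at e
  have e0 : S.ka (S.kb u) = - S.kb u := by
    have := S.kb_ka hr u
    rw [hζ, e, map_neg] at this
    exact this.symm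
  have e1 := h (u - S.kb u) (by
    rw [mem_W, map_sub, map_sub, e, e0, S.kb_sq hr, hζ]
    constructor <;> module)
  have e2 := h _ (by
    have := S.t_W hr (α := -1) (β := 1) (u + S.kb u) (by
      rw [mem_W, map_add, map_add, e, e0, S.kb_sq hr, hζ]
      constructor <;> module)
    rwa [mul_one] at this)
  rw [hτ] at e2
  have e3 := S.inj (by omega) e2
  rw [map_sub] at e1
  rw [map_add] at e3
  have e4 : (2 : K) • (τ u - u) = 0 := by linear_combination (norm := module) e1 + e3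
  exact sub_eq_zero.1 ((smul_eq_zero.1 e4).resolve_left h2)

theorem W_ne (hr : 5 ≤ r) (h2 : (2 : K) ≠ 0) (hζ : ∀ v, S.ζ v = v) (h0 : S.NT) :
    ∃ w ∈ S.W (-1) (-1), w ≠ 0 := by
  by_contra h
  push Not at h
  refine S.triv_of_four hr (fun v => ?_) h0
  have := S.key_W (by omega) h2 hζ 0 (by simp) (fun v hv => by simp [h v hv]) v
  exact sub_eq_zero.1 this.symm

theorem three_W [FiniteDimensional K V] (hr : 4 ≤ r) (h2 : (2 : K) ≠ 0) :
    3 * finrank K (S.W (-1) (-1)) ≤ finrank K V := by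
  have d1 : finrank K (S.W (-1) (-1)) ≤ finrank K (S.W 1 (-1)) :=
    finrank_le_of_maps (S.T 0 1 2) (S.inj (by omega)) fun v hv => by simpa using S.t_W hr v hv
  have d2 : finrank K (S.W 1 (-1)) ≤ finrank K (S.W (-1) 1) :=
    finrank_le_of_maps (S.T 0 1 2) (S.inj (by omega)) fun v hv => by simpa using S.t_W hr v hv
  have d3 := finrank3_le (S.W (-1) (-1)) (S.W 1 (-1)) (S.W (-1) 1) fun a ha b hb c hc e => by
    rw [mem_W] at ha hb hc
    have e1 := congrArg S.ka e
    have e2 := congrArg S.kb e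
    simp only [map_add, ha, hb, hc, map_zero] at e1 e2
    have e3 : (2 : K) • b = 0 := by linear_combination (norm := module) e + e1
    have e4 : (2 : K) • c = 0 := by linear_combination (norm := module) e + e2
    have hb0 := (smul_eq_zero.1 e3).resolve_left h2
    have hc0 := (smul_eq_zero.1 e4).resolve_left h2
    exact ⟨by simpa [hb0, hc0] using e, hb0, hc0⟩
  omega

theorem m5 [FiniteDimensional K V] (hr : 5 ≤ r) (h2 : (2 : K) ≠ 0) (hζ : ∀ v, S.ζ v = v)
    (h0 : S.NT) : 3 ≤ finrank K V := by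
  obtain ⟨w, hw, hw0⟩ := S.W_ne hr h2 hζ h0
  have := S.three_W (by omega) h2
  have h1 : 0 < finrank K (S.W (-1) (-1)) :=
    finrank_pos_iff_exists_ne_zero.2 ⟨⟨w, hw⟩, fun e => hw0 (congrArg Subtype.val e)⟩
  omega

theorem unip_one_dim [FiniteDimensional K V] (h3 : (3 : K) = 0) (τ : End K V)
    (h : ∀ v, τ (τ (τ v)) = v) (U : Submodule K V) (hU : ∀ v ∈ U, τ v ∈ U)
    (hd : finrank K U ≤ 1) (v : V) (hv : v ∈ U) : τ v = v := by
  obtain ⟨u, hu⟩ := finrank_le_one_iff.1 hd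
  obtain ⟨c, hc⟩ := hu ⟨v, hv⟩
  obtain ⟨a, ha⟩ := hu ⟨τ u, hU _ u.2⟩
  have ha' : τ u = a • u := (congrArg Subtype.val ha).symm
  obtain rfl : c • (u : V) = v := congrArg Subtype.val hc
  have e := h u
  simp only [ha', map_smul] at e ⊢
  have e2 : (a - 1) ^ 3 • (u : V) = 0 := by
    linear_combination (norm := module) e + ((a - a ^ 2) * h3) • (u : V)
  rcases smul_eq_zero.1 e2 with h | h
  · rw [sub_eq_zero.1 (pow_eq_zero_iff (by omega) |>.1 h), one_smul]
  · rw [h, smul_zero]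

theorem two_ne (h3 : (3 : K) = 0) : (2 : K) ≠ 0 := fun h =>
  one_ne_zero (by linear_combination h3 - h : (1 : K) = 0)

theorem m7 [FiniteDimensional K V] (hr : 7 ≤ r) (h3 : (3 : K) = 0) (hζ : ∀ v, S.ζ v = v)
    (h0 : S.NT) : 4 ≤ finrank K V := by
  have h2 := two_ne h3
  by_cases hd : finrank K (S.W (-1) (-1)) ≤ 1
  swap
  · have := S.three_W (by omega) h2
    omega
  have e := S.key_W (by omega) h2 hζ (S.T 4 5 6) (S.comm456 hr 0 1 2 (by omega))
    (unip_one_dim h3 _ (S.cube (by omega)) _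
      (S.hU_W _ _ _ (S.comm456 hr) fun v => (S.comm (by omega) v).symm) hd)
  have e1 : ∀ v, S.ka (S.T 4 5 6 v - v) = S.T 4 5 6 v - v := fun v => by
    have := e v
    rw [map_sub, S.comm_ka (S.comm456 hr)] at this
    rw [map_sub]
    linear_combination (norm := abel) this
  obtain ⟨w, hw, hw0⟩ := S.W_ne (by omega) h2 hζ h0
  obtain ⟨y, hy⟩ := h0.exists_ne (a := 4) (b := 5) (c := 6) (by omega) (by omega)
  obtain ⟨y, rfl⟩ := S.surj (a := 0) (b := 1) (c := 2) (by omega) y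
  have e2 : S.kb (S.T 4 5 6 (S.T 0 1 2 y) - S.T 0 1 2 y) = S.T 4 5 6 (S.T 0 1 2 y) - S.T 0 1 2 y := by
    rw [S.comm456 hr 0 1 2 (by omega), ← map_sub, ← S.t_ka (by omega), e1]
  have hw1 := S.t_W (by omega) _ hw
  have hw2 := S.t_W (by omega) _ hw1
  rw [mem_W] at hw hw1 hw2
  have hn : (-1 : K) ≠ 1 := fun h => h2 (by linear_combination -h)
  refine four_le_of_weights S.ka S.kb ![w, S.T 0 1 2 w, S.T 0 1 2 (S.T 0 1 2 w),
    S.T 4 5 6 (S.T 0 1 2 y) - S.T 0 1 2 y] ![-1, 1, -1, 1] ![-1, -1, 1, 1] (fun i j => ?_)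
    (fun i => ?_) (fun i => ?_) (fun i => ?_)
  · fin_cases i <;> fin_cases j <;> simp [hn, hn.symm]
  · fin_cases i
    · exact hw0
    · exact fun h => hw0 (S.inj (a := 0) (b := 1) (c := 2) (by omega) (by simpa using h))
    · exact fun h => hw0 (S.inj (a := 0) (b := 1) (c := 2) (by omega)
        (S.inj (a := 0) (b := 1) (c := 2) (by omega) (by simpa using h)))
    · exact sub_ne_zero.2 hy
  · fin_cases i
    exacts [hw.1, by simpa using hw1.1, by simpa using hw2.1, by simpa using e1 _]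
  · fin_cases i
    exacts [hw.2, hw1.2, by simpa using hw2.2, by simpa using e2]

theorem NT_of_neg [Nontrivial V] (hr : 5 ≤ r) (h2 : (2 : K) ≠ 0) (hζ : ∀ v, S.ζ v = -v) :
    S.NT := by
  by_contra h0
  obtain ⟨v, hv⟩ := exists_ne (0 : V)
  have e := S.four (a := 0) (b := 1) (c := 2) (d := 3) (by omega) (by omega) (by omega) v
  simp only [S.triv_of hr h0 (a := 0) (b := 1) (c := 2) (by omega),
    S.triv_of hr h0 (a := 0) (b := 1) (c := 3) (by omega), hζ] at e
  have e2 : (2 : K) • v = 0 := by linear_combination (norm := module) e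
  exact hv ((smul_eq_zero.1 e2).resolve_left h2)

theorem hU_a (μ : K) (g : End K V)
    (h : ∀ a b c, D3(4; a, b, c) → ∀ v, g (S.T a b c v) = S.T a b c (g v))
    (_ : ∀ v, g (S.ζ v) = S.ζ (g v)) (v : V) (hv : v ∈ S.ka.eigenspace μ) :
    g v ∈ S.ka.eigenspace μ := by
  rw [End.mem_eigenspace_iff] at hv ⊢
  rw [← S.comm_ka h, hv, map_smul]

theorem kb_X (hr : 4 ≤ r) (hζ : ∀ v, S.ζ v = -v) {μ : K} (v : V) (hv : v ∈ S.ka.eigenspace μ) :
    S.kb v ∈ S.ka.eigenspace (-μ) := by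
  rw [End.mem_eigenspace_iff] at hv ⊢
  have := S.kb_ka hr v
  rw [hζ, hv, map_smul] at this
  linear_combination (norm := module) this

theorem kb_inj (hr : 4 ≤ r) : Function.Injective S.kb :=
  (S.inj (by omega)).comp (S.inj (by omega))

theorem dec_X (hr : 4 ≤ r) (h2 : (2 : K) ≠ 0) (hζ : ∀ v, S.ζ v = -v) {i : K} (hi : i * i = -1)
    (v : V) : ∃ x ∈ S.ka.eigenspace i, ∃ y ∈ S.ka.eigenspace (-i), x + y = v := by
  refine ⟨(2 : K)⁻¹ • (v - i • S.ka v), Submodule.smul_mem _ _ ?_, (2 : K)⁻¹ • (v + i • S.ka v),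
    Submodule.smul_mem _ _ ?_, ?_⟩
  · rw [End.mem_eigenspace_iff, map_sub, map_smul, S.ka_sq hr, hζ]
    linear_combination (norm := module) hi • S.ka v
  · rw [End.mem_eigenspace_iff, map_add, map_smul, S.ka_sq hr, hζ]
    linear_combination (norm := module) hi • S.ka v
  · rw [← smul_add, sub_add_add_cancel, ← two_smul K, smul_smul, inv_mul_cancel₀ h2, one_smul]

theorem two_mul_X [FiniteDimensional K V] (hr : 4 ≤ r) (h2 : (2 : K) ≠ 0) (hζ : ∀ v, S.ζ v = -v)
    {i : K} (hi : i * i = -1) : finrank K V = 2 * finrank K (S.ka.eigenspace i) := by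
  have d1 : finrank K (S.ka.eigenspace i) ≤ finrank K (S.ka.eigenspace (-i)) :=
    finrank_le_of_maps S.kb (S.kb_inj hr) (S.kb_X hr hζ)
  have d2 : finrank K (S.ka.eigenspace (-i)) ≤ finrank K (S.ka.eigenspace i) :=
    finrank_le_of_maps S.kb (S.kb_inj hr) fun v hv => by simpa using S.kb_X hr hζ v hv
  have d3 := Submodule.finrank_add_eq_of_isCompl (U := S.ka.eigenspace i)
    (W := S.ka.eigenspace (-i)) ⟨Submodule.disjoint_def.2 fun v h h' => by
      rw [End.mem_eigenspace_iff] at h h'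
      have : (2 : K) • v = 0 := by
        linear_combination (norm := module) i • h - i • h' + (2 * hi) • v
      exact (smul_eq_zero.1 this).resolve_left h2, codisjoint_iff.2 (eq_top_iff.2 fun v _ =>
        Submodule.mem_sup.2 (S.dec_X hr h2 hζ hi v))⟩
  omega

theorem resC_neg (hζ : ∀ v, S.ζ v = -v) (k : ℕ) (hk : k ≤ r) (U : Submodule K V) (hU) (v : U) :
    (S.resC k hk U hU).ζ v = -v := Subtype.ext (hζ v)

theorem resC_pos (hζ : ∀ v, S.ζ v = v) (k : ℕ) (hk : k ≤ r) (U : Submodule K V) (hU) (v : U) :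
    (S.resC k hk U hU).ζ v = v := Subtype.ext (hζ v)

theorem s7 [IsAlgClosed K] [FiniteDimensional K V] [Nontrivial V] (hr : 7 ≤ r) (h3 : (3 : K) = 0)
    (hζ : ∀ v, S.ζ v = -v) : 4 ≤ finrank K V := by
  have h2 := two_ne h3
  obtain ⟨i, hi⟩ := IsAlgClosed.exists_eq_mul_self (-1 : K)
  have d := S.two_mul_X (by omega) h2 hζ hi.symm
  by_contra hd
  have e := unip_one_dim h3 _ (S.cube (a := 4) (b := 5) (c := 6) (by omega)) _
      (S.hU_a i _ (S.comm456 hr) fun v => (S.comm (by omega) v).symm) (by omega)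
  obtain ⟨v, hv⟩ := (S.NT_of_neg (by omega) h2 hζ).exists_ne (a := 4) (b := 5) (c := 6)
    (by omega) (by omega)
  obtain ⟨x, hx, y, hy, rfl⟩ := S.dec_X (by omega) h2 hζ hi.symm v
  have e1 := e _ (by simpa using S.kb_X (by omega) hζ y hy)
  rw [S.comm_kb (S.comm456 hr)] at e1
  exact hv (by rw [map_add, e x hx, S.kb_inj (by omega) e1])

end

theorem bound_3p {K : Type u} [Field K] [IsAlgClosed K] (p : ℕ) [CharP K p] {r : ℕ} (hr : 9 ≤ r)
    (IH : ∀ s < r, 9 ≤ s → ∀ (V : Type v) [AddCommGroup V] [Module K V] [FiniteDimensional K V]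
      (S : TSys K V s), S.NT → s - 2 ≤ finrank K V)
    {V : Type v} [AddCommGroup V] [Module K V] [FiniteDimensional K V] (S : TSys K V r)
    (h0 : S.NT) (h3 : (3 : K) = 0) (hζ : ∀ v, S.ζ v = v) :
    r - 1 - (if p ∣ r then 1 else 0) ≤ finrank K V := by
  have h2 := two_ne h3
  by_cases hL : (S.resC 4 (by omega) _ (S.hU_W (-1) (-1))).NT
  swap
  · refine S.nat_bound p hr h0 (S.H0_of_four hr (S.key_W (by omega) h2 hζ _
      (S.comm456 (by omega) 0 1 2 (by omega)) fun v hv => ?_))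
    exact S.resC_triv 4 (by omega) (by omega) _ _ hL (by omega) (by omega) v hv
  have d1 := S.three_W (by omega) h2
  have d2 := TSys.m5 _ (by omega) h2 (S.resC_pos hζ _ _ _ _) hL
  by_cases h10 : r ≤ 10
  · omega
  have d3 := TSys.m7 _ (by omega) h3 (S.resC_pos hζ _ _ _ _) hL
  by_cases h12 : r ≤ 12
  · omega
  have := IH (r - 4) (by omega) (by omega) _ _ hL
  omega

theorem bound_3m {K : Type u} [Field K] [IsAlgClosed K] {r : ℕ} (hr : 9 ≤ r)
    (IH : ∀ s < r, 9 ≤ s → ∀ (V : Type v) [AddCommGroup V] [Module K V] [FiniteDimensional K V]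
      (S : TSys K V s), S.NT → s - 2 ≤ finrank K V)
    {V : Type v} [AddCommGroup V] [Module K V] [FiniteDimensional K V] (S : TSys K V r)
    (h0 : S.NT) (h3 : (3 : K) = 0) (hζ : ∀ v, S.ζ v = -v) : r - 1 ≤ finrank K V := by
  have h2 := two_ne h3
  obtain ⟨i, hi⟩ := IsAlgClosed.exists_eq_mul_self (-1 : K)
  have d := S.two_mul_X (by omega) h2 hζ hi.symm
  haveI : Nontrivial V := by
    obtain ⟨v, hv⟩ := h0
    exact ⟨⟨_, _, hv⟩⟩
  have d0 : 0 < finrank K V := finrank_pos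
  by_cases h13 : 13 ≤ r
  · haveI : Nontrivial (S.ka.eigenspace i) := finrank_pos_iff.1 (by omega : 0 < finrank K _)
    have := IH (r - 4) (by omega) (by omega) _ (S.resC 4 (by omega) _ (S.hU_a i))
      (TSys.NT_of_neg _ (by omega) h2 (S.resC_neg hζ _ _ _ _))
    omega
  have d' := (S.resC 4 (by omega) _ (S.hU_a i)).two_mul_X (by omega) h2 (S.resC_neg hζ _ _ _ _)
    hi.symm
  by_cases hq : ∀ v, S.T 0 1 2 (S.T 0 1 2 v) + S.T 0 1 2 v + v = 0
  · by_cases h9 : r = 9
    · have := S.quad_bound (by omega) h0 hq 3 (Or.inl ⟨by omega, h2,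
        fun e => mul_ne_zero h2 h2 (by push_cast at e; linear_combination e)⟩)
      omega
    · have := S.quad_bound (by omega) h0 hq 4 (Or.inl ⟨by omega, h2,
        fun e => h2 (by push_cast at e; linear_combination e - h3)⟩)
      omega
  have d1 := three_mul_le (S.T 0 1 2 - 1) fun v => by
    simp only [LinearMap.sub_apply, End.one_apply, map_sub,
      S.cube (a := 0) (b := 1) (c := 2) (by omega)]
    linear_combination (norm := module) h3 • (S.T 0 1 2 v - S.T 0 1 2 (S.T 0 1 2 v))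
  have hU : ∀ g : End K V, (∀ a b c, D3(3; a, b, c) → ∀ v, g (S.T a b c v) = S.T a b c (g v)) →
      (∀ v, g (S.ζ v) = S.ζ (g v)) → ∀ v ∈ LinearMap.range ((S.T 0 1 2 - 1) ∘ₗ (S.T 0 1 2 - 1)),
      g v ∈ LinearMap.range ((S.T 0 1 2 - 1) ∘ₗ (S.T 0 1 2 - 1)) := by
    rintro g hg - _ ⟨v, rfl⟩
    exact ⟨g v, by simp [hg 0 1 2 (by omega)]⟩
  haveI : Nontrivial (LinearMap.range ((S.T 0 1 2 - 1) ∘ₗ (S.T 0 1 2 - 1))) := by
    obtain ⟨v, hv⟩ := not_forall.1 hq
    refine ⟨⟨⟨_, v, rfl⟩, 0, fun e => hv ?_⟩⟩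
    have e' := congrArg Subtype.val e
    simp only [LinearMap.comp_apply, LinearMap.sub_apply, End.one_apply, map_sub,
      Submodule.coe_zero] at e'
    linear_combination (norm := module) e' + h3 • S.T 0 1 2 v
  by_cases h9 : r = 9
  · have d2 := (S.resC 3 (by omega) _ hU).two_mul_X (by omega) h2 (S.resC_neg hζ _ _ _ _) hi.symm
    have d3 : 0 < finrank K (LinearMap.range ((S.T 0 1 2 - 1) ∘ₗ (S.T 0 1 2 - 1))) := finrank_pos
    omega
  · have d2 := (S.resC 3 (by omega) _ hU).s7 (by omega) h3 (S.resC_neg hζ _ _ _ _)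
    omega

theorem bound {K : Type u} [Field K] [IsAlgClosed K] (p : ℕ) [CharP K p] (r : ℕ) : 9 ≤ r →
    ∀ (V : Type v) [AddCommGroup V] [Module K V] [FiniteDimensional K V] (S : TSys K V r),
      S.NT → r - 1 - (if p ∣ r then 1 else 0) ≤ finrank K V := by
  induction r using Nat.strong_induction_on with
  | _ r ih =>
  intro hr V _ _ _ S h0
  have IH : ∀ s < r, 9 ≤ s → ∀ (V : Type v) [AddCommGroup V] [Module K V] [FiniteDimensional K V]
      (S : TSys K V s), S.NT → s - 2 ≤ finrank K V := fun s hs hs' V _ _ _ S h0 => by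
    have := ih s hs hs' V S h0
    split_ifs at this <;> omega
  by_cases h3 : (3 : K) = 0
  swap
  · exact S.bound_ne3 p hr IH h0 h3
  have h2 := two_ne h3
  by_cases h1 : (S.resC 0 (by omega) _ (S.hU_ζ 1)).NT
  · exact (bound_3p p hr IH _ h1 h3 fun v => Subtype.ext
      ((End.mem_eigenspace_iff.1 v.2).trans (one_smul _ _))).trans (Submodule.finrank_le _)
  by_cases h1' : (S.resC 0 (by omega) _ (S.hU_ζ (-1))).NT
  · have := (bound_3m hr IH _ h1' h3 fun v => Subtype.ext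
      ((End.mem_eigenspace_iff.1 v.2).trans (neg_one_smul _ _))).trans (Submodule.finrank_le _)
    omega
  exfalso
  obtain ⟨v, hv⟩ := h0
  have e1 := S.resC_triv 0 (by omega) (by omega) _ _ h1 (a := 0) (b := 1) (c := 2) (by omega)
    (by omega) (v + S.ζ v) (by
      rw [End.mem_eigenspace_iff, map_add, S.zeta_sq (by omega), one_smul, add_comm])
  have e2 := S.resC_triv 0 (by omega) (by omega) _ _ h1' (a := 0) (b := 1) (c := 2) (by omega)
    (by omega) (v - S.ζ v) (by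
      rw [End.mem_eigenspace_iff, map_sub, S.zeta_sq (by omega), neg_one_smul, neg_sub])
  rw [map_add] at e1
  rw [map_sub] at e2
  have e3 : (2 : K) • (S.T 0 1 2 v - v) = 0 := by linear_combination (norm := module) e1 + e2
  exact hv (sub_eq_zero.1 ((smul_eq_zero.1 e3).resolve_left h2))

end TSys

end CfsgH7
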