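import Cfsg.Agent.H7.Alt2d

set_option autoImplicit false

namespace CfsgH7

open Module Equiv

section perm
variable {α : Type*} [DecidableEq α]

/-- the three-cycle `a ↦ b ↦ c ↦ a` -/
def cy3 (a b c : α) : Perm α := swap a c * swap a b

theorem cy3_conj (g : Perm α) (a b c : α) : g * cy3 a b c * g⁻¹ = cy3 (g a) (g b) (g c) := by
  simp only [cy3, swap_apply_apply]
  group

theorem cy3_cube {a b c : α} (h : [a, b, c].Nodup) : cy3 a b c * cy3 a b c * cy3 a b c = 1 := by
  simp only [List.nodup_cons, List.mem_cons, not_or] at h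
  ext x
  simp only [cy3, Perm.mul_apply, swap_apply_def, Perm.one_apply]
  grind

theorem cy3_inv {a b c : α} (h : [a, b, c].Nodup) : cy3 a b c * cy3 a c b = 1 := by
  simp [cy3, mul_assoc]

theorem cy3_four {a b c d : α} (h : [a, b, c, d].Nodup) :
    cy3 a b c * cy3 a b d * (cy3 a b c * cy3 a b d) = 1 := by
  simp only [List.nodup_cons, List.mem_cons, not_or] at h
  ext x
  simp only [cy3, Perm.mul_apply, swap_apply_def, Perm.one_apply]
  grind

theorem swap2_sq {a b c d : α} (h : [a, b, c, d].Nodup) :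
    swap a b * swap c d * (swap a b * swap c d) = 1 := by
  simp only [List.nodup_cons, List.mem_cons, not_or] at h
  ext x
  simp only [Perm.mul_apply, swap_apply_def, Perm.one_apply]
  grind

theorem swap2_mul {a b c d e f : α} (h : [a, b, c, d, e, f].Nodup) :
    (swap a b * swap c d)⁻¹ * (swap a b * swap e f) = swap c d * swap e f := by
  simp [mul_assoc]

theorem cy3_apply {a b c : α} (h : [a, b, c].Nodup) :
    cy3 a b c a = b ∧ cy3 a b c b = c ∧ cy3 a b c c = a ∧
      ∀ x, x ≠ a → x ≠ b → x ≠ c → cy3 a b c x = x := by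
  simp only [List.nodup_cons, List.mem_cons, not_or] at h
  simp only [cy3, Perm.mul_apply, swap_apply_def]
  grind

theorem swap2_apply {a b c d e : α} (h : [a, b, c, d, e].Nodup) :
    (swap b c * swap d e) a = a ∧ (swap b c * swap d e) b = c ∧ (swap b c * swap d e) c = b := by
  simp only [List.nodup_cons, List.mem_cons, not_or] at h
  simp only [Perm.mul_apply, swap_apply_def]
  grind

theorem swap2_fix {a d e d' e' : α} (h : a ≠ d ∧ a ≠ e ∧ a ≠ d' ∧ a ≠ e') :
    (swap d e * swap d' e') a = a := by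
  simp only [Perm.mul_apply, swap_apply_def]
  grind

theorem exists_fresh [Fintype α] (l : List α) (h : l.length < Fintype.card α) : ∃ x, x ∉ l := by
  by_contra hh
  push Not at hh
  have h1 : (Finset.univ : Finset α) ⊆ l.toFinset := fun k _ => List.mem_toFinset.2 (hh k)
  have h2 := Finset.card_le_card h1
  have h3 := List.toFinset_card_le l
  rw [Finset.card_univ] at h2
  omega

end perm

theorem nodup_acb {α : Type*} {a b c d e : α} (h : [a, b, c, d, e].Nodup) : [a, c, b].Nodup := by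
  simp only [List.nodup_cons, List.mem_cons, not_or, List.not_mem_nil, List.nodup_nil] at h ⊢
  exact ⟨⟨h.1.2.1, h.1.1, not_false⟩, ⟨Ne.symm h.2.1.1, not_false⟩, not_false, trivial⟩

section lift
variable {H α : Type*} [Group H] [DecidableEq α] (π : H →* Perm α)
  (hZ : ∀ h, π h = 1 → ∀ g, g * h = h * g)

/-- canonical lift of a three-cycle -/
def IsT (a b c : α) (x : H) : Prop :=
  ∃ d e y s, [a, b, c, d, e].Nodup ∧ π y = cy3 a c b ∧ π s = swap b c * swap d e ∧
    x = y * s * y⁻¹ * s⁻¹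

include hZ

theorem comm_congr {y y' s s' : H} (h : π y = π y') (h' : π s = π s') :
    y * s * y⁻¹ * s⁻¹ = y' * s' * y'⁻¹ * s'⁻¹ := by
  obtain ⟨z, rfl⟩ : ∃ z, y' = y * z := ⟨y⁻¹ * y', by group⟩
  obtain ⟨w, rfl⟩ : ∃ z, s' = s * z := ⟨s⁻¹ * s', by group⟩
  have hz := hZ z (by simpa using h.symm)
  have hw := hZ w (by simpa using h'.symm)
  calc _ = y * s * (z * z⁻¹) * y⁻¹ * (w * w⁻¹) * s⁻¹ := by group
    _ = y * (s * z) * (z⁻¹ * y⁻¹ * w) * w⁻¹ * s⁻¹ := by group
    _ = _ := by rw [hz s, hw]; group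

theorem comm_of_coprime {y u : H} (h : π (y * u * y⁻¹ * u⁻¹) = 1) (h3 : π (y * y * y) = 1)
    (h2 : π (u * u) = 1) : y * u = u * y := by
  have hl := hZ _ h
  obtain ⟨l, hl'⟩ : ∃ l, y * u * y⁻¹ * u⁻¹ = l := ⟨_, rfl⟩
  rw [hl'] at hl
  have e1 : y * u = l * (u * y) := by rw [← hl']; group
  have e3 : l * l * l = 1 := by
    have e := hZ _ h3 u
    have : y * y * y * u = l * l * l * (u * (y * y * y)) := by
      calc _ = y * y * (y * u) := by group
        _ = (y * y * l) * (u * y) := by rw [e1]; group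
        _ = l * y * (y * u) * y := by rw [hl]; group
        _ = l * (y * l) * (u * y) * y := by rw [e1]; group
        _ = l * l * (y * u) * y * y := by rw [hl y]; group
        _ = _ := by rw [e1]; group
    rw [e] at this
    simpa using this
  have e2 : l * l = 1 := by
    have e := hZ _ h2 y
    have : y * (u * u) = l * l * (u * u * y) := by
      calc _ = y * u * u := by group
        _ = l * u * (y * u) := by conv_lhs => rw [e1]
                                  group
        _ = l * (u * l) * (u * y) := by rw [e1]; group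
        _ = _ := by rw [hl u]; group
    rw [e] at this
    simpa using this
  rw [e2, one_mul] at e3
  rw [e1, e3, one_mul]

theorem uniq_aux {a b c d e d' e' : α} (h : [a, b, c, d, e, d', e'].Nodup) {y s s' : H}
    (hy : π y = cy3 a c b) (hs : π s = swap b c * swap d e) (hs' : π s' = swap b c * swap d' e') :
    y * s * y⁻¹ * s⁻¹ = y * s' * y⁻¹ * s'⁻¹ := by
  obtain ⟨u, rfl⟩ : ∃ z, s' = s * z := ⟨s⁻¹ * s', by group⟩
  have hu : π u = swap d e * swap d' e' := by
    rw [← swap2_mul (a := b) (b := c) (by simp_all), ← hs, ← hs']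
    simp
  have := comm_of_coprime π hZ (y := y) (u := u) (by
      have e := cy3_conj (swap d e * swap d' e') a c b
      rw [swap2_fix (by simp_all), swap2_fix (by simp_all), swap2_fix (by simp_all)] at e
      simp only [map_mul, map_inv, hy, hu]
      rw [mul_inv_eq_iff_eq_mul] at e
      rw [← e]
      group)
    (by simp only [map_mul, hy]; exact cy3_cube (by simp_all [eq_comm]))
    (by simp only [map_mul, hu]; exact swap2_sq (by simp_all))
  calc _ = y * s * (y⁻¹ * (y * u) * y⁻¹) * u⁻¹ * s⁻¹ := by rw [this]; group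
    _ = _ := by group

theorem IsT.uniq [Fintype α] (hr : 9 ≤ Fintype.card α) {a b c : α} {x x' : H} (h : IsT π a b c x)
    (h' : IsT π a b c x') (hs : ∀ σ : Perm α, σ.sign = 1 → ∃ h, π h = σ) : x = x' := by
  obtain ⟨d, e, y, s, h1, h2, h3, rfl⟩ := h
  obtain ⟨d', e', y', s', h1', h2', h3', rfl⟩ := h'
  obtain ⟨f, hf⟩ := exists_fresh [a, b, c, d, e, d', e'] (by simp; omega)
  obtain ⟨g, hg⟩ := exists_fresh [a, b, c, d, e, d', e', f] (by simp; omega)
  obtain ⟨u, hu⟩ := hs (swap b c * swap f g) (by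
    rw [map_mul, Perm.sign_swap (by simp_all), Perm.sign_swap (by simp_all [eq_comm])]
    simp)
  rw [uniq_aux π hZ (a := a) (d' := f) (e' := g) (by simp_all [eq_comm]) h2 h3 hu,
    uniq_aux π hZ (a := a) (d' := f) (e' := g) (by simp_all [eq_comm]) h2' h3' hu]
  exact comm_congr π hZ (h2.trans h2'.symm) rfl

omit hZ in
theorem IsT.exists [Fintype α] (hr : 9 ≤ Fintype.card α) {a b c : α} (h : [a, b, c].Nodup)
    (hs : ∀ σ : Perm α, σ.sign = 1 → ∃ h, π h = σ) : ∃ x, IsT π a b c x := by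
  obtain ⟨d, hd⟩ := exists_fresh [a, b, c] (by simp; omega)
  obtain ⟨e, he⟩ := exists_fresh [a, b, c, d] (by simp; omega)
  obtain ⟨y, hy⟩ := hs (cy3 a c b) (by
    rw [cy3, map_mul, Perm.sign_swap (by simp_all), Perm.sign_swap (by simp_all)]
    simp)
  obtain ⟨s, hs⟩ := hs (swap b c * swap d e) (by
    rw [map_mul, Perm.sign_swap (by simp_all), Perm.sign_swap (by simp_all [eq_comm])]
    simp)
  exact ⟨_, d, e, y, s, by simp_all [eq_comm], hy, hs, rfl⟩

omit hZ in
theorem IsT.conj {a b c : α} {x : H} (h : IsT π a b c x) (g : H) :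
    IsT π (π g a) (π g b) (π g c) (g * x * g⁻¹) := by
  obtain ⟨d, e, y, s, h1, h2, h3, rfl⟩ := h
  refine ⟨π g d, π g e, g * y * g⁻¹, g * s * g⁻¹, by simpa using h1, ?_, ?_, by group⟩
  · rw [map_mul, map_mul, map_inv, h2, cy3_conj]
  · rw [map_mul, map_mul, map_inv, h3, swap_apply_apply, swap_apply_apply]
    group

omit hZ in
theorem IsT.map {a b c : α} {x : H} (h : IsT π a b c x) : π x = cy3 a b c := by
  obtain ⟨d, e, y, s, h1, h2, h3, rfl⟩ := h
  have e1 := cy3_conj (π s) a b c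
  have e2 := swap2_apply h1
  rw [h3, e2.1, e2.2.1, e2.2.2, ← h3] at e1
  have e3 : (π y)⁻¹ = cy3 a b c := by
    rw [h2]; exact inv_eq_of_mul_eq_one_left (cy3_inv (by simp_all))
  have e4 := cy3_cube (nodup_acb h1)
  simp only [map_mul, map_inv]
  rw [mul_assoc, mul_assoc, ← mul_assoc (π s), e3, e1, ← e3, h2]
  exact eq_inv_of_mul_eq_one_left e4

theorem IsT.inv {a b c : α} {x : H} (h : IsT π a b c x) : IsT π a c b x⁻¹ := by
  have h' := h
  obtain ⟨d, e, y, s, h1, h2, h3, rfl⟩ := h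
  have e1 := h'.conj π s
  have e2 := swap2_apply h1
  rw [h3, e2.1, e2.2.1, e2.2.2] at e1
  have e3 := hZ (s * s) (by rw [map_mul, h3, swap2_sq (by simp_all)]) y⁻¹
  convert e1 using 1
  calc _ = s * y * s * ((s * s)⁻¹ * (y⁻¹ * (s * s))) * (s * s)⁻¹ := by group
    _ = _ := by rw [e3]; group

theorem IsT.cube {a b c : α} {x : H} (h : IsT π a b c x) : x * x * x = 1 := by
  obtain ⟨d, e, y, s, h1, h2, h3, rfl⟩ := h
  have e1 := cy3_conj (π s) a b c
  have e2 := swap2_apply h1
  rw [h3, e2.1, e2.2.1, e2.2.2, ← h3] at e1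
  have e3 : (π y)⁻¹ = cy3 a b c := by
    rw [h2]; exact inv_eq_of_mul_eq_one_left (cy3_inv (by simp_all))
  have hm := hZ (s * y⁻¹ * s⁻¹ * y⁻¹) (by
    rw [map_mul, map_mul, map_mul, map_inv, map_inv, e3, e1, cy3_inv (nodup_acb h1)])
  have hy := hZ (y * y * y) (by
    rw [map_mul, map_mul, h2, cy3_cube (nodup_acb h1)]) s⁻¹
  obtain ⟨m, hm'⟩ : ∃ m, s * y⁻¹ * s⁻¹ * y⁻¹ = m := ⟨_, rfl⟩
  rw [hm'] at hm
  have e4 : s * y⁻¹ * s⁻¹ = m * y := by rw [← hm']; group
  have e5 : m * y * (m * y) * (m * y) * (y * y * y) = 1 := by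
    rw [← e4]
    calc _ = s * (y * y * y)⁻¹ * (s⁻¹ * (y * y * y)) := by group
      _ = _ := by rw [hy]; group
  have e6 : y * s * y⁻¹ * s⁻¹ = m * y * y := by rw [mul_assoc, mul_assoc, ← mul_assoc s, e4, ← mul_assoc, hm]
  rw [e6, ← e5]
  calc _ = m * y * (y * m) * y * (y * m) * y * y := by group
    _ = m * y * m * y * (y * m) * y * y * y := by rw [hm y]; rw [show m * y * (m * y) * y * (m * y) * y * y = m * y * m * y * (y * m) * y * y * y by group, hm y]
    _ = _ := by rw [hm y]; group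

end lift

open Classical in
theorem exists_tsys {K V H : Type*} [Field K] [AddCommGroup V] [Module K V] [Group H] {r : ℕ}
    (hr : 9 ≤ r) (π : H →* Perm (Fin r)) (hZ : ∀ h, π h = 1 → ∀ g, g * h = h * g)
    (hs : ∀ σ : Perm (Fin r), σ.sign = 1 → ∃ h, π h = σ) (ρ : H →* End K V)
    (hρ : ∀ h, ρ h = 1 → π h = 1) : ∃ S : TSys K V r, S.NT := by
  have hc : 9 ≤ Fintype.card (Fin r) := by simpa using hr
  have nd : ∀ {a b c : ℕ} (h : D3(r; a, b, c)),
      [(⟨a, h.1⟩ : Fin r), ⟨b, h.2.1⟩, ⟨c, h.2.2.1⟩].Nodup := fun h => by simp [h]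
  obtain ⟨t, ht⟩ : ∃ t : ℕ → ℕ → ℕ → H, ∀ a b c (h : D3(r; a, b, c)),
      IsT π ⟨a, h.1⟩ ⟨b, h.2.1⟩ ⟨c, h.2.2.1⟩ (t a b c) :=
    ⟨fun a b c => if h : D3(r; a, b, c) then (IsT.exists π hc (nd h) hs).choose else 1,
      fun a b c h => by simpa only [dif_pos h] using (IsT.exists π hc (nd h) hs).choose_spec⟩
  have hconj : ∀ (g : H) {a b c a' b' c'} (h : D3(r; a, b, c)) (h' : D3(r; a', b', c')),
      (π g ⟨a, h.1⟩ : ℕ) = a' → (π g ⟨b, h.2.1⟩ : ℕ) = b' → (π g ⟨c, h.2.2.1⟩ : ℕ) = c' →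
      g * t a b c = t a' b' c' * g := by
    intro g a b c a' b' c' h h' e1 e2 e3
    have := (ht a b c h).conj π g
    rw [show π g ⟨a, h.1⟩ = ⟨a', h'.1⟩ from Fin.ext e1, show π g ⟨b, h.2.1⟩ = ⟨b', h'.2.1⟩ from
      Fin.ext e2, show π g ⟨c, h.2.2.1⟩ = ⟨c', h'.2.2.1⟩ from Fin.ext e3] at this
    rw [← this.uniq π hZ hc (ht a' b' c' h') hs]
    group
  have hR : ∀ {x y z a a'} (h : D3(r; x, y, z)) (ha : a < r), R3(x, y, z; a, a') →
      (π (t x y z) ⟨a, ha⟩ : ℕ) = a' := by
    intro x y z a a' h ha hR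
    rw [(ht x y z h).map]
    obtain ⟨e1, e2, e3, e4⟩ := cy3_apply (nd h)
    rcases hR with ⟨rfl, rfl⟩ | ⟨rfl, rfl⟩ | ⟨rfl, rfl⟩ | ⟨h1, h2, h3, rfl⟩
    · rw [e1]
    · rw [e2]
    · rw [e3]
    · rw [e4 _ (by simpa using h1) (by simpa using h2) (by simpa using h3)]
  have hinv : ∀ {a b c} (h : D3(r; a, b, c)), t a c b = (t a b c)⁻¹ := fun {a b c} h =>
    (ht a c b (d3_swap h)).uniq π hZ hc ((ht a b c h).inv π hZ) hs
  have hζ := hZ (t 0 1 2 * t 0 1 3 * (t 0 1 2 * t 0 1 3)) (by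
    simp only [map_mul]
    rw [(ht 0 1 2 (by omega)).map, (ht 0 1 3 (by omega)).map]
    exact cy3_four (by simp))
  refine ⟨{ T := fun a b c => ρ (t a b c)
            ζ := ρ (t 0 1 2 * t 0 1 3 * (t 0 1 2 * t 0 1 3))
            cyc := fun {a b c} h => ?_
            inv := fun {a b c} h v => ?_
            sq := fun {a b c} h v => ?_
            conj := fun {x y z a b c} a' b' c' h h' h1 h2 h3 v => ?_
            four := fun {a b c d} h h' hcd v => ?_
            comm := fun {a b c} h v => ?_ }, ?_⟩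
  · have := hconj (t a b c) h (d3_cyc h) (hR h _ (by simp)) (hR h _ (by simp)) (hR h _ (by simp))
    rw [mul_right_cancel this]
  · rw [← End.mul_apply, ← map_mul, hinv h, mul_inv_cancel, map_one, End.one_apply]
  · rw [← End.mul_apply, ← map_mul, hinv h, eq_inv_of_mul_eq_one_left ((ht a b c h).cube π hZ)]
  · rw [← End.mul_apply, ← map_mul, hconj _ h' (d3_r3 h h' h1 h2 h3) (hR h _ h1) (hR h _ h2)
      (hR h _ h3), map_mul, End.mul_apply]
  · haveI := alternatingGroup.isMultiplyPretransitive (Fin r)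
    haveI : MulAction.IsMultiplyPretransitive (alternatingGroup (Fin r)) (Fin r) 4 :=
      MulAction.isMultiplyPretransitive_of_le (n := Nat.card (Fin r) - 2) (by simp; omega) (by simp)
    obtain ⟨σ, hσ⟩ := MulAction.exists_smul_eq (alternatingGroup (Fin r))
      (⟨![⟨0, by omega⟩, ⟨1, by omega⟩, ⟨2, by omega⟩, ⟨3, by omega⟩], by
        intro i j; fin_cases i <;> fin_cases j <;> simp⟩ : Fin 4 ↪ Fin r)
      ⟨![⟨a, h.1⟩, ⟨b, h.2.1⟩, ⟨c, h.2.2.1⟩, ⟨d, h'.2.2.1⟩], by
        intro i j; fin_cases i <;> fin_cases j <;> simp <;> omega⟩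
    obtain ⟨g, hg⟩ := hs σ σ.2
    have e := fun i => congrArg Fin.val (DFunLike.congr_fun hσ i)
    have e1 := hconj g (a := 0) (b := 1) (c := 2) (by omega) h (by rw [hg]; exact e 0) (by rw [hg]; exact e 1) (by rw [hg]; exact e 2)
    have e2 := hconj g (a := 0) (b := 1) (c := 3) (by omega) h' (by rw [hg]; exact e 0) (by rw [hg]; exact e 1) (by rw [hg]; exact e 3)
    have e3 : t a b c * t a b d * (t a b c * t a b d) = t 0 1 2 * t 0 1 3 * (t 0 1 2 * t 0 1 3) := by
      apply mul_right_cancel (b := g)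
      rw [← hζ]
      simp only [mul_assoc, ← e1, ← e2]
      simp only [← mul_assoc, e1, e2]
      simp only [mul_assoc, e1, e2]
    rw [← e3]
    simp
  · rw [← End.mul_apply, ← map_mul, ← hζ, map_mul, End.mul_apply]
  · by_contra h
    have e := hρ (t 0 1 2) (LinearMap.ext fun v => not_not.1 (not_exists.1 h v))
    rw [(ht 0 1 2 (by omega)).map] at e
    have := (cy3_apply (nd (a := 0) (b := 1) (c := 2) (by omega))).1
    rw [e] at this
    simp at this

theorem central_bound {K V H : Type*} [Field K] [IsAlgClosed K] (p : ℕ) [CharP K p]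
    [AddCommGroup V] [Module K V] [FiniteDimensional K V] [Group H] {r : ℕ}
    (hr : 9 ≤ r) (π : H →* Perm (Fin r)) (hZ : ∀ h, π h = 1 → ∀ g, g * h = h * g)
    (hs : ∀ σ : Perm (Fin r), σ.sign = 1 → ∃ h, π h = σ) (ρ : H →* End K V)
    (hρ : ∀ h, ρ h = 1 → π h = 1) : r - 1 - (if p ∣ r then 1 else 0) ≤ finrank K V := by
  obtain ⟨S, hS⟩ := exists_tsys hr π hZ hs ρ hρ
  exact TSys.bound p r hr V S hS

end CfsgH7
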