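import Cfsg.Agent.H7.AutAbs

set_option autoImplicit false

namespace CfsgH7

open Subgroup

/-- Abstract description of an outer automorphism group as an extension. -/
theorem out_abstract {A R R' Γ C : Type*} [Group A] [Group R] [Group R'] [Group Γ] [CommGroup C]
    [IsCyclic C] (I : Subgroup A) [I.Normal] (Φ : Γ →* A) [hD : Φ.range.Normal]
    (hID : I ≤ Φ.range) (ψ : R →* A) (hsurj : ∀ a, ∃ g r, a = Φ g * ψ r)
    (hinj : ∀ r g, ψ r = Φ g → r = 1) (π : Γ →* C) (hπ : Function.Surjective π) (M : Subgroup C)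
    (hM : ∀ g, Φ g ∈ I ↔ π g ∈ M) (e : R ≃* R') :
    ∃ φ : A ⧸ I →* R', Function.Surjective φ ∧ IsCyclic φ.ker ∧ Nat.card φ.ker = M.index := by
  have hb : Function.Bijective ((QuotientGroup.mk' Φ.range).comp ψ) := by
    constructor
    · rw [injective_iff_map_eq_one]
      intro r hr
      obtain ⟨g, hg⟩ := (QuotientGroup.eq_one_iff _).1 hr
      exact hinj r g hg.symm
    · intro a
      obtain ⟨a, rfl⟩ := QuotientGroup.mk_surjective a
      obtain ⟨g, r, rfl⟩ := hsurj a
      refine ⟨r, ?_⟩
      rw [QuotientGroup.mk_mul, (QuotientGroup.eq_one_iff (N := Φ.range) (Φ g)).2 ⟨g, rfl⟩, one_mul]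
      rfl
  let θ := MulEquiv.ofBijective _ hb
  let μ : A ⧸ I →* A ⧸ Φ.range := QuotientGroup.map I Φ.range (MonoidHom.id A) hID
  let φ : A ⧸ I →* R' := (e.toMonoidHom.comp θ.symm.toMonoidHom).comp μ
  have hker : φ.ker = ((QuotientGroup.mk' I).comp Φ).range := by
    ext a
    obtain ⟨a, rfl⟩ := QuotientGroup.mk_surjective a
    have e1 : (QuotientGroup.mk a : A ⧸ I) ∈ φ.ker ↔ a ∈ Φ.range := by
      rw [MonoidHom.mem_ker, ← QuotientGroup.eq_one_iff]
      change e (θ.symm (QuotientGroup.mk a)) = 1 ↔ _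
      rw [map_eq_one_iff _ e.injective, map_eq_one_iff _ θ.symm.injective]
    rw [e1]
    constructor
    · rintro ⟨g, rfl⟩
      exact ⟨g, rfl⟩
    · rintro ⟨g, hg⟩
      have h1 : (Φ g)⁻¹ * a ∈ Φ.range := hID (QuotientGroup.eq.1 hg)
      have := mul_mem (show Φ g ∈ Φ.range from ⟨g, rfl⟩) h1
      rwa [mul_inv_cancel_left] at this
  have hk2 : ((QuotientGroup.mk' I).comp Φ).ker = ((QuotientGroup.mk' M).comp π).ker := by
    ext g
    simp only [MonoidHom.mem_ker, MonoidHom.comp_apply, QuotientGroup.mk'_apply,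
      QuotientGroup.eq_one_iff, hM]
  have hs2 : Function.Surjective ((QuotientGroup.mk' M).comp π) :=
    (QuotientGroup.mk'_surjective M).comp hπ
  let E : φ.ker ≃* C ⧸ M := (MulEquiv.subgroupCongr hker).trans
    ((QuotientGroup.quotientKerEquivRange _).symm.trans
      ((QuotientGroup.quotientMulEquivOfEq hk2).trans
        (QuotientGroup.quotientKerEquivOfSurjective _ hs2)))
  refine ⟨φ, ?_, ?_, ?_⟩
  · refine (e.surjective.comp θ.symm.surjective).comp ?_
    intro a
    obtain ⟨a, rfl⟩ := QuotientGroup.mk_surjective a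
    exact ⟨QuotientGroup.mk a, rfl⟩
  · haveI : IsCyclic (C ⧸ M) := isCyclic_of_surjective _ (QuotientGroup.mk'_surjective M)
    exact isCyclic_of_surjective E.symm E.symm.surjective
  · rw [Nat.card_congr E.toEquiv]
    rfl

/-- the homomorphism from `ZMod 2` determined by an involution -/
def invHom {A : Type*} [Group A] (t : A) (ht : t * t = 1) : Multiplicative (ZMod 2) →* A where
  toFun x := if x = 1 then 1 else t
  map_one' := if_pos rfl
  map_mul' := by
    have : ∀ x : Multiplicative (ZMod 2), x = 1 ∨ x = Multiplicative.ofAdd 1 := by decide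
    intro x y
    rcases this x with rfl | rfl <;> rcases this y with rfl | rfl
    · simp
    · simp
    · simp
    · rw [if_pos (by decide), if_neg (by decide), ht]

theorem invHom_cases {A : Type*} [Group A] (t : A) (ht : t * t = 1) (x : Multiplicative (ZMod 2)) :
    (x = 1 ∧ invHom t ht x = 1) ∨ invHom t ht x = t := by
  by_cases h : x = 1
  · exact Or.inl ⟨h, if_pos h⟩
  · exact Or.inr (if_neg h)

theorem invHom_ofAdd_one {A : Type*} [Group A] (t : A) (ht : t * t = 1) :
    invHom t ht (Multiplicative.ofAdd 1) = t := by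
  change (if Multiplicative.ofAdd (1 : ZMod 2) = 1 then 1 else t) = t
  exact if_neg (by decide)

end CfsgH7
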