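import Cfsg.Agent.H7.Triality
import Cfsg.Agent.H7.S4Lift
import Cfsg.Agent.H8.Out

set_option autoImplicit false

namespace CfsgH7

open CfsgH8 hiding map_mul map_one
open QuadraticMap hiding map_add map_sub map_smul map_zero map_neg sq
open Module Subgroup

theorem out_congr {G H : Type*} [Group G] [Group H] (e : G ≃* H) :
    Nonempty (Cfsg.Out G ≃* Cfsg.Out H) :=
  ⟨QuotientGroup.congr _ _ (MulAut.congr e) (by
    ext β
    constructor
    · rintro ⟨_, ⟨x, rfl⟩, rfl⟩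
      exact ⟨e x, by ext y; simp⟩
    · rintro ⟨y, rfl⟩
      exact ⟨_, ⟨e.symm y, rfl⟩, by ext x; simp⟩)⟩

section general

variable {F V : Type*} [Field F] [AddCommGroup V] [Module F V] (Q : QuadraticForm F V)

/-- the outer automorphism induced by a semisimilarity -/
noncomputable def outQ : Gam Q →* Cfsg.Out (POm Q) := (QuotientGroup.mk' _).comp (Phi Q)

variable {Q}

theorem outQ_apply (γ : Gam Q) : outQ Q γ = QuotientGroup.mk (Phi Q γ) := rfl

theorem outQ_scal (a : Fˣ) : outQ Q (scal Q a) = 1 := by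
  rw [outQ_apply, Phi_scal, QuotientGroup.mk_one]

variable [Finite F] [hB : Big Q]

theorem outQ_eq_one_iff {γ : Gam Q} : outQ Q γ = 1 ↔ γ ∈ sc (Om Q) := by
  rw [outQ_apply, QuotientGroup.eq_one_iff]
  constructor
  · rintro ⟨x, hx⟩
    obtain ⟨g, rfl⟩ := QuotientGroup.mk'_surjective _ x
    obtain ⟨a, ha⟩ := Phi_eq_one_iff.1 (show Phi Q (γ * (ofOG Q g)⁻¹) = 1 by
      rw [map_mul, map_inv, ← hx, ← conj_pmk, mul_inv_cancel])
    exact ⟨a, g, g.2, mul_inv_eq_iff_eq_mul.1 ha⟩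
  · rintro ⟨a, g, hg, rfl⟩
    exact ⟨pmk Q ⟨g, hg⟩, by rw [conj_pmk, map_mul, Phi_scal, one_mul]⟩

theorem outQ_comm (γ : Gam Q) {g : OG Q} (hg : dickF g = 1) :
    outQ Q (ofOG Q g) * outQ Q γ = outQ Q γ * outQ Q (ofOG Q g) := by
  haveI := Big.fd Q
  rw [eq_comm, ← mul_inv_eq_iff_eq_mul, ← mul_inv_eq_one, ← map_inv, ← map_inv, ← map_mul,
    ← map_mul, ← map_mul, conj_ofOG, ← map_inv, ← map_mul, outQ_eq_one_iff]
  refine ofOG_mem_sc (mem_Om_iff.2 ⟨?_, ?_⟩)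
  · rw [dick_mul, SIso.dickF_og, ← dick_mul, mul_inv_cancel, dickF_one]
  · rw [spin_mul, SIso.spinF_og γ hB.nd Big.good, if_pos hg, mul_one, ← spin_mul,
      mul_inv_cancel, spinF_one]

end general

universe u

variable {F : Type u} [Field F] [Finite F]

omit [Finite F] in
theorem outQ_oB (a : V8 F) (ha : QP 4 F a ≠ 0) :
    outQ _ (oB a ha) = outQ _ (ofOG (QP 4 F) (refl _ a * refl _ oe)) := by
  rw [oB_eq, map_mul, outQ_scal, one_mul, map_mul (ofOG _), oρ]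

omit [Finite F] in
theorem dick_oB {a : V8 F} (ha : QP 4 F a ≠ 0) : dickF (refl (QP 4 F) a * refl _ oe) = 1 := by
  rw [dick_mul, dick_refl ha, dick_refl (by rw [Q_oe]; exact one_ne_zero)]
  simp

theorem spin_oB {a : V8 F} (ha : QP 4 F a ≠ 0) :
    spinF (refl (QP 4 F) a * refl _ oe) = chi (QP 4 F a) := by
  rw [spin_mul, spin_refl ha, spin_refl (by rw [Q_oe]; exact one_ne_zero), Q_oe, chi_one, mul_one]

theorem outQ_oL (a : V8 F) (ha : QP 4 F a ≠ 0) : outQ _ (oL a ha) =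
    QuotientGroup.mk (tri F) * outQ _ (oB a ha) * (QuotientGroup.mk (tri F))⁻¹ := by
  rw [outQ_apply, ← tri_conj (BL_mem_TT a ha)]
  rfl

theorem out8_induction {P : Subgroup (Cfsg.Out (POm (QP 4 F)))}
    (h1 : QuotientGroup.mk (tri F) ∈ P) (h2 : outQ _ (oρ F) ∈ P)
    (h3 : ∀ a ha, outQ _ (oB a ha) ∈ P) (h4 : ∀ σ, outQ _ (frob σ (QH_comp _)) ∈ P)
    (x : Cfsg.Out (POm (QP 4 F))) : x ∈ P := by
  have h5 : (cls MTS_stdE).ker ≤ P.comap (outQ _) := ker_cls_le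
    (fun a => by rw [mem_comap, outQ_scal]; exact one_mem _) h3
    (fun a ha => by
      rw [mem_comap, outQ_oL]
      exact mul_mem (mul_mem h1 (h3 a ha)) (inv_mem h1)) h4
  have h6 : ∀ γ, outQ _ γ ∈ P := fun γ => by
    rcases Int.units_eq_one_or (cls MTS_stdE γ) with h | h
    · exact h5 h
    · have := h5 (show γ * oρ F ∈ (cls MTS_stdE).ker by simp [MonoidHom.mem_ker, h, cls_oρ])
      rwa [mem_comap, map_mul, mul_mem_cancel_right h2] at this
  obtain ⟨α, rfl⟩ := QuotientGroup.mk_surjective x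
  rcases aut_O8 α with ⟨γ, rfl⟩ | ⟨γ, δ, rfl⟩
  · exact h6 γ
  · exact mul_mem (mul_mem (h6 γ) h1) (h6 δ)

theorem frob_mul (σ τ : F ≃+* F) : (frob (σ * τ) (QH_comp _) : Gam (QP 4 F)) =
    frob σ (QH_comp _) * frob τ (QH_comp _) :=
  Gam.ext ND_QH fun x => funext fun k => by rw [Gam.mul_T, frob_T, frob_T, frob_T]; rfl

theorem frob_pow (σ : F ≃+* F) (n : ℕ) : (frob (σ ^ n) (QH_comp _) : Gam (QP 4 F)) =
    frob σ (QH_comp _) ^ n := by
  induction n with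
  | zero => exact Gam.ext ND_QH fun x => funext fun k => by rw [frob_T]; rfl
  | succ n ih => rw [pow_succ, frob_mul, ih, pow_succ]

theorem outQ_frob_central (σ : F ≃+* F) (x : Cfsg.Out (POm (QP 4 F))) :
    x * outQ _ (frob σ (QH_comp _)) = outQ _ (frob σ (QH_comp _)) * x := by
  rw [← mem_centralizer_singleton_iff]
  refine out8_induction ?_ ?_ (fun a ha => ?_) (fun τ => ?_) x <;> rw [mem_centralizer_singleton_iff]
  · exact congrArg QuotientGroup.mk (tri_frob σ)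
  · rw [← map_mul, ← map_mul]
    conv_rhs => rw [← oρ_frob, mul_assoc, oρ_mul_self, mul_one]
  · rw [outQ_oB]
    exact outQ_comm _ (dick_oB ha)
  · rw [← map_mul, ← map_mul, ← frob_mul, ← frob_mul, ringAut_comm]

theorem central_prod {R C : Type*} [Group R] [Group C]
    (hC : ∀ c : C, (∀ d, d * c = c * d) → c = 1) (ψ : C →* R) (hψ : Function.Injective ψ) (t : R)
    (hc : ∀ x, x * t = t * x) {f : ℕ} (hf : f ≠ 0) (h0 : t ^ f = 1) (hi : ∀ i, t ^ i = 1 → f ∣ i)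
    (hP : ∀ P : Subgroup R, ψ.range ≤ P → t ∈ P → ∀ x, x ∈ P) :
    Nonempty (R ≃* C × Multiplicative (ZMod f)) := by
  let P : Subgroup R :=
    { carrier := {x | ∃ i : ℕ, x * (t ^ i)⁻¹ ∈ ψ.range}
      one_mem' := ⟨0, by simp⟩
      mul_mem' := by
        rintro x y ⟨i, hi⟩ ⟨j, hj⟩
        refine ⟨i + j, ?_⟩
        convert mul_mem hi hj using 1
        rw [add_comm, pow_add, mul_inv_rev, mul_assoc, mul_assoc, ← mul_assoc y, ← mul_assoc _ y,
          ((show Commute y t from hc y).pow_right i).inv_right.eq]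
      inv_mem' := by
        rintro x ⟨i, hi⟩
        refine ⟨(f - 1) * i, ?_⟩
        convert inv_mem hi using 1
        have e : (t ^ ((f - 1) * i))⁻¹ = t ^ i := by
          rw [inv_eq_iff_mul_eq_one, ← pow_add, ← Nat.succ_mul, Nat.succ_eq_add_one,
            Nat.sub_add_cancel (Nat.pos_of_ne_zero hf), pow_mul, h0, one_pow]
        rw [e, mul_inv_rev, inv_inv, ((show Commute x⁻¹ t from hc _).pow_right i).eq] }
  obtain ⟨e⟩ := abstract_prod ψ.range t f (fun d _ => hc d)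
    (hP P (fun x hx => ⟨0, by simpa using hx⟩) ⟨1, by simp⟩) h0 (fun i ⟨c, hc'⟩ => hi i (by
      rw [← hc', hC c fun d => hψ (by
        rw [map_mul, map_mul, hc', ((show Commute (ψ d) t from hc _).pow_right i).eq]), map_one])) hf
  exact ⟨e.trans ((MonoidHom.ofInjective hψ).symm.prodCongr (MulEquiv.refl _))⟩

theorem out8_abstract {C : Type*} [Group C] (hC : ∀ c : C, (∀ d, d * c = c * d) → c = 1)
    (ψ : C →* Cfsg.Out (POm (QP 4 F))) (hψ : Function.Injective ψ)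
    (h1 : QuotientGroup.mk (tri F) ∈ ψ.range) (h2 : outQ _ (oρ F) ∈ ψ.range)
    (h3 : ∀ a ha, outQ _ (oB a ha) ∈ ψ.range) {φ : F ≃+* F} {f : ℕ} (ho : orderOf φ = f)
    (hφ : ∀ σ : F ≃+* F, ∃ k : ℕ, σ = φ ^ k) :
    Nonempty (Cfsg.Out (Cfsg.POmega F (Cfsg.quadFormPlus 4 F)) ≃* C × Multiplicative (ZMod f)) := by
  have hp : ∀ n : ℕ, outQ (QP 4 F) (frob (φ ^ n) (QH_comp _)) =
    outQ (QP 4 F) (frob φ (QH_comp _)) ^ n := fun n => by rw [frob_pow, map_pow]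
  obtain ⟨e⟩ := central_prod hC ψ hψ _ (outQ_frob_central φ) (f := f)
    (ho ▸ (ringAut_orderOf_pos φ).ne') (by
      rw [← hp, ← ho, pow_orderOf_eq_one, ← pow_zero φ, frob_pow, pow_zero, map_one])
    (fun n h => by
      rw [← hp] at h
      obtain ⟨a, g, -, e⟩ := outQ_eq_one_iff.1 h
      have e2 : φ ^ n = 1 := congrArg SIso.σ e
      exact ho ▸ orderOf_dvd_of_pow_eq_one e2)
    (fun P hP ht => out8_induction (hP h1) (hP h2) (fun a ha => hP (h3 a ha)) fun σ => by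
      obtain ⟨k, rfl⟩ := hφ σ
      rw [hp]
      exact pow_mem ht k)
  obtain ⟨e'⟩ := out_congr (pomE (QP_coe 4 F))
  exact ⟨e'.trans e⟩

theorem rho_oL_aux {A : Type*} [Group A] (Φ : Gam (QP 4 F) →* A) (hs : ∀ a, Φ (scal _ a) = 1)
    (a : V8 F) (ha0 : QP 4 F a ≠ 0) (hz : Φ (oB a ha0) * Φ (oB a ha0) = 1)
    (hy : Φ (oL a ha0) * Φ (oL a ha0) = 1) :
    Φ (oρ F) * Φ (oL a ha0) * (Φ (oρ F))⁻¹ = Φ (oB a ha0) * Φ (oL a ha0) := by
  have e : oρ F * oL a ha0 * oρ F = oR (ob a) (Q_ob_ne ha0) := by simp only [oR, ob_ob]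
  have e2 := congrArg Φ (oR_mul_oR_ob a ha0)
  rw [hs, map_mul] at e2
  have e3 : Φ (oL a ha0) * Φ (oB a ha0) = Φ (oR a ha0) := by
    rw [oB, map_mul, ← mul_assoc, hy, one_mul]
  rw [← map_inv, oρ_inv, ← map_mul, ← map_mul, e, eq_inv_of_mul_eq_one_left e2, ← e3,
    mul_inv_rev, inv_eq_of_mul_eq_one_right hz, inv_eq_of_mul_eq_one_right hy]

theorem out_tri_sq : (QuotientGroup.mk (tri F) : Cfsg.Out (POm (QP 4 F))) *
    QuotientGroup.mk (tri F) = 1 := congrArg QuotientGroup.mk tri_mul_self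

omit [Finite F] in
theorem out_rho_sq : outQ _ (oρ F) * outQ _ (oρ F) = 1 := by rw [← map_mul, oρ_mul_self, map_one]

theorem out_braid : ((QuotientGroup.mk (tri F) : Cfsg.Out (POm (QP 4 F))) * outQ _ (oρ F)) ^ 3 = 1 :=
  congrArg QuotientGroup.mk tri_braid

theorem out8_even (h2 : (2 : F) = 0) {φ : F ≃+* F} {f : ℕ} (ho : orderOf φ = f)
    (hφ : ∀ σ : F ≃+* F, ∃ k : ℕ, σ = φ ^ k) :
    Nonempty (Cfsg.Out (Cfsg.POmega F (Cfsg.quadFormPlus 4 F)) ≃*
      Equiv.Perm (Fin 3) × Multiplicative (ZMod f)) := by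
  obtain ⟨ψ, h3, h4⟩ := exists_hom_S3 _ _ (out_tri_sq (F := F)) out_rho_sq out_braid
  refine out8_abstract (by decide +kernel) ψ (S3_injective ψ fun h => ?_) ⟨_, h3⟩ ⟨_, h4⟩
    (fun a ha => ?_) ho hφ
  · rw [h3, h4, outQ_apply, eq_comm, QuotientGroup.eq] at h
    obtain ⟨x, hx⟩ := h
    obtain ⟨g, rfl⟩ := QuotientGroup.mk'_surjective _ x
    refine tri_not_mem ⟨oρ F * ofOG _ g, ?_⟩
    rw [map_mul, ← conj_pmk, hx, mul_inv_cancel_left]
  · rw [outQ_oB, outQ_eq_one_iff.2 (ofOG_mem_sc (mem_Om_iff.2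
      ⟨dick_oB ha, spinF_of_two_eq_zero ND_QH Big.good h2 _⟩))]
    exact one_mem _

theorem out8_odd (h2 : (2 : F) ≠ 0) {φ : F ≃+* F} {f : ℕ} (ho : orderOf φ = f)
    (hφ : ∀ σ : F ≃+* F, ∃ k : ℕ, σ = φ ^ k) :
    Nonempty (Cfsg.Out (Cfsg.POmega F (Cfsg.quadFormPlus 4 F)) ≃*
      Equiv.Perm (Fin 4) × Multiplicative (ZMod f)) := by
  obtain ⟨ν, hν⟩ := FiniteField.exists_nonsquare (F := F) (ringChar_ne_two h2)
  obtain ⟨a, ha⟩ := ND_QH.represents (Q := QP 4 F) (by simp) ν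
  have ha0 : QP 4 F a ≠ 0 := by
    rw [ha]
    rintro rfl
    exact hν IsSquare.zero
  have hchi : chi (QP 4 F a) = -1 := by rw [ha, chi_eq_neg_one_iff.2 hν]
  have hm : ∀ b hb, chi (QP 4 F b) = -1 → outQ _ (oB b hb) * outQ _ (oB a ha0) = 1 := by
    intro b hb h
    rw [outQ_oB, outQ_oB, ← map_mul, ← map_mul, outQ_eq_one_iff]
    refine ofOG_mem_sc (mem_Om_iff.2 ⟨?_, ?_⟩)
    · rw [dick_mul, dick_oB hb, dick_oB ha0, mul_one]
    · rw [spin_mul, spin_oB hb, spin_oB ha0, h, hchi]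
      simp
  have hz := hm a ha0 hchi
  have hzy : outQ _ (oB a ha0) * outQ _ (oL a ha0) = outQ _ (oL a ha0) * outQ _ (oB a ha0) := by
    rw [outQ_oB]
    exact outQ_comm _ (dick_oB ha0)
  have hy : outQ _ (oL a ha0) * outQ _ (oL a ha0) = 1 := by
    rw [outQ_oL, ← sq, conj_pow, sq, hz, mul_one, mul_inv_cancel]
  obtain ⟨ψ, h3, h4, h5⟩ := exists_hom_S4 (outQ _ (oB a ha0)) (outQ _ (oL a ha0)) _ _ hz hy hzy
    (out_tri_sq (F := F)) out_rho_sq out_braid (outQ_oL a ha0).symm (by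
      rw [mul_inv_eq_iff_eq_mul, outQ_oB, outQ_comm _ (dick_oB ha0), ← outQ_oB a ha0])
    (rho_oL_aux _ outQ_scal a ha0 hz hy)
  refine out8_abstract (by decide +kernel) ψ (S4_injective ψ fun h => ?_) ⟨_, h4⟩ ⟨_, h5⟩
    (fun b hb => ?_) ho hφ
  · rw [h3, outQ_oB, outQ_eq_one_iff] at h
    obtain ⟨c, g, hg, e⟩ := h
    have hn : negOne (QP 4 F) ∈ Om (QP 4 F) := by
      rw [negOne_mem_commutator_iff ND_QH h2, discC_QH]
      exact ⟨MTS_even MTS_stdE, by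
        rw [Fintype.card_fin, show 4 = 2 * 2 from rfl, pow_mul, sq, Int.units_mul_self]⟩
    have := (scal_mul_mem_sc_iff hn (a := 1) (h := refl (QP 4 F) a * refl _ oe)).1
      ⟨c, g, hg, by rw [map_one, one_mul, e]⟩
    have h6 := (mem_Om_iff.1 this).2
    rw [spin_oB ha0, hchi] at h6
    exact absurd h6 (by decide)
  · rcases Int.units_eq_one_or (chi (QP 4 F b)) with h | h
    · rw [outQ_oB, outQ_eq_one_iff.2 (ofOG_mem_sc (mem_Om_iff.2
        ⟨dick_oB hb, (spin_oB hb).trans h⟩))]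
      exact one_mem _
    · rw [eq_inv_of_mul_eq_one_left (hm b hb h)]
      exact inv_mem ⟨_, h3⟩

end CfsgH7
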