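import Cfsg.Agent.H7.RI9

/-! Odd transpositions (helper7): the Suzuki case does not occur in a connected class. -/

set_option autoImplicit false
set_option linter.unusedSectionVars false

namespace CfsgH7.RI
open Cfsg CfsgH9 CfsgBS MulAction Subgroup

universe u
variable {G : Type u} [Group G] [Finite G] {D : Set G} {a b c d e f g h n p q r s t v w x y z : G}

/-- squares of `2`-elements fix the point `d` -/
def Sq {G : Type*} [Group G] (Y : Subgroup G) (d : G) : Prop :=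
  ∀ g ∈ Y, ∀ k : ℕ, g ^ 2 ^ k = 1 → Commute (g * g * d * (g * g)⁻¹) d

theorem perfect_of_xp (hD : IsRootInvolutionSet D) (hcl : OneClass D) (hd : d ∈ D) (hb : XP D d b) :
    commutator G = ⊤ := by
  obtain ⟨k, -, e⟩ := hcl d hd _ hb.2.2.2
  have : b ∈ commutator G := by
    have := commutator_mem_commutator (mem_top d⁻¹) (mem_top k)
    rwa [commutatorElement_def, show d⁻¹ * k * d⁻¹⁻¹ * k⁻¹ = d⁻¹ * (k * d * k⁻¹) by group, ← e,
      inv_mul_cancel_left] at this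
  rw [eq_top_iff, ← hD.generates, closure_le]
  intro y hy
  obtain ⟨g, -, rfl⟩ := hcl b hb.1 y hy
  exact Normal.conj_mem inferInstance b this g

theorem pair_cases (hS : SpecDisc.{u} D.ncard) (hD : IsRootInvolutionSet D) (hT : OT D) (hcl : OneClass D)
    (hd : d ∈ D) (hx : x ∈ D) (o : Od d x) (hb : XP D d b) (hgen : closure (Cn D d ∪ {x}) = ⊤)
    (hq : ∀ e ∈ Cn D d, Eqv D d e) (p2 : ∀ e ∈ Cn D d, e ≠ d → e * d ∈ D) :
    (Sq ⊤ d ∧ ∃ (F : Type) (_ : Field F) (_ : Fintype F), Fintype.card F = (Cn D d).ncard + 1 ∧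
      Nonempty (G ≃* Matrix.ProjectiveSpecialLinearGroup (Fin 2) F)) ∨
    (¬ Sq ⊤ d ∧ ∃ Q : Subgroup G, IsPGroup 2 Q ∧ (∀ y ∈ Q, Commute y d) ∧
      (∀ h, Od d (h * d * h⁻¹) → ∃ y ∈ Q, Commute (y * (h * d * h⁻¹) * y⁻¹) x) ∧
      (∀ h, Commute (h * d * h⁻¹) d ∨ ∃ k, ∃ y ∈ Q, h = k * d * k⁻¹ * y) ∧
      ∃ T : Set G, (∀ h ∈ T, ∀ k ∈ T, h ≠ k → Od (h * d * h⁻¹) (k * d * k⁻¹)) ∧
        ((Cn D d).ncard + 1) ^ 2 ≤ T.ncard) := by
  haveI : Fact (Nat.Prime 2) := ⟨Nat.prime_two⟩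
  have hR := hT.toRI
  let π := QuotientGroup.mk' (pCore 2 G)
  have hπ : Function.Surjective π := QuotientGroup.mk'_surjective _
  have hne : ∀ y ∈ D, π y ≠ 1 := map_ne_one hT hcl hd hx o
  have k1 : ∀ {w}, π w = 1 ↔ w ∈ pCore 2 G := QuotientGroup.eq_one_iff _
  have hZ : ∀ z ∈ pCore 2 G, ∀ g, Commute g z := fun z hz g => by
    have k : ∀ w ∈ pCore 2 G, Commute w d := fun w hw => by
      have e : π (w * d * w⁻¹) = π d := by rw [map_mul, map_mul, map_inv, k1.2 hw]; simp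
      have h1 := hD.conj_mem d hd w
      refine commute_of_conj_eq (by_contra fun n => hne _ (p2 _ ⟨h1,
        (eqv_of_map_eq π hT ker_mk_pCore h1 hd e).commute h1⟩ n) ?_)
      rw [map_mul, e, ← map_mul, hR.sq d hd, map_one]
    refine closure_le_cent (fun t ht => ?_) (top_mem hD g)
    obtain ⟨k', -, rfl⟩ := hcl d hd t ht
    have := (commute_conj_iff k').2 (k _ (Normal.conj_mem inferInstance z hz k'⁻¹))
    simp only [inv_inv, mul_assoc, mul_inv_cancel_left, mul_inv_cancel, mul_one] at this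
    simpa only [mul_assoc] using this.symm
  have inj : ∀ {y z}, y ∈ D → z ∈ D → π y = π z → y = z := map_inj hT hcl hd hx o hZ
  obtain ⟨Ω, _, X, h4, ht, hH, hL, two, h⟩ := pair_R1 (hS.image π) (mapRS π hπ hD hne) (hT.map π ker_mk_pCore hne)
    (map_oneClass π hcl) (CfsgL0.pCore_quotient _ _) (E := π '' Cn D d) (by
      rintro _ ⟨y, hy, rfl⟩
      exact ⟨⟨y, hy.1, rfl⟩, (eqv_image (fun a ha b hb => commute_map_iff π hT ker_mk_pCore ha hb) hd hy.1).2
        (hq y hy)⟩) ⟨d, hd, rfl⟩ ⟨b, ⟨hb.1, hb.2.1.symm⟩, rfl⟩ (fun e => hb.2.2.1 (inj hb.1 hd e.symm)) ⟨x, hx, rfl⟩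
    (od_map π hR hd o ker_mk_pCore) (by
      rw [← Set.image_singleton, ← Set.image_union, ← MonoidHom.map_closure, hgen, map_top_of_surjective _ hπ])
  have mI := fun {y} => mem_H_iff (y := y) π hT ker_mk_pCore hne hd h4 hH
  have dI := (mI hd).2 (Commute.refl d)
  have mH : ∀ g, π g ∈ X.H ↔ Commute (g * d * g⁻¹) d := fun g => by
    rw [← mI (hD.conj_mem d hd g), map_mul, map_mul, map_inv]
    exact ⟨fun h => X.conj_mem_I h dI, fun h => X.mem_H_of_conj_mem_H (X.I_subset_Q dI) dI.2.1 h.1⟩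
  have eI : X.I = π '' Cn D d := Set.ext fun s => ⟨fun hs => by
      obtain ⟨g, rfl⟩ := X.exists_conj_invol dI.2.1 dI.2.2 hs.2.1 hs.2.2
      obtain ⟨g, rfl⟩ := hπ g
      rw [← map_inv, ← map_mul, ← map_mul] at hs ⊢
      exact ⟨_, ⟨hD.conj_mem d hd g, (mI (hD.conj_mem d hd g)).1 hs⟩, rfl⟩,
    by rintro ⟨y, hy, rfl⟩; exact (mI hy.1).2 hy.2⟩
  have eq : X.q = (Cn D d).ncard + 1 := by
    rw [← X.card_I h4, eI, Nat.card_coe_set_eq, Set.InjOn.ncard_image fun y hy z hz => inj hy.1 hz.1]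
  have Q2 : IsPGroup 2 (X.Q.comap π) := two.comap_of_ker_isPGroup π ker_mk_pCore
  rcases h with h | h
  · have sq : ∀ y ∈ X.Q, y * y = 1 := fun y hy => X.Q0_sq h4 (h.Q_eq ▸ hy)
    refine Or.inl ⟨fun g _ k hk => ?_, ?_⟩
    · obtain ⟨P, hP⟩ := X.exists_sylow_le_Q
      obtain ⟨P', hP'⟩ := CfsgH4.exists_sylow_mem_of_pow (x := π g) (p := 2) (k := k) (by
        rw [← map_pow, hk, map_one])
      obtain ⟨l, rfl⟩ := MulAction.exists_smul_eq (G ⧸ pCore 2 G) P P'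
      have := sq _ (hP ((CfsgH4.mem_smul_sylow _ _ _).1 hP'))
      rw [show l⁻¹ * π g * l * (l⁻¹ * π g * l) = l⁻¹ * (π g * π g) * l⁻¹⁻¹ by group, conj_eq_one_iff, ← map_mul,
        k1] at this
      rw [conj_of_commute (hZ _ this d).symm]
    have rep : ∀ y ∈ X.Q.comap π, y ∈ pCore 2 G ∨ ∃ e ∈ Cn D d, e⁻¹ * y ∈ pCore 2 G := fun y hy =>
      ((X.mem_Q0 h4).1 (h.Q_eq ▸ hy)).imp k1.1 fun h => by
        obtain ⟨e, he, e'⟩ := eI ▸ h
        exact ⟨e, he, QuotientGroup.eq.1 e'⟩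
    have hO : pCore 2 G = ⊥ := by
      rw [eq_bot_iff, ← CfsgH1.inf_commutator_inf_center_eq_bot (H := X.Q.comap π) ⟨⟨fun y z => Subtype.ext ?_⟩⟩ ?_,
        perfect_of_xp hD hcl hd hb, inf_top_eq]
      · exact fun z hz => ⟨show π z ∈ X.Q by rw [k1.2 hz]; exact one_mem _, mem_center_iff.2 (hZ z hz)⟩
      · obtain ⟨k, hk⟩ := IsPGroup.iff_card.1 Q2
        rw [hk, index_comap_of_surjective _ hπ]
        exact Nat.Coprime.pow_left _ ((Nat.coprime_two_left).2 X.odd_index_Q)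
      · show Commute (y : G) z
        rcases rep y y.2 with h1 | ⟨e, he, h1⟩
        · exact (hZ _ h1 _).symm
        rcases rep z z.2 with h2 | ⟨e', he', h2⟩
        · exact hZ _ h2 _
        rw [← mul_inv_cancel_left e y, ← mul_inv_cancel_left e' z]
        exact (((hq e' he' e he.1).1 he.2).mul_right (hZ _ h2 _)).mul_left (hZ _ h1 _).symm
    obtain ⟨F, _, _, c1, c2, ⟨f⟩⟩ := nfA X h4 h
    obtain ⟨f'⟩ := sl2_equiv F
    exact ⟨F, _, _, c2.trans eq, ⟨((((QuotientGroup.quotientMulEquivOfEq hO).trans QuotientGroup.quotientBot).symm.trans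
      ((MulEquiv.subgroupCongr hL).trans topEquiv).symm).trans f).trans f'⟩⟩
  have tc : ∀ y, π y ∈ X.Q → Commute (x * y * x⁻¹ * d * (x * y * x⁻¹)⁻¹) d → π y = 1 := fun y hy c => by
    by_contra n
    refine X.t_conj_not_mem_H hy n ?_
    have := (mH _).2 c
    rwa [hR.inv hx, map_mul, map_mul, ← ht] at this
  refine Or.inr ⟨fun hs => ?_, X.Q.comap π, Q2, fun y hy => commute_of_conj_eq (inj (hD.conj_mem d hd y) hd ?_),
    fun h o' => ?_, fun g => ?_, (fun y => Function.surjInv hπ y * x⁻¹) '' X.Q, ?_, ?_⟩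
  · obtain ⟨y, hy, z, hz, n⟩ := h.noncomm
    have sq : ∀ y ∈ X.Q, y * y = 1 := fun y hy => by
      obtain ⟨y, rfl⟩ := hπ y
      obtain ⟨k, hk⟩ := Q2 ⟨y, hy⟩
      rw [← map_mul]
      refine tc _ (by rw [map_mul]; exact mul_mem hy hy) ?_
      have := hs (x * y * x⁻¹) trivial k (by rw [conj_pow, show y ^ 2 ^ k = 1 from congrArg Subtype.val hk]; simp)
      rwa [show x * y * x⁻¹ * (x * y * x⁻¹) = x * (y * y) * x⁻¹ by group] at this
    refine n ?_
    rw [← inv_eq_of_mul_eq_one_right (sq _ (mul_mem hy hz)), mul_inv_rev, inv_eq_of_mul_eq_one_right (sq y hy),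
      inv_eq_of_mul_eq_one_right (sq z hz)]
  · rw [map_mul, map_mul, map_inv, ← X.I_comm h4 dI hy, mul_inv_cancel_right]
  · obtain ⟨s, -, rfl⟩ := hcl d hd x hx
    obtain ⟨y, hy, e⟩ := X.exists_Q_smul (c := π h • X.a) (d := π s • X.a)
      (fun e => nc hR hd (hD.conj_mem d hd h) o' ((mH h).1 e).symm) fun e => nc hR hd hx o ((mH s).1 e).symm
    obtain ⟨y, rfl⟩ := hπ y
    refine ⟨y, hy, ?_⟩
    have := (commute_conj_iff s).2 ((mH (s⁻¹ * y * h)).1 (by
      rw [X.mem_H, map_mul, map_mul, map_inv, mul_smul, mul_smul, e, inv_smul_smul]))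
    convert this using 1; group
  · refine (caseB_form X h4 two h hL (π g)).imp (mH g).1 ?_
    rintro ⟨s, y, s1, s2, hy, e⟩
    obtain ⟨k, rfl⟩ := X.exists_conj_invol dI.2.1 dI.2.2 s2 s1
    obtain ⟨k, rfl⟩ := hπ k
    refine ⟨k, (k * d * k⁻¹)⁻¹ * g, ?_, (mul_inv_cancel_left _ _).symm⟩
    rw [mem_comap, map_mul, map_inv, map_mul, map_mul, map_inv, e, inv_mul_cancel_left]
    exact hy
  · rintro _ ⟨y, hy, rfl⟩ _ ⟨z, hz, rfl⟩ n
    refine hT.od (hD.conj_mem d hd _) (hD.conj_mem d hd _) fun c => n ?_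
    have := tc ((Function.surjInv hπ z)⁻¹ * Function.surjInv hπ y) (by
      rw [map_mul, map_inv, Function.surjInv_eq hπ, Function.surjInv_eq hπ]; exact mul_mem (inv_mem hz) hy) (by
      have := (commute_conj_iff (Function.surjInv hπ z * x⁻¹)⁻¹).2 c
      convert this using 1 <;> group)
    rw [map_mul, map_inv, Function.surjInv_eq hπ, Function.surjInv_eq hπ, inv_mul_eq_one] at this
    rw [this]
  · rw [← eq, ← h.card, Set.ncard_image_of_injective _ fun y z e =>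
      Function.injective_surjInv hπ (mul_right_cancel e)]
    rfl

end CfsgH7.RI
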