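import Cfsg.Agent.H7.RI10

/-! Odd transpositions (helper7): root groups generate `L₂(q)` in a connected class. -/

set_option autoImplicit false
set_option linter.unusedSectionVars false

namespace CfsgH7.RI
open Cfsg CfsgH9 Subgroup

universe u
variable {G : Type u} [Group G] [Finite G] {D : Set G} {a b c d e f g h n p q r s t v w x y z : G}

/-- the subgroup generated by the class of `d` and `x` -/
abbrev YY (D : Set G) (d x : G) : Subgroup G := closure ({e | e ∈ D ∧ Eqv D d e} ∪ {x})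

theorem Sq.mono {Y Y' : Subgroup G} (h : Sq Y' d) (hY : Y ≤ Y') : Sq Y d := fun g hg => h g (hY hg)

theorem card_EE_le (hD : RI D) (hcl : OneClass D) (hc : c ∈ D) (hd : d ∈ D) :
    Nat.card (EE D c) ≤ Nat.card (EE D d) := by
  obtain ⟨g, hg, rfl⟩ := hcl c hc d hd
  exact Nat.card_le_card_of_injective (fun n => ⟨g * n * g⁻¹, EE.conj hD hg n.2⟩)
    fun _ _ e => Subtype.ext (mul_left_cancel (mul_right_cancel (congrArg Subtype.val e)))

theorem Y_cases (hS : SpecDisc.{u} D.ncard) (hD : IsRootInvolutionSet D) (hR : Red D)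
    (hc : IsConnectedSet (CommAdj D) D) (hd : d ∈ D) (hx : x ∈ D) (o : Od d x) :
    (Sq (YY D d x) d ∧ ∃ (F : Type) (_ : Field F) (_ : Fintype F), Fintype.card F = Nat.card (EE D d) ∧
      Nonempty (YY D d x ≃* Matrix.ProjectiveSpecialLinearGroup (Fin 2) F)) ∨
    (¬ Sq (YY D d x) d ∧ ∃ Q ≤ YY D d x, IsPGroup 2 Q ∧ (∀ y ∈ Q, Commute y d) ∧
      (∀ h ∈ YY D d x, Od d (h * d * h⁻¹) → ∃ y ∈ Q, Commute (y * (h * d * h⁻¹) * y⁻¹) x) ∧
      (∀ h ∈ YY D d x, Commute (h * d * h⁻¹) d ∨ ∃ k ∈ YY D d x, ∃ y ∈ Q, h = k * d * k⁻¹ * y) ∧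
      ∃ T : Set G, T ⊆ YY D d x ∧ (∀ h ∈ T, ∀ k ∈ T, h ≠ k → Od (h * d * h⁻¹) (k * d * k⁻¹)) ∧
        Nat.card (EE D d) ^ 2 ≤ T.ncard) := by
  have hT := hR.toOT
  set Y := YY D d x
  have EY : ∀ e ∈ D, Eqv D d e → e ∈ Y := fun e he q => subset_closure (Or.inl ⟨he, q⟩)
  have hd' := EY d hd (Eqv.refl _ _)
  have hx' : x ∈ Y := subset_closure (Or.inr rfl)
  have hgen : closure ((Subtype.val ⁻¹' {e | e ∈ D ∧ Eqv D d e} : Set Y) ∪ {⟨x, hx'⟩}) = ⊤ := by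
    rw [← closure_closure_coe_preimage (k := {e | e ∈ D ∧ Eqv D d e} ∪ {x})]
    congr 1
    ext y
    simp only [Set.mem_union, Set.mem_preimage, Set.mem_singleton_iff, Subtype.ext_iff]
  obtain ⟨h1, h2, h3, h4⟩ := cls_setup (hT.preim Y) (fun e he g => hD.conj_mem _ he g) (d := ⟨d, hd'⟩)
    (fun e he => ⟨he.1, fun y hy => by rw [← commute_coe, ← commute_coe]; exact he.2 y hy⟩) hd hx (od_coe.1 o) hgen
  generalize {y : Y | ∃ g, y = g * ⟨d, hd'⟩ * g⁻¹} = Δ at *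
  have e1 : Cn Δ ⟨d, hd'⟩ = Subtype.val ⁻¹' {e | e ∈ D ∧ Eqv D d e} := Set.ext fun y =>
    ⟨fun hy => ⟨h4 hy.1, lemN hS rfl hR.toCl hc hd hx (h4 hy.1) o (commute_coe.2 hy.2) fun z hz c1 c2 =>
      (closure_le_cent (by
        rintro t (ht | rfl)
        exacts [((ht.2 z hz).1 c1).symm, c2.symm]) y.2).symm⟩,
    fun hy => ⟨h3 (Or.inl hy), commute_coe.1 (hy.2.commute hd).symm⟩⟩
  have e2 : Nat.card (EE D d) = (Cn Δ ⟨d, hd'⟩).ncard + 1 := by
    rw [e1, ← Set.ncard_image_of_injective _ Subtype.val_injective, ← Set.ncard_insert_of_notMem (a := 1) (by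
      rintro ⟨y, hy, e⟩; exact hT.ne _ hy.1 e)]
    refine congrArg Set.ncard (Set.ext fun z => (hR.mem_EE hd).trans (or_congr_right ⟨fun h => ⟨⟨z, EY z h.1 h.2⟩, h, rfl⟩, ?_⟩))
    rintro ⟨y, hy, rfl⟩; exact hy
  have sq : Sq ⊤ (⟨d, hd'⟩ : Y) ↔ Sq Y d := ⟨fun h g hg k hk => commute_coe.2 (h ⟨g, hg⟩ trivial k (Subtype.ext hk)),
    fun h g _ k hk => commute_coe.1 (h g g.2 k (congrArg Subtype.val hk))⟩
  obtain ⟨b, hb⟩ := hR.xp d hd
  have q1 := XP.eqv hT hR.cl hd hb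
  have q2 := XP.eqv hT hR.cl hd (hb.mul hT.toRI hd)
  rw [← sq, e2]
  refine (pair_cases ((hS.preim Y).sub h4) h1.1 h2 (oneClass_of_class h1) (h3 (Or.inl ⟨hd, Eqv.refl _ _⟩))
    (h3 (Or.inr rfl)) (od_coe.1 o) (b := ⟨b, EY b hb.1 q1⟩) ⟨h3 (Or.inl ⟨hb.1, q1⟩), Subtype.ext hb.2.1,
      fun e => hb.2.2.1 (congrArg Subtype.val e), h3 (Or.inl ⟨hb.2.2.2, q2⟩)⟩ (e1 ▸ hgen)
    (fun e he y hy => by rw [← commute_coe, ← commute_coe]; exact (e1.le he).2 y (h4 hy)) fun e he n => ?_).imp_right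
    (And.imp_right ?_)
  · have := e1.le he
    have n' : (e : G) ≠ d := fun h => n (Subtype.ext h)
    exact h3 (Or.inl ⟨hR.p2 e this.1 d hd this.2.symm n', this.2.trans (hR.mul_eqv this.1 hd this.2.symm n')⟩)
  rintro ⟨Q, k1, k2, k3, k4, T, k5, k6⟩
  refine ⟨Q.map Y.subtype, map_subtype_le _, k1.map _, ?_, fun h hh o' => ?_, fun h hh => ?_, Subtype.val '' T, ?_, ?_,
    by rwa [Set.ncard_image_of_injective _ Subtype.val_injective]⟩
  · rintro _ ⟨y, hy, rfl⟩; exact commute_coe.2 (k2 y hy)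
  · obtain ⟨y, hy, c⟩ := k3 ⟨h, hh⟩ (od_coe.1 o')
    exact ⟨y, ⟨y, hy, rfl⟩, commute_coe.2 c⟩
  · refine (k4 ⟨h, hh⟩).imp commute_coe.2 ?_
    rintro ⟨k, y, hy, e⟩
    exact ⟨k, k.2, y, ⟨y, hy, rfl⟩, congrArg Subtype.val e⟩
  · rintro _ ⟨y, -, rfl⟩; exact y.2
  · rintro _ ⟨y, hy, rfl⟩ _ ⟨z, hz, rfl⟩ n
    exact od_coe.2 (k5 y hy z hz fun e => n (congrArg _ e))

theorem sq_core (hS : SpecDisc.{u} D.ncard) (hD : IsRootInvolutionSet D) (hR : Red D) (hO : pCore 2 G = ⊥)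
    (hcon : IsConnectedSet (CommAdj D) D) (ih : ∀ T : Set G, T.ncard < D.ncard → Cl T →
      IsConnectedSet (CommAdj T) T → ∀ d ∈ T, ∀ x ∈ T, Od d x → Sq (YY T d x) d)
    (hd : d ∈ D) (hx : x ∈ D) (o : Od d x) : Sq (YY D d x) d := by
  have hT := hR.toOT
  have hR' := hT.toRI
  have hC := hR.toCl
  have sub : ∀ z, d ∈ Cn D z → x ∈ Cn D z → (∀ e ∈ D, Eqv D d e → e ∈ Cn D z) →
      (Comp (Cn D z) d).ncard < D.ncard → IsConnectedSet (CommAdj (Comp (Cn D z) d)) (Comp (Cn D z) d) →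
      Sq (YY D d x) d := fun z h1 h2 h3 h4 h5 =>
    (ih _ h4 (hC.comp (hT.cn z) (fun _ h => h.1) h1 h2 o h3) h5 d (Comp.self h1) x
      (Comp.of_od (Comp.self h1) h2 o) o).mono (closure_mono (Set.union_subset_union_left _ fun e he =>
        ⟨Comp.of_od (Comp.of_od (Comp.self h1) h2 o) (h3 e he.1 he.2) (he.2.od hT hd he.1 hx o.symm),
          fun y hy => he.2 y hy.1.1⟩))
  obtain ⟨c, hc, c1, c2⟩ := exists_common hT hR.cl hR.xp hd (hcon d hd x hx)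
  have m1 : d ∈ Cn D c := ⟨hd, c2.symm⟩
  have m2 : x ∈ Cn D c := ⟨hx, c1.symm⟩
  by_cases h : IsConnectedSet (CommAdj (Comp (Cn D c) d)) (Comp (Cn D c) d)
  · exact sub c m1 m2 (fun e he q => ⟨he, ((q c hc).1 c2).symm⟩) (ncard_comp_lt hR' hc hd m2 o) h
  have hQ := gq_of hS hC hcon hc m1 m2 o h
  by_contra hn
  obtain ⟨-, Q, k0, k1, k2, k3, k4, T, k5, k6, k7⟩ := (Y_cases hS hD hR hcon hd hx o).resolve_left fun h => hn h.1
  have nd : ¬ Eqv D d c := fun q => nc hR' hd hx o ((q x hx).2 c1.symm).symm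
  obtain ⟨y, hy, y1, y2, y3⟩ := hC.sepN hS hcon hd hx hc o c2 nd
  obtain ⟨e, he, o1, o2⟩ := exists_od2 hT hR.cl hc hd c2 fun q => nd q.symm
  obtain ⟨g, hg, g1, g2, g3⟩ := hC.tri hcon hc hd he c2 (fun q => nd q.symm) o1 o2
  have n1 : ¬ Eqv D g c := fun q => nc hR' he hc o1 ((q e he).1 g3.symm)
  have n2 : ¬ Eqv D g d := fun q => nc hR' he hd o2 ((q e he).1 g3.symm)
  have og : Od x g := hT.od hx hg fun c' => n1 (hQ.nt hR' hd hx o hc hg c2.symm c1.symm g2.symm c' g1)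
  refine hQ.f2 hS hD hR hcon hc m1 m2 o (module_arg hD hR hQ hc m1 m2 o (fun n h1 h2 => zarg hD hR hQ hc m1 m2 o hy
    y1.symm y2.symm y3 (fun z y hy y1 y2 y3 z1 z2 z3 z4 => ?_) h1 h2) rfl k0 k1 k2 k3 k4 k5 k6
    ((Nat.pow_le_pow_left (card_EE_le hR' hR.cl hc hd) 2).trans k7))
  have l1 : d ∈ Cn D z := ⟨hd, z1 d hd c2.symm (Commute.refl d)⟩
  have l2 : x ∈ Cn D z := ⟨hx, z2⟩
  have l3 : ∀ e ∈ D, Eqv D d e → e ∈ Cn D z := fun e he q =>
    ⟨he, z1 e he ((q c hc).1 c2).symm (q.commute hd).symm⟩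
  have p1 := Comp.self l1
  have p2 := Comp.of_od p1 l2 o
  have p3 := Comp.of_od (Comp.of_od (Comp.of_od p2 ⟨hg, z1 g hg g1 g2⟩ og) ⟨hy, z3⟩ (hT.od hg hy fun c' =>
    nc hR' hy hc y3 (hQ d hd g hg c hc g2 c2 g1 n2 (fun q => nd q.symm) y hy y1.symm c'.symm)))
    ⟨hc, z1 c hc (Commute.refl c) c2⟩ y3
  refine eq_one_of_central hO (fun w => closure_le_cent (fun t ht => by_contra fun n => hn (sub z l1 l2 l3
    (Set.ncard_lt_ncard ⟨fun _ h => h.1.1, fun h => n (h ht).1.2⟩) (by_contra fun h => ?_))) (top_mem hD w))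
    (k := 1) (by rw [pow_one, pow_two, z4])
  exact nc hR' hd hx o ((hC.comp (hT.cn z) (fun _ h => h.1) l1 l2 o l3).disc (hS.sub fun _ h => h.1.1) h p3 p2 p1
    c1 c2.symm)

theorem sq_all (hS : ∀ n, SpecDisc.{u} n) (n : ℕ) : ∀ (G : Type u) [Group G] [Finite G] (D : Set G), D.ncard < n →
    Cl D → IsConnectedSet (CommAdj D) D → ∀ d ∈ D, ∀ x ∈ D, Od d x → Sq (YY D d x) d := by
  induction n with
  | zero => exact fun _ _ _ _ h => absurd h (Nat.not_lt_zero _)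
  | succ n ih =>
  intro G _ _ D hn hC hcon d hd x hx o
  have hT := hC.toOT.sub
  have hcl := sub_oneClass hC.cl
  let π := QuotientGroup.mk' (pCore 2 (closure D))
  have hd' : (⟨d, subset_closure hd⟩ : closure D) ∈ sub D := hd
  have hx' : (⟨x, subset_closure hx⟩ : closure D) ∈ sub D := hx
  have hne : ∀ y ∈ sub D, π y ≠ 1 := map_ne_one hT hcl hd' hx' (od_coe.1 o)
  have hD' := mapRS π (QuotientGroup.mk'_surjective _) (subRS hC.toRI) hne
  have ci := fun a ha b hb => commute_map_iff π hT ker_mk_pCore (a := a) (b := b) ha hb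
  obtain ⟨b, hb⟩ := hC.xp d hd
  have hle : (π '' sub D).ncard ≤ D.ncard := le_trans Set.ncard_image_le
    (Set.ncard_le_ncard_of_injOn Subtype.val (fun _ h => h) Subtype.val_injective.injOn)
  have := sq_core (hS _) hD' (red_of hD' (hT.map π ker_mk_pCore hne) (map_oneClass π hcl) (CfsgL0.pCore_quotient _ _)
    ⟨_, hd', rfl⟩ (b := π ⟨b, subset_closure hb.1⟩) ⟨⟨_, hb.1, rfl⟩, Commute.map (Subtype.ext hb.2.1) π,
      fun e => hne (⟨d, subset_closure hd⟩ * ⟨b, subset_closure hb.1⟩) hb.2.2.2 (by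
        rw [map_mul, e, ← map_mul, hT.sq _ hd', map_one]),
      ⟨d, subset_closure hd⟩ * ⟨b, subset_closure hb.1⟩, hb.2.2.2, map_mul _ _ _⟩) (CfsgL0.pCore_quotient _ _)
    (by
      rintro _ ⟨p, hp, rfl⟩ _ ⟨q, hq, rfl⟩
      have := cr_coe.2 (hcon p hp q hq)
      clear hq
      induction this with
      | refl => exact Relation.ReflTransGen.refl
      | tail _ h ih => exact ih.trans (cr_of_commute ⟨_, h.1, rfl⟩ ⟨_, h.2.1, rfl⟩ (Commute.map h.2.2.2 π)))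
    (fun T h => ih _ T (by omega)) ⟨_, hd', rfl⟩ ⟨_, hx', rfl⟩ (od_map π hT.toRI hd' (od_coe.1 o) ker_mk_pCore)
  intro g hg k hk
  obtain ⟨g, hg', rfl⟩ : g ∈ (comap π (YY (π '' sub D) (π ⟨d, subset_closure hd⟩) (π ⟨x, subset_closure hx⟩))).map
      (closure D).subtype := (closure_le _).2 (by
    rintro y (hy | rfl)
    · exact ⟨⟨y, subset_closure hy.1⟩, subset_closure (Or.inl ⟨⟨_, hy.1, rfl⟩,
        (eqv_image ci hd' hy.1).2 (eqv_coe.2 hy.2)⟩), rfl⟩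
    · exact ⟨⟨_, subset_closure hx⟩, subset_closure (Or.inr rfl), rfl⟩) hg
  have := this (π g) hg' k (by rw [← map_pow, show g ^ 2 ^ k = 1 from Subtype.ext hk, map_one])
  rw [← map_mul, ← map_inv, ← map_mul, ← map_mul] at this
  exact commute_coe.2 ((ci _ ((subRS hC.toRI).conj_mem _ hd' _) _ hd').1 this)

theorem s5052 (hS : ∀ n, SpecDisc.{u} n) (hD : IsOddTranspositionSet D) (hcl : IsRootInvolutionClass D)
    (hO : pCore 2 G = ⊥) (hDD : (D ∩ commutingProducts D).Nonempty) (hc : IsConnectedSet (CommAdj D) D) (hd : d ∈ D) :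
    (sameCommutingSubgroup D d : Set G) = sameCommutingClass D d ∪ {1} ∧
    ∀ x ∈ oddPartners D d, ∃ (F : Type) (_ : Field F) (_ : Fintype F),
      Fintype.card F = Nat.card (sameCommutingSubgroup D d) ∧
      Nonempty (closure (sameCommutingClass D d ∪ {x}) ≃* Matrix.ProjectiveSpecialLinearGroup (Fin 2) F) := by
  have hT := ot_of_set hD
  obtain ⟨a, ha, b, hb⟩ := xp_of_DD hT.toRI hDD
  have hR := red_of hD.1 hT (oneClass_of_class hcl) hO ha hb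
  have e : sameCommutingClass D d = {e | e ∈ D ∧ Eqv D d e} := Set.ext fun e => and_congr_right fun _ => eqv_iff.symm
  unfold sameCommutingSubgroup
  rw [e]
  refine ⟨Set.ext fun z => (hR.mem_EE hd).trans or_comm, fun x hx => ?_⟩
  obtain ⟨hx, o⟩ := mem_oddPartners.1 hx
  exact ((Y_cases (hS _) hD.1 hR hc hd hx o).resolve_right fun h =>
    h.1 (sq_all hS _ G D (Nat.lt_succ_self _) hR.toCl hc d hd x hx o)).2

end CfsgH7.RI
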