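import Cfsg.Agent.H7.RI4

/-! Root involutions (helper7): the product graph of a non-degenerate class is connected. -/

set_option autoImplicit false
set_option linter.unusedSectionVars false

namespace CfsgH7.RI
open Cfsg CfsgH9

universe u
variable {G : Type*} [Group G] {D : Set G} {a b c d e f g p q r s x y z : G}

/-- reachability in the product graph -/
abbrev ER (D : Set G) (a b : G) : Prop := Relation.ReflTransGen (ProdAdj D) a b

theorem ER.symm (h : ER D a b) : ER D b a := by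
  induction h with
  | refl => exact Relation.ReflTransGen.refl
  | tail _ h ih =>
    exact Relation.ReflTransGen.head ⟨h.2.1, h.1, h.2.2.1.symm, h.2.2.2.1.symm, h.2.2.2.1 ▸ h.2.2.2.2⟩ ih

theorem er_of_xp (ha : a ∈ D) (h : XP D a b) : ER D a b :=
  Relation.ReflTransGen.single ⟨ha, h.1, h.2.2.1.symm, h.2.1, h.2.2.2⟩

theorem xp_of_adj (h : ProdAdj D a b) : XP D a b := ⟨h.2.1, h.2.2.2.1, h.2.2.1.symm, h.2.2.2.2⟩

theorem er_of_fo (hD : RI D) (ha : a ∈ D) (hb : b ∈ D) (h : Fo a b) : ER D a b :=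
  (er_of_xp ha (h.xp_left hD ha hb)).trans (er_of_xp hb (h.xp_right hD ha hb)).symm

theorem ER.mem (h : ER D a b) (ha : a ∈ D) : b ∈ D := by
  induction h with
  | refl => exact ha
  | tail _ h _ => exact h.2.1

theorem ER.conj (hD : RI D) (h : ER D a b) (hg : g ∈ Subgroup.closure D) : ER D (g * a * g⁻¹) (g * b * g⁻¹) := by
  induction h with
  | refl => exact Relation.ReflTransGen.refl
  | tail _ h ih => exact ih.trans (er_of_xp (hD.conj_closure hg h.1) ((xp_of_adj h).conj hD hg))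

theorem tri_of_not_er (hD : RI D) (ha : a ∈ D) (hb : b ∈ D) (h : ¬ ER D a b) : Commute a b ∨ Od a b :=
  (hD.tri ha hb).imp_right fun h' => h'.resolve_right fun h4 => h (er_of_fo hD ha hb h4)

theorem ER.commute (hD : RI D) (h : ER D a b) (hy : y ∈ D) (hn : ¬ ER D a y) (hc : Commute a y) :
    Commute b y := by
  induction h with
  | refl => exact hc
  | tail h1 h ih =>
    exact (tri_of_not_er hD h.2.1 hy fun h' => hn ((h1.tail h).trans h')).resolve_right
      ((xp_of_adj h).not_od hD h.1 hy ih)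

theorem ER.od (hD : RI D) (h : ER D a b) (ha : a ∈ D) (hy : y ∈ D) (hn : ¬ ER D a y) (ho : Od a y) : Od b y :=
  (tri_of_not_er hD (h.mem ha) hy fun h' => hn (h.trans h')).resolve_left fun c =>
    nc hD ha hy ho (h.symm.commute hD hy (fun h' => hn (h.trans h')) c)

theorem commute_of_mul (hD : RI D) (hp : p ∈ D) (hq : q ∈ D) (hg : g ∈ D) (hne : p ≠ q) (h1 : ¬ ER D g p)
    (h2 : ¬ ER D g q) (h : Commute g (p * q)) : Commute g p ∧ Commute g q := by
  have key : Commute g p := by
    by_contra c1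
    have c2 : ¬ Commute g q := fun e => c1 (by
      have := h.mul_right e
      rwa [mul_assoc, hD.sq q hq, mul_one] at this)
    refine hne (mid_unique ((tri_of_not_er hD hg hp h1).resolve_left c1).symm
      ((tri_of_not_er hD hg hq h2).resolve_left c2).symm ?_)
    calc p * g * p = p * (g * (p * q)) * q := by
          rw [mul_assoc _ _ q, mul_assoc _ _ q, mul_assoc p q q, hD.sq q hq]; group
      _ = p * p * q * g * q := by rw [h.eq]; group
      _ = _ := by rw [hD.sq p hp, one_mul]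
  have := key.mul_right h
  rw [hD.sq_assoc hp] at this
  exact ⟨key, this⟩

theorem ri_block (hD : RI D) (ha : a ∈ D) : RI {y | ER D a y} where
  sq d hd := hD.sq d (hd.mem ha)
  ne d hd := hD.ne d (hd.mem ha)
  conj x hx y hy := by
    have := ER.conj hD (hx.symm.trans hy) (Subgroup.subset_closure (hx.mem ha))
    rw [mul_inv_cancel_right, hD.inv (hx.mem ha)] at this
    exact hx.trans this
  pair x hx y hy := by
    rcases hD.pair x (hx.mem ha) y (hy.mem ha) with h | h | h
    · exact Or.inl h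
    · exact Or.inr (Or.inl h)
    · refine Or.inr (Or.inr ⟨h.1, ?_⟩)
      rw [pow_two, ← mul_assoc]
      exact hx.trans (er_of_xp (hx.mem ha) (Fo.xp_left hD (hx.mem ha) (hy.mem ha) h.1))

theorem er_of_conj (hD : RI D) (hr : r ∈ D) (hs : s ∈ D) (ho : Od s r) (h : ER D r (s * r * s)) : ER D r s := by
  obtain ⟨t, ht, e1, -, o1, -⟩ := exists_mid (ri_block hD hr) Relation.ReflTransGen.refl h
    (ho.symm.conj_self hD hr hs)
  rw [mid_unique ho o1 e1.symm]; exact ht

theorem block_core (hD : RI D) (hp : p ∈ D) (hq : q ∈ D) (hr : r ∈ D) (hy : y ∈ D) (hf : ER D r f)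
    (of : Od r f) {r' : G} (hr' : XP D r r') (hne : p ≠ q) (cpq : Commute p q) (crp : Commute r p)
    (crq : Commute r q) (n1 : ¬ ER D r p) (n2 : ¬ ER D r q) (ory : Od r y) (n3 : ¬ ER D r y)
    (cw : Commute (p * q * r) y) : False := by
  have hfD := hf.mem hr
  wlog o : Od f r' generalizing r'
  · exact this (hr'.mul hD hr) ((hr'.od_or hD hr hfD of).resolve_left o)
  have e1 := er_of_xp hr hr'
  have e2 := er_of_xp hr (hr'.mul hD hr)
  have hr'' := hr'.2.2.2
  obtain ⟨h, hh, e3, hc1⟩ := exists_conj_via hD hr'.1 hr hfD o.symm of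
  obtain ⟨k, hk, e4, hc2⟩ := exists_conj_via hD hr hr'' hy ory (e2.od hD hr hy n3 ory)
  have cfp := hf.commute hD hp n1 crp
  have cfq := hf.commute hD hq n2 crq
  have chp := hc1 p (e1.commute hD hp n1 crp).symm crp.symm cfp.symm
  have chq := hc1 q (e1.commute hD hq n2 crq).symm crq.symm cfq.symm
  have cwr : Commute (p * q * r) r := (crp.symm.mul_left crq.symm).mul_left (Commute.refl r)
  have ckw := hc2 _ cwr (((e2.commute hD hp n1 crp).symm.mul_left (e2.commute hD hq n2 crq).symm).mul_left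
    ((Commute.refl r).mul_right hr'.2.1)) cw
  have e5 : (h * k * p * (h * k)⁻¹) * (h * k * q * (h * k)⁻¹) = p * q * r := by
    calc _ = h * (k * (p * q * (r * r)) * k⁻¹) * h⁻¹ := by rw [hD.sq r hr]; group
      _ = h * (k * (p * q * r) * k⁻¹ * (k * r * k⁻¹)) * h⁻¹ := by group
      _ = h * (p * q * (r * r) * r') * h⁻¹ := by rw [← ckw.eq, mul_inv_cancel_right, e4]; group
      _ = h * (p * q) * h⁻¹ * (h * r' * h⁻¹) := by rw [hD.sq r hr]; group
      _ = _ := by rw [← (chp.mul_left chq).eq, mul_inv_cancel_right, e3]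
  have hp' := hD.conj_closure (mul_mem hh hk) hp
  have hq' := hD.conj_closure (mul_mem hh hk) hq
  have hne' : h * k * p * (h * k)⁻¹ ≠ h * k * q * (h * k)⁻¹ := fun e => hne (mul_left_cancel (mul_right_cancel e))
  have c' := (commute_conj_iff (h * k)).2 cpq
  generalize h * k * p * (h * k)⁻¹ = p' at *
  generalize h * k * q * (h * k)⁻¹ = q' at *
  have fin : ∀ {p' q' : G}, p' ∈ D → q' ∈ D → p' ≠ q' → Commute p' q' → Commute y (p' * q') → ¬ ER D r p' :=
    fun {p' q'} hp' hq' hne' c' cy h1 => by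
      have o1 := h1.od hD hr hy n3 ory
      have n4 : ¬ ER D y p' := fun h2 => n3 (h1.trans h2.symm)
      by_cases h2 : ER D y q'
      · exact nc hD hp' hy o1 (h2.symm.commute hD hp' (fun h3 => n4 (h2.trans h3)) c'.symm).symm
      · exact nc hD hp' hy o1 (commute_of_mul hD hp' hq' hy hne' n4 h2 cy).1.symm
  have m1 := fin hp' hq' hne' c' (e5 ▸ cw.symm)
  have m2 := fin hq' hp' hne'.symm c'.symm (c'.eq ▸ e5 ▸ cw.symm)
  obtain ⟨c1, c2⟩ := commute_of_mul hD hp' hq' hr hne' m1 m2 (e5 ▸ cwr.symm)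
  have := (cfp.mul_right cfq).inv_right.mul_right
    (e5 ▸ (hf.commute hD hp' m1 c1).mul_right (hf.commute hD hq' m2 c2) : Commute f (p * q * r))
  rw [inv_mul_cancel_left] at this
  exact nc hD hr hfD of this.symm

theorem block_triple (hD : RI D) (H1 : ∀ r ∈ D, ∃ f, ER D r f ∧ Od r f) (H2 : ∀ r ∈ D, ∃ r', XP D r r')
    (ha : a ∈ D) (hb : b ∈ D) (hy : y ∈ D) (cab : Commute a b) (n1 : ¬ ER D a b) (n2 : ¬ ER D a y)
    (n3 : ¬ ER D b y) (oa : Od a y) (ob : Od b y) : False := by
  wlog o : Od (a * y * a) (b * y * b) generalizing b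
  · obtain ⟨b', hb'⟩ := H2 b hb
    have e1 := er_of_xp hb hb'
    have e2 := er_of_xp hb (hb'.mul hD hb)
    refine this hb'.1 (e1.commute hD ha (fun h => n1 h.symm) cab.symm).symm (fun h => n1 (h.trans e1.symm))
      (fun h => n3 (e1.trans h)) (e1.od hD hb hy n3 ob) (by_contra fun o' => ?_)
    have hs := hb'.2.2.2
    have hp := hD.conj a ha y hy
    have hr := hD.conj b hb y hy
    have cbs : Commute b (b * b') := (Commute.refl b).mul_right hb'.2.1
    have osy := e2.od hD hb hy n3 ob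
    have osr : Od (b * b') (b * y * b) := by
      have := osy.conj b
      rwa [cbs.eq, mul_inv_cancel_right, hD.inv hb] at this
    have e3 : b' * y * b' = b * b' * (b * y * b) * (b * b') := by
      rw [show b * b' * (b * y * b) * (b * b') = b * b' * b * y * (b * b) * b' by group, hD.sq b hb, hb'.2.1,
        mul_assoc b' b, hD.sq b hb, mul_one, mul_one]
    rw [e3] at o'
    have hr' := hD.conj _ hs _ hr
    have orr := nc hD hr hr' (osr.symm.conj_self hD hr hs)
    by_cases h1 : ER D (a * y * a) (b * y * b) <;>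
      by_cases h2 : ER D (a * y * a) (b * b' * (b * y * b) * (b * b'))
    · have := (er_of_conj hD hr hs osr (h1.symm.trans h2)).conj hD (Subgroup.subset_closure hb)
      rw [cbs.eq, mul_inv_cancel_right, hD.inv hb, show b * (b * y * b) * b = b * b * y * (b * b) by group,
        hD.sq b hb, one_mul, mul_one] at this
      exact n3 (e2.trans this.symm)
    · exact orr (h1.commute hD hr' h2 ((tri_of_not_er hD hp hr' h2).resolve_right o'))
    · exact orr (h2.commute hD hr h1 ((tri_of_not_er hD hp hr h1).resolve_right o)).symm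
    · have := commute_mid hD hs hr osr ((tri_of_not_er hD hp hr h1).resolve_right o)
        ((tri_of_not_er hD hp hr' h2).resolve_right o')
      rw [show a * y * a = a * y * a⁻¹ by rw [hD.inv ha],
        commute_conj_left (e2.commute hD ha (fun h => n1 h.symm) cab.symm).symm] at this
      exact nc hD hs hy osy this.symm
  have hab : a ≠ b := fun h => n1 (h ▸ Relation.ReflTransGen.refl)
  have t2 : a * b * (a * b) = 1 := by rw [mul_assoc, ← mul_assoc b, ← cab.eq, mul_assoc, hD.sq b hb, mul_one, hD.sq a ha]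
  have conj2 : ∀ d ∈ D, a * b * d * (a * b) ∈ D := fun d hd => by
    have := hD.conj a ha _ (hD.conj b hb d hd)
    rw [cab.eq, ← mul_assoc, ← cab.eq]
    simpa only [mul_assoc] using this
  have o0 : Od y (a * b * y * (a * b)) := by
    have := o.conj a
    rw [hD.inv ha, show a * (a * y * a) * a = a * a * y * (a * a) by group, hD.sq a ha, one_mul, mul_one] at this
    rw [cab.eq, ← mul_assoc, ← cab.eq]
    simpa only [mul_assoc] using this
  obtain ⟨u, hu, -, -, cut, cw, -⟩ := mid_of_invol hD t2 conj2 hy o0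
  have hau : a ≠ u := fun h => nc hD hb hy ob (by rwa [← h, cab.eq, mul_assoc, hD.sq a ha, mul_one] at cw)
  have hbu : b ≠ u := fun h => nc hD ha hy oa (by rwa [← h, mul_assoc, hD.sq b hb, mul_one] at cw)
  by_cases h1 : ER D a u
  · have cub := h1.commute hD hb n1 cab
    have cua : Commute u a := by
      have := cut.mul_right cub
      rwa [mul_assoc, hD.sq b hb, mul_one] at this
    obtain ⟨f, hf, of⟩ := H1 b hb
    obtain ⟨r', hr'⟩ := H2 b hb
    exact block_core hD ha hu hb hy hf of hr' hau cua.symm cab.symm cub.symm (fun h => n1 h.symm)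
      (fun h => n1 (h1.trans h.symm)) ob n3 (by rwa [mul_assoc, cub.eq, ← mul_assoc])
  have cua : Commute u a := by
    by_cases h2 : ER D b u
    · exact h2.commute hD ha (fun h => n1 h.symm) cab.symm
    · exact (commute_of_mul hD ha hb hu hab (fun h => h1 h.symm) (fun h => h2 h.symm) cut).1
  have cub : Commute u b := by
    have := cua.mul_right cut
    rwa [hD.sq_assoc ha] at this
  obtain ⟨f, hf, of⟩ := H1 a ha
  obtain ⟨r', hr'⟩ := H2 a ha
  exact block_core hD hb hu ha hy hf of hr' hbu cub.symm cab cua.symm n1 h1 oa n2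
    (by rwa [mul_assoc, cua.eq, ← mul_assoc, ← cab.eq])

theorem C_ne_of_fo (hD : RI D) (ha : a ∈ D) (hb : b ∈ D) (h : Fo a b) :
    commutingMembers D a ≠ commutingMembers D (a * b * a * b) := fun e =>
  h.not_comm hD ha hb (show b ∈ commutingMembers D a from e ▸ ⟨hb, (h.xp_right hD ha hb).2.1⟩).2.symm

theorem er_connected {G : Type u} [Group G] [Finite G] {D : Set G} {a b p q : G}
    (hS : SpecDisc.{u} D.ncard) (hD : RI D) (hcl : OneClass D) (ha : a ∈ D) (hb : b ∈ D) (h4 : Fo a b) (hp : p ∈ D) (hq : q ∈ D) :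
    ER D p q := by
  have hx := h4.xp_left hD ha hb
  obtain ⟨n, x, -, -, -, hxD, h5, -, o, -⟩ := exists_order_three hD hcl ha hx (C_ne_of_fo hD ha hb h4)
  have H1 : ∀ r ∈ D, ∃ f, ER D r f ∧ Od r f := fun r hr => by
    obtain ⟨g, hg, rfl⟩ := hcl a ha r hr
    exact ⟨_, ER.conj hD ((er_of_xp ha hx).trans (er_of_fo hD hxD hx.1 h5).symm) hg, o.conj g⟩
  have H2 : ∀ r ∈ D, ∃ r', XP D r r' := fun r hr => exists_xp hD hcl ha hx hr
  have key : ∀ y ∈ D, ∀ z, OR D y z → ER D y z ∨ Od y z := fun y hy z h => by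
    induction h with
    | refl => exact Or.inl Relation.ReflTransGen.refl
    | @tail v w _ h ih =>
      obtain ⟨hv, hw, o⟩ := oddAdj_iff.1 h
      by_cases h1 : ER D y w
      · exact Or.inl h1
      refine Or.inr ((tri_of_not_er hD hy hw h1).resolve_left fun c => ?_)
      by_cases h2 : ER D y v
      · exact nc hD hv hw o (h2.commute hD hw h1 c)
      have o' := ih.resolve_left h2
      by_cases h3 : ER D w v
      · exact nc hD hy hv o' (h3.commute hD hy (fun h => h1 h.symm) c.symm).symm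
      exact block_triple hD H1 H2 hy hw hv c h1 h2 h3 o' o.symm
  have k2 : ∀ y z, CR D y z → ER D y z := fun y z h => by
    induction h with
    | refl => exact Relation.ReflTransGen.refl
    | tail _ h ih =>
      exact ih.trans ((key _ h.1 _ (hcl.connected hD ha hxD o _ h.1 _ h.2.1)).resolve_right
        fun o => nc hD h.1 h.2.1 o h.2.2.2)
  exact k2 p q (by_contra fun hn =>
    h4.not_comm hD ha hb (disc_comm hS hD ha hx hp hq hn a ha b hb (cr_of_not_od hD ha hb h4.not_od)))

theorem exists_comm_eq [Finite G] (hD : RI D) (hcl : OneClass D) (hb : b ∈ D) (h : XP D b d)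
    (hne : Aset D b ≠ Aset D d) : ∃ n ∈ D, Fo n b ∧ n * b * n * b = d := by
  obtain ⟨y, hy, o, hn⟩ := exists_od_not_od hD hcl hb h.1 hne
  obtain ⟨n, hn, h1, h2⟩ := lemC hD hb hy o h (h.fo_of hD hy o hn)
  exact ⟨n, hn.1, h1, h2⟩

theorem gen_top {G : Type u} [Group G] [Finite G] {D : Set G} {a b d x : G}
    (hS : SpecDisc.{u} D.ncard) (hD : IsRootInvolutionSet D) (hcl : OneClass D) (ha : a ∈ D) (hb : b ∈ D) (h4 : Fo a b) (hd : d ∈ D)
    (hx : x ∈ D) (o : Od d x) {U : Subgroup G} (h1 : ∀ y, XP D d y → y ∈ U) (h2 : x ∈ U) : U = ⊤ := by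
  have hR := RI.of_set hD
  obtain ⟨d', hd'⟩ := exists_xp hR hcl ha (h4.xp_left hR ha hb) hd
  have hdU : d ∈ U := by
    have := mul_mem (h1 _ (hd'.mul hR hd)) (h1 _ hd')
    rwa [mul_assoc, hR.sq _ hd'.1, mul_one] at this
  have k1 : ∀ {y z : G}, y ∈ D → z ∈ D → y ∈ U → z ∈ U → Od y z → ∃ g ∈ U, z = g * y * g⁻¹ :=
    fun hy hz m1 m2 o => by
      obtain ⟨g, hg, e⟩ := o.exists_conj hR hy hz
      exact ⟨g, (Subgroup.closure_le _).2 (by rintro _ (rfl | rfl) <;> assumption) hg, e⟩
  have k2 : ∀ y ∈ D, y ∈ U → Od x y → ∃ g ∈ U, y = g * d * g⁻¹ := fun y hy m o' => by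
    obtain ⟨g, hg, e⟩ := k1 hd hx hdU h2 o
    obtain ⟨g', hg', e'⟩ := k1 hx hy h2 m o'
    exact ⟨g' * g, mul_mem hg' hg, by rw [e', e]; group⟩
  have k3 : ∀ y, XP D d y → ∃ g ∈ U, y = g * d * g⁻¹ := fun y hy => by
    by_cases h : Od y x
    · exact k2 y hy.1 (h1 y hy) h.symm
    obtain ⟨g, hg, e⟩ := k2 _ hy.2.2.2 (h1 _ (hy.mul hR hd)) (hy.od_mul hR hd hx o h)
    obtain ⟨n, hn, f4, e'⟩ := exists_comm_eq hR hcl hy.1 (hy.symm hd) fun e =>
      h (show x ∈ Aset D y from e ▸ ⟨hx, o⟩).2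
    have := (f4.xp_left hR hn hy.1).symm hn
    rw [e'] at this
    refine ⟨n * g, mul_mem (h1 n this) hg, ?_⟩
    rw [show n * g * d * (n * g)⁻¹ = n * (g * d * g⁻¹) * n⁻¹ by group, ← e, ← e', hR.inv hn,
      show n * (n * y * n * y * y) * n = n * n * y * n * (y * y) * n by group, hR.sq n hn, hR.sq y hy.1, one_mul,
      mul_one, mul_assoc, hR.sq n hn, mul_one]
  have k4 : ∀ y, ER D d y → ∃ g ∈ U, y = g * d * g⁻¹ := fun y h => by
    induction h with
    | refl => exact ⟨1, one_mem _, by simp⟩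
    | @tail v w _ h ih =>
      obtain ⟨g, hg, rfl⟩ := ih
      have := (xp_of_adj h).conj hR (top_mem hD g⁻¹)
      rw [show g⁻¹ * (g * d * g⁻¹) * g⁻¹⁻¹ = d by group] at this
      obtain ⟨k, hk, e⟩ := k3 _ this
      exact ⟨g * k, mul_mem hg hk, by rw [show g * k * d * (g * k)⁻¹ = g * (k * d * k⁻¹) * g⁻¹ by group, ← e]; group⟩
  rw [eq_top_iff, ← hD.generates, Subgroup.closure_le]
  intro y hy
  obtain ⟨g, hg, rfl⟩ := k4 y (er_connected hS hR hcl ha hb h4 hd hy)
  exact mul_mem (mul_mem hg hdU) (inv_mem hg)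

theorem s5054 {G : Type u} [Group G] [Finite G] {D : Set G}
    (hS : SpecDisc.{u} D.ncard) (hD : IsNondegenerateRootInvolutionSet D) (hcl : IsRootInvolutionClass D) :
    (∀ d ∈ D, ∀ x ∈ oddPartners D d, Subgroup.closure (productPartners D d ∪ {x}) = ⊤) ∧
    IsConnectedSet (ProdAdj D) D := by
  obtain ⟨a, ha, b, hb, h4⟩ := hD.2.2.2
  exact ⟨fun d hd x hx => gen_top hS hD.1 (oneClass_of_class hcl) ha hb h4 hd hx.1 (mem_oddPartners.1 hx).2
    (fun y hy => Subgroup.subset_closure (Or.inl (mem_productPartners.2 hy))) (Subgroup.subset_closure (Or.inr rfl)),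
    fun p hp q hq => er_connected hS (RI.of_set hD.1) (oneClass_of_class hcl) ha hb h4 hp hq⟩

theorem s5053 {G : Type u} [Group G] [Finite G] {D : Set G}
    (hS : SpecDisc.{u} D.ncard) (hD : IsNondegenerateRootInvolutionSet D) (hcl : IsRootInvolutionClass D) {T : Set G}
    (hT : IsWeakTISubsetOfElements D T) : IsMulCommutative (Subgroup.closure T) := by
  obtain ⟨a, ha, b, hb, h4⟩ := hD.2.2.2
  have hR := RI.of_set hD.1
  have hcl' := oneClass_of_class hcl
  obtain ⟨hTD, ⟨t₀, ht₀, -⟩, hne, hti⟩ := hT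
  have k1 : ∀ t ∈ T, ∀ d ∈ D, Commute d t → d ∈ Subgroup.normalizer T := fun t ht d hd c => by
    have e := (hti d hd).resolve_right fun h => Set.disjoint_left.1 h ⟨t, ht, by
      show d * t * d⁻¹ = t
      rw [c.eq, mul_inv_cancel_right]⟩ ht
    intro n
    refine ⟨fun h => e ▸ ⟨n, h, rfl⟩, fun h => ?_⟩
    rw [← e] at h
    obtain ⟨m, hm, e'⟩ := h
    rwa [← mul_left_cancel (mul_right_cancel e')]
  have k2 : ∀ t ∈ T, ∀ t' ∈ T, ∀ n ∈ D, Commute n t' → ¬ Od t n := fun t ht t' ht' n hn c o => by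
    have := gen_top hS hD.1 hcl' ha hb h4 (hTD ht) hn o (fun y hy => k1 t ht y hy.1 hy.2.1.symm) (k1 t' ht' n hn c)
    refine hne (hTD.antisymm fun d hd => ?_)
    obtain ⟨g, rfl⟩ := hcl.2.2 t (hTD ht) d hd
    exact (this.ge (Subgroup.mem_top g) t).1 ht
  have k3 : ∀ t ∈ T, ∀ t' ∈ T, t * t' = t' * t := fun t ht t' ht' => by
    have m := hTD ht
    have m' := hTD ht'
    rcases hR.tri m m' with h | h | h
    · exact h
    · exact absurd h (k2 t ht t' ht' t' m' (Commute.refl _))
    have x1 := h.xp_left hR m m'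
    have x2 := h.xp_right hR m m'
    obtain ⟨n, hn, f4, e⟩ := exists_comm_eq hR hcl' x2.1 (x2.symm m') fun e =>
      h.not_comm hR m m' (show t ∈ commutingMembers D t' from
        C_eq_of_Aset_eq hR hcl' x2.1 m' e ▸ ⟨m, x1.2.1⟩).2
    have x3 := f4.xp_left hR hn x2.1
    rw [e] at x3
    refine absurd (od_of_three_cycle hR m hn x2.1 m' x2.2.2.1 x2.2.1.symm ?_ ?_ ?_ ?_).1 (k2 t ht t' ht' n hn x3.2.1)
    · rw [x1.2.1, mul_assoc, hR.sq t m, mul_one]
    · rw [mul_assoc _ t' t', hR.sq t' m', mul_one]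
    · rw [x3.2.1, mul_assoc, hR.sq n hn, mul_one]
    · rw [← x2.2.1]
      generalize t * t' * t * t' = z at *
      rw [← e, mul_assoc _ z z, hR.sq z x2.1, mul_one]
  exact Subgroup.isMulCommutative_closure k3

end CfsgH7.RI
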