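import Cfsg.Agent.H7.RI6

/-! Odd transpositions (helper7): perps of odd pairs, residues. -/

set_option autoImplicit false
set_option linter.unusedSectionVars false

namespace CfsgH7.RI
open Cfsg CfsgH9

universe u
variable {G : Type*} [Group G] {D : Set G} {a b c d e f g p q r s x y z : G}

theorem comp_subset : Comp D a ⊆ D := fun _ h => h.1

theorem Comp.symm_mem (hy : y ∈ Comp D a) (ha : a ∈ D) : a ∈ Comp D y := ⟨ha, hy.2.symm⟩

theorem Comp.trans_mem (hy : y ∈ Comp D a) (hz : z ∈ Comp D y) : z ∈ Comp D a := ⟨hz.1, hy.2.trans hz.2⟩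

theorem Comp.commute (hT : OT D) (hy : y ∈ Comp D a) (hz : z ∈ D) (hn : z ∉ Comp D a) : Commute z y :=
  hT.cm hz hy.1 fun o => hn (Comp.of_od hy hz o.symm)

theorem comp_sub {T : Set G} (h : Comp D a ⊆ T) (hy : y ∈ Comp D a) : y ∈ Comp T a := by
  refine ⟨h hy, ?_⟩
  have := hy.2
  clear hy
  induction this with
  | refl => exact Relation.ReflTransGen.refl
  | tail h1 h2 ih => exact ih.tail ⟨h ⟨h2.1, h1⟩, h ⟨h2.2.1, h1.tail h2⟩, h2.2.2⟩

theorem not_mem_comp_cn (hD : RI D) (ha : a ∈ D) (hy : y ∈ Cn D g) (o : Od a y) : g ∉ Comp (Cn D g) a := fun h => by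
  by_cases e : a = g
  · exact nc hD ha hy.1 o (e ▸ hy.2.symm)
  · obtain ⟨z, hz, o'⟩ := OR.exists_od h.2.symm e
    exact nc hD h.1.1 hz.1 o' hz.2.symm

theorem ncard_comp_lt [Finite G] (hD : RI D) (hg : g ∈ D) (ha : a ∈ D) (hy : y ∈ Cn D g) (o : Od a y) :
    (Comp (Cn D g) a).ncard < D.ncard :=
  Set.ncard_lt_ncard ⟨fun _ h => h.1.1, fun h => not_mem_comp_cn hD ha hy o (h hg)⟩

/-- a class of odd transpositions with a four-group -/
structure Cl (D : Set G) : Prop extends OT D where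
  cl : OneClass D
  xp : ∀ d ∈ D, ∃ d', XP D d d'

theorem Red.toCl (h : Red D) : Cl D := ⟨h.toOT, h.cl, h.xp⟩

theorem Cl.comp [Finite G] (hC : Cl D) {T : Set G} (hT : OT T) (hTD : T ⊆ D) (ha : a ∈ T) (hy : y ∈ T) (o : Od a y)
    (hE : ∀ b ∈ D, Eqv D a b → b ∈ T) : Cl (Comp T a) := by
  obtain ⟨b, hb⟩ := hC.xp a (hTD ha)
  have k : ∀ b ∈ D, Eqv D a b → b ∈ Comp T a := fun b hb q =>
    Comp.of_od (Comp.of_od (Comp.self ha) hy o) (hE b hb q) (q.od hC.toOT (hTD ha) hb (hTD hy) o.symm)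
  have hb' : XP (Comp T a) a b := ⟨k b hb.1 (XP.eqv hC.toOT hC.cl (hTD ha) hb), hb.2.1, hb.2.2.1,
    k _ hb.2.2.2 (XP.eqv hC.toOT hC.cl (hTD ha) (hb.mul hC.toRI (hTD ha)))⟩
  exact ⟨hT.comp a, hT.comp_oneClass ha, fun d hd =>
    exists_xp (hT.comp a).toRI (hT.comp_oneClass ha) (Comp.self ha) hb' hd⟩

theorem Cl.res [Finite G] (hC : Cl D) (hg : g ∈ D) (ha : a ∈ Cn D g) (hy : y ∈ Cn D g) (o : Od a y) :
    Cl (Comp (Cn D g) a) :=
  hC.comp (hC.toOT.cn g) (fun _ h => h.1) ha hy o fun _ hb q => ⟨hb, ((q g hg).1 ha.2.symm).symm⟩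

theorem Cl.tri [Finite G] (hC : Cl D) (hc : IsConnectedSet (CommAdj D) D) (ha : a ∈ D) (hb : b ∈ D) (he : e ∈ D)
    (cab : Commute a b) (hn : ¬ Eqv D a b) (oa : Od e a) (ob : Od e b) :
    ∃ g ∈ D, Commute g a ∧ Commute g b ∧ Commute g e := by
  obtain ⟨c, hc', c1, c2⟩ := exists_common hC.toOT hC.cl hC.xp he (hc e he b hb)
  exact tri_lemma hC.toOT hC.cl (hC.xp b hb) ha hb he hc' cab hn (nc hC.toRI he ha oa) (nc hC.toRI he hb ob) c1 c2

theorem closure_le_cent {T : Set G} (h : ∀ t ∈ T, Commute t g) (hx : x ∈ Subgroup.closure T) : Commute x g :=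
  Subgroup.mem_centralizer_singleton_iff.1
    ((Subgroup.closure_le _).2 (fun t ht => Subgroup.mem_centralizer_singleton_iff.2 (h t ht)) hx)

theorem exists_od2 [Finite G] (hT : OT D) (hcl : OneClass D) (hc : c ∈ D) (hd : d ∈ D) (ccd : Commute c d)
    (hn : ¬ Eqv D c d) : ∃ e ∈ D, Od e c ∧ Od e d := by
  by_contra hno
  push Not at hno
  obtain ⟨y, hy, cy, oy⟩ := exists_sep hT hcl hd hc fun q => hn q.symm
  have key : ∀ z, OR D c z → z ∈ Comp (Cn D d) c := fun z h => by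
    induction h with
    | refl => exact Comp.self ⟨hc, ccd⟩
    | @tail v w _ h ih =>
      obtain ⟨hv, hw, o⟩ := oddAdj_iff.1 h
      refine Comp.of_od ih ⟨hw, hT.cm hw hd fun o' => ?_⟩ o
      obtain ⟨k, hk, e⟩ := (hT.cn d).comp_oneClass ⟨hc, ccd⟩ v ih c (Comp.self ⟨hc, ccd⟩)
      have ck := closure_le_cent (fun t ht => ht.1.2) hk
      refine hno _ (hT.conj_closure (Subgroup.closure_mono (fun _ h => h.1.1) hk) hw) (e ▸ o.symm.conj k) ?_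
      have := o'.conj k
      rwa [ck.eq, mul_inv_cancel_right] at this
  exact not_mem_comp_cn hT.toRI hc ⟨hy, cy⟩ oy.symm (key d (hcl.connected hT.toRI hy hc oy c hc d hd))

section
variable {G : Type u} [Group G] [Finite G] {D : Set G} {a b c d e f g p q r s x y z : G}

theorem Cl.disc (hC : Cl D) (hS : SpecDisc.{u} D.ncard) (hc : ¬ IsConnectedSet (CommAdj D) D) (ha : a ∈ D) (hb : b ∈ D) (hz : z ∈ D)
    (h1 : Commute a b) (h2 : Commute z a) : Commute z b := by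
  unfold IsConnectedSet at hc
  push Not at hc
  obtain ⟨p, hp, q, hq, h⟩ := hc
  obtain ⟨a', ha'⟩ := hC.xp a ha
  exact disc_comm hS hC.toRI ha ha' hp hq h z hz b hb ((cr_of_commute hz ha h2).trans (cr_of_commute ha hb h1))

theorem lemN {n : ℕ} : ∀ {D : Set G}, SpecDisc.{u} D.ncard → D.ncard = n → Cl D → IsConnectedSet (CommAdj D) D → ∀ {p r p' : G}, p ∈ D →
    r ∈ D → p' ∈ D → Od p r → Commute p' p → (∀ y ∈ D, Commute y p → Commute y r → Commute y p') → Eqv D p p' := by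
  induction n using Nat.strong_induction_on with
  | _ n ih =>
  intro D hS hn hC hc p r p' hp hr hp' o c H
  have hT := hC.toOT
  by_contra hq
  obtain ⟨f, hf, cf, of⟩ := exists_sep hT hC.cl hp hp' hq
  have ofr : Od f r := hT.od hf hr fun h => nc hT.toRI hf hp' of (H f hf cf h)
  obtain ⟨g, hg, g1, g2, g3⟩ := hC.tri hc hf hp hr cf (fun q => nc hT.toRI hf hp' of ((q p' hp').2 c).symm)
    ofr.symm o.symm
  have m1 : p ∈ Cn D g := ⟨hp, g2.symm⟩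
  have m2 : r ∈ Cn D g := ⟨hr, g3.symm⟩
  have hC' := hC.res hg m1 m2 o
  have n1 := Comp.self m1
  have n2 := Comp.of_od n1 m2 o
  have n3 := Comp.of_od n2 ⟨hf, g1.symm⟩ ofr.symm
  have n4 := Comp.of_od n3 ⟨hp', (H g hg g2 g3).symm⟩ of
  refine nc hT.toRI hf hp' of ?_
  by_cases h : IsConnectedSet (CommAdj (Comp (Cn D g) p)) (Comp (Cn D g) p)
  · exact (ih _ (hn ▸ ncard_comp_lt hT.toRI hg hp m2 o) (hS.sub fun _ h => h.1.1) rfl hC' h n1 n2 n4 o c (fun y hy => H y hy.1.1) f n3).1 cf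
  · exact hC'.disc (hS.sub fun _ h => h.1.1) h n1 n4 n3 c.symm cf

theorem Cl.sepN (hC : Cl D) (hS : SpecDisc.{u} D.ncard) (hc : IsConnectedSet (CommAdj D) D) {p' : G} (hp : p ∈ D) (hr : r ∈ D) (hp' : p' ∈ D)
    (o : Od p r) (c : Commute p' p) (hn : ¬ Eqv D p p') : ∃ y ∈ D, Commute y p ∧ Commute y r ∧ Od y p' := by
  by_contra h
  push Not at h
  exact hn (lemN hS rfl hC hc hp hr hp' o c fun y hy h1 h2 => hC.toOT.cm hy hp' (h y hy h1 h2))

end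

theorem comp_conj (hD : RI D) (hg : g ∈ Subgroup.closure D) (hy : y ∈ Comp (Cn D p) a) :
    g * y * g⁻¹ ∈ Comp (Cn D (g * p * g⁻¹)) (g * a * g⁻¹) := by
  have k : ∀ y ∈ Cn D p, g * y * g⁻¹ ∈ Cn D (g * p * g⁻¹) := fun y hy =>
    ⟨hD.conj_closure hg hy.1, (commute_conj_iff g).2 hy.2⟩
  refine ⟨k y hy.1, ?_⟩
  have := hy.2
  clear hy
  induction this with
  | refl => exact Relation.ReflTransGen.refl
  | tail _ h ih => exact ih.tail ⟨k _ h.1, k _ h.2.1, Od.conj h.2.2 g⟩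

theorem ncard_comp_conj [Finite G] (hD : RI D) (hg : g ∈ Subgroup.closure D) :
    (Comp (Cn D p) a).ncard ≤ (Comp (Cn D (g * p * g⁻¹)) (g * a * g⁻¹)).ncard :=
  Set.ncard_le_ncard_of_injOn (fun y => g * y * g⁻¹) (fun _ hy => comp_conj hD hg hy)
    fun _ _ _ _ e => mul_left_cancel (mul_right_cancel e)

theorem comp_mono {T : Set G} (h : T ⊆ D) (hy : y ∈ Comp T a) : y ∈ Comp D a :=
  comp_sub (fun _ ht => h ht.1) hy

/-- a residue component of maximal size -/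
structure Mx (D : Set G) (p a : G) : Prop where
  hp : p ∈ D
  ha : a ∈ Cn D p
  od : ∃ a' ∈ Cn D p, Od a a'
  mx : ∀ p' ∈ D, ∀ b ∈ Cn D p', ∀ b' ∈ Cn D p', Od b b' → (Comp (Cn D p') b).ncard ≤ (Comp (Cn D p) a).ncard

theorem Mx.split [Finite G] (hT : OT D) (h : Mx D p a) (hz : z ∈ D) (hc : ∀ y ∈ Comp (Cn D p) a, Commute y z)
    {w : G} (hw : w ∈ Cn D z) (hn : w ∉ Comp (Cn D p) a) : ∀ y ∈ Comp (Cn D p) a, Commute y w := fun y hy => by
  have s1 : Comp (Cn D p) a ⊆ Comp (Cn D z) a := fun t ht => comp_sub (fun t ht => ⟨ht.1.1, hc t ht⟩) ht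
  obtain ⟨a', ha', o⟩ := h.od
  have e := Set.eq_of_subset_of_ncard_le s1 (h.mx z hz a (s1 (Comp.self h.ha)).1 a'
    (s1 (Comp.of_od (Comp.self h.ha) ha' o)).1 o)
  exact (Comp.commute (hT.cn z) (s1 hy) hw (e ▸ hn)).symm

theorem Mx.od_of [Finite G] (hT : OT D) (h : Mx D p a) (he : e ∈ D) (o1 : Od e p) (hb : b ∈ Comp (Cn D p) a)
    (o2 : Od e b) (hz : z ∈ D) (hc : ∀ y ∈ Comp (Cn D p) a, Commute y z) : Od e z :=
  hT.od he hz fun c => nc hT.toRI he hb.1.1 o2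
    (h.split hT hz hc ⟨he, c⟩ (fun m => nc hT.toRI he h.hp o1 m.1.2) b hb).symm

theorem Mx.mem_of [Finite G] (hT : OT D) (h : Mx D p a) (he : e ∈ D) (o1 : Od e p) (hb : b ∈ Comp (Cn D p) a)
    (o2 : Od e b) (hg : g ∈ Cn D p) (c : Commute g e) : g ∈ Comp (Cn D p) a := by_contra fun hn =>
  nc hT.toRI he hg.1 (h.od_of hT he o1 hb o2 hg.1 fun y hy => (Comp.commute (hT.cn p) hy hg hn).symm) c.symm

theorem Mx.conj [Finite G] (hD : RI D) (h : Mx D p a) (hg : g ∈ Subgroup.closure D) :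
    Mx D (g * p * g⁻¹) (g * a * g⁻¹) :=
  ⟨hD.conj_closure hg h.hp, (comp_conj hD hg (Comp.self h.ha)).1,
    let ⟨_, h1, h2⟩ := h.od; ⟨_, (comp_conj hD hg (Comp.self h1)).1, h2.conj g⟩,
    fun p' h1 b h2 b' h3 o => (h.mx p' h1 b h2 b' h3 o).trans (ncard_comp_conj hD hg)⟩

theorem Comp.exists_od (hD : OT D) (ha : a ∈ D) (hb : b ∈ D) (o : Od a b) (hy : y ∈ Comp D a) :
    ∃ z ∈ Comp D a, Od y z :=
  (hD.comp_oneClass ha).exists_od (hD.comp a).toRI (Comp.self ha) (Comp.of_od (Comp.self ha) hb o) o hy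

theorem single_comp {G : Type u} [Group G] [Finite G] {n : ℕ} : ∀ {D : Set G}, SpecDisc.{u} D.ncard → D.ncard = n →
    Cl D → IsConnectedSet (CommAdj D) D → ∀ {p a a' q q' : G}, p ∈ D → a ∈ Cn D p → a' ∈ Cn D p → q ∈ Cn D p →
    q' ∈ Cn D p → Od a a' → Od q q' → q ∈ Comp (Cn D p) a := by
  induction n using Nat.strong_induction_on with
  | _ n ih =>
  intro D hS hn hC hc p₀ a₀ a₀' q₀ q₀' hp₀ ha₀ ha₀' hq₀ hq₀' oa₀ oq₀
  have hT := hC.toOT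
  have hD := hT.toRI
  by_contra h₀
  obtain ⟨⟨p, a⟩, ⟨hp, ha, h1⟩, hmax⟩ := Set.exists_max_image
    {x : G × G | x.1 ∈ D ∧ x.2 ∈ Cn D x.1 ∧ ∃ a' ∈ Cn D x.1, Od x.2 a'} (fun x => (Comp (Cn D x.1) x.2).ncard)
    (Set.toFinite _) ⟨(p₀, a₀), hp₀, ha₀, a₀', ha₀', oa₀⟩
  have M : Mx D p a := ⟨hp, ha, h1, fun p' h1 b h2 b' h3 o => hmax (p', b) ⟨h1, h2, b', h3, o⟩⟩
  clear hmax h1
  obtain ⟨q, hq, q', hq', oq, hn1⟩ : ∃ q ∈ Cn D p, ∃ q' ∈ Cn D p, Od q q' ∧ q ∉ Comp (Cn D p) a := by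
    obtain ⟨h, hh, rfl⟩ := hC.cl p₀ hp₀ p hp
    have k : ∀ y ∈ Cn D p₀, h * y * h⁻¹ ∈ Cn D (h * p₀ * h⁻¹) := fun y hy => (comp_conj hD hh (Comp.self hy)).1
    by_contra hno
    push Not at hno
    have := comp_conj hD (inv_mem hh) (Comp.trans_mem (Comp.symm_mem (hno _ (k _ ha₀) _ (k _ ha₀') (oa₀.conj h)) ha)
      (hno _ (k _ hq₀) _ (k _ hq₀') (oq₀.conj h)))
    simp only [mul_assoc, inv_mul_cancel_left, inv_inv, inv_mul_cancel, mul_one] at this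
    exact h₀ this
  have hn2 : q' ∉ Comp (Cn D p) a := fun h => hn1 (Comp.of_od h hq oq.symm)
  have cq := fun y hy => (Comp.commute (y := y) (hT.cn p) hy hq hn1).symm
  have cq' := fun y hy => (Comp.commute (y := y) (hT.cn p) hy hq' hn2).symm
  have cp : ∀ y ∈ Comp (Cn D p) a, Commute y p := fun y hy => hy.1.2
  have step : ∀ b ∈ Comp (Cn D p) a, ∃ e ∈ D, Od e b ∧ Od e p ∧ ∃ g ∈ Comp (Cn D p) a, Commute g b ∧ Commute g e :=
    fun b hb => by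
      obtain ⟨a', ha', o⟩ := M.od
      obtain ⟨b', hb', o'⟩ := Comp.exists_od (hT.cn p) ha ha' o hb
      have ne : ¬ Eqv D b p := fun q => nc hD hb.1.1 hb'.1.1 o' ((q b' hb'.1.1).2 hb'.1.2).symm
      obtain ⟨e, he, o1, o2⟩ := exists_od2 hT hC.cl hb.1.1 hp hb.1.2 ne
      obtain ⟨g, hg, g1, g2, g3⟩ := hC.tri hc hb.1.1 hp he hb.1.2 ne o1 o2
      exact ⟨e, he, o1, o2, g, M.mem_of hT he o2 hb o1 ⟨hg, g2⟩ g3, g1, g3⟩
  obtain ⟨e, he, o1, o2, a₁, ha₁, -, c1⟩ := step a (Comp.self ha)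
  have he' : e ∈ Cn D a₁ := ⟨he, c1.symm⟩
  have inR : ∀ z ∈ D, (∀ y ∈ Comp (Cn D p) a, Commute y z) → z ∈ Comp (Cn D a₁) e := fun z hz h =>
    Comp.of_od (Comp.self he') ⟨hz, (h a₁ ha₁).symm⟩ (M.od_of hT he o2 (Comp.self ha) o1 hz h)
  have pR := inR p hp cp
  have M' : Mx D a₁ e := by
    obtain ⟨h, hh, e1⟩ := hC.cl p hp a₁ ha₁.1.1
    have M1 := M.conj hD hh
    rw [← e1] at M1
    generalize h * a * h⁻¹ = a₂ at M1
    have : a₂ ∈ Comp (Cn D a₁) e := by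
      by_contra hn
      have s1 : Comp (Cn D a₁) a₂ ⊆ Comp (Cn D p) a := fun y hy => by
        have hy' : y ∉ Comp (Cn D a₁) e := fun h => hn (Comp.trans_mem h (Comp.symm_mem hy M1.ha))
        by_contra hn'
        exact hy' (inR y hy.1.1 (M.split hT hp cp ⟨hy.1.1, Comp.commute (hT.cn a₁) pR hy.1 hy'⟩ hn'))
      obtain ⟨a', ha', o⟩ := M.od
      obtain ⟨b, hb, o'⟩ := M1.od
      exact not_mem_comp_cn hD M1.ha.1 hb o'
        (Set.eq_of_subset_of_ncard_le s1 (M1.mx p hp a ha a' ha' o) ▸ ha₁)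
    exact ⟨ha₁.1.1, he', ⟨p, pR.1, o2⟩, fun p' h1 b h2 b' h3 o => (M1.mx p' h1 b h2 b' h3 o).trans
      (Set.ncard_le_ncard fun y hy => Comp.trans_mem this hy)⟩
  obtain ⟨e₂, he₂, o3, o4, g, hg, g1, g2⟩ := step a₁ ha₁
  have gR := M'.mem_of hT he₂ o3 pR o4 ⟨hg.1.1, g1⟩ g2
  have hC' := hC.res ha₁.1.1 he' pR.1 o2
  have qR := inR q hq.1 cq
  have qR' := inR q' hq'.1 cq'
  have hc' : IsConnectedSet (CommAdj (Comp (Cn D a₁) e)) (Comp (Cn D a₁) e) := by_contra fun h =>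
    nc hD hq.1 hq'.1 oq (hC'.disc (hS.sub fun _ h => h.1.1) h pR qR qR' hq.2.symm hq'.2).symm
  obtain ⟨y, hy, y1, -, oy⟩ := hC.sepN hS hc hq.1 hq'.1 hp oq hq.2.symm fun h =>
    nc hD hq.1 hq'.1 oq ((h q' hq'.1).2 hq'.2).symm
  have cy := M.split hT hq.1 cq ⟨hy, y1⟩ fun m => nc hD hy hp oy m.1.2
  refine nc hD hy hp oy (((eqv_of_sub hC'.toRI hC'.cl pR gR fun t ht c => hT.cm ht.1.1 hg.1.1 fun o => hn1 ?_) y
    (inR y hy cy)).2 (cy g hg).symm)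
  exact Comp.trans_mem hg (comp_mono (fun t ht => ⟨ht.1.1.1, ht.2⟩)
    (ih _ (hn ▸ ncard_comp_lt hD ha₁.1.1 he pR.1 o2) (hS.sub fun _ h => h.1.1) rfl hC' hc' pR ⟨gR, hg.1.2⟩ ⟨ht, c⟩ ⟨qR, hq.2⟩ ⟨qR', hq'.2⟩
      o.symm oq))

/-- rank two: lines are maximal cliques -/
def GQ (D : Set G) : Prop := ∀ p ∈ D, ∀ a ∈ D, ∀ b ∈ D, Commute a p → Commute b p → Commute a b → ¬ Eqv D a p →
  ¬ Eqv D b p → ∀ z ∈ D, Commute z p → Commute z a → Commute z b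

theorem gq_of {G : Type u} [Group G] [Finite G] {D : Set G} {c d x : G} (hS : SpecDisc.{u} D.ncard) (hC : Cl D)
    (hc : IsConnectedSet (CommAdj D) D) (hc' : c ∈ D) (hd : d ∈ Cn D c) (hx : x ∈ Cn D c) (o : Od d x)
    (h : ¬ IsConnectedSet (CommAdj (Comp (Cn D c) d)) (Comp (Cn D c) d)) : GQ D := by
  have hT := hC.toOT
  have key : ∀ a ∈ D, ∀ b ∈ D, Commute a c → Commute b c → Commute a b → ¬ Eqv D a c →
      ¬ Eqv D b c → ∀ z ∈ D, Commute z c → Commute z a → Commute z b := fun a ha b hb c1 c2 c3 n1 n2 z hz c4 c5 => by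
    have k : ∀ a ∈ D, Commute a c → ¬ Eqv D a c → a ∈ Comp (Cn D c) d := fun a ha c1 n1 => by
      obtain ⟨f, hf, cf, of⟩ := exists_sep hT hC.cl hc' ha fun q => n1 q.symm
      exact single_comp hS rfl hC hc hc' hd hx ⟨ha, c1⟩ ⟨hf, cf⟩ o of.symm
    by_cases n3 : Eqv D z c
    · exact ((n3 b hb).2 c2).symm
    · exact (hC.res hc' hd hx o).disc (hS.sub fun _ h => h.1.1) h (k a ha c1 n1) (k b hb c2 n2) (k z hz c4 n3) c3 c5
  intro p hp a ha b hb c1 c2 c3 n1 n2 z hz c4 c5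
  obtain ⟨k, hk, e⟩ := hC.cl p hp c hc'
  have q : ∀ a, Eqv D (k * a * k⁻¹) c → Eqv D a p := fun a q => by
    have := q.conj hT.toRI (inv_mem hk)
    rw [e] at this
    simpa only [mul_assoc, inv_mul_cancel_left, inv_inv, inv_mul_cancel, mul_one] using this
  have cj := fun {a b : G} (h : Commute a b) => (commute_conj_iff k).2 h
  exact (commute_conj_iff k).1 (key _ (hT.conj_closure hk ha) _ (hT.conj_closure hk hb) (e ▸ cj c1) (e ▸ cj c2)
    (cj c3) (fun h => n1 (q a h)) (fun h => n2 (q b h)) _ (hT.conj_closure hk hz) (e ▸ cj c4) (cj c5))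

end CfsgH7.RI
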