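import Cfsg.Agent.H7.RI7
import Cfsg.Agent.H2.PGroup
import Cfsg.Agent.H2.Coprime

/-! Odd transpositions (helper7): the rank two case. -/

set_option autoImplicit false
set_option linter.unusedSectionVars false

namespace CfsgH7.RI
open Cfsg CfsgH9 Subgroup
open scoped commutatorElement

universe u
variable {G : Type*} [Group G] {D : Set G} {a b c d e f g h n p q r s t w x y z : G}

theorem card_mul_le [Finite G] {H K U : Subgroup G} (h1 : H ≤ U) (h2 : K ≤ U) :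
    Nat.card H * Nat.card K ≤ Nat.card U * Nat.card (K ⊓ H : Subgroup G) := by
  have e1 : Nat.card (K ⊓ H : Subgroup G) * K.relIndex H = Nat.card H := by
    rw [← inf_relIndex_right, relIndex, ← Nat.card_congr (subgroupOfEquivOfLe inf_le_right).toEquiv,
      card_mul_index]
  have e2 : Nat.card K * K.relIndex U = Nat.card U := by
    rw [relIndex, ← Nat.card_congr (subgroupOfEquivOfLe h2).toEquiv, card_mul_index]
  have e3 : K.relIndex H ≤ K.relIndex U := relIndex_le_of_le_right h1 index_ne_zero_of_finite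
  calc _ = Nat.card (K ⊓ H : Subgroup G) * K.relIndex H * Nat.card K := by rw [e1]
    _ ≤ Nat.card (K ⊓ H : Subgroup G) * K.relIndex U * Nat.card K := by gcongr
    _ = _ := by rw [← e2]; ring

theorem avg_lemma {B : Type*} [CommGroup B] (σ : B →* B) {n : ℕ} (hn : Odd n) {S : Set B}
    (h1 : ∀ a ∈ S, σ^[n] a = a) {d d' g t : B} (h2 : ∀ a ∈ S, ∃ i, σ^[i] d = a) (hd : d ∈ S) (hd' : d' ∈ S)
    (hdd : d * d' ∈ S) (hg : g ∈ S) (ht : t ∈ S) (hz : σ (g * d * t) = g * d * t)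
    (h2z : g * d * t * (g * d * t) = 1) : g * d * t = 1 := by
  let τ : B → B := fun y => ∏ i ∈ Finset.range n, σ^[i] y
  have m : ∀ x y, τ (x * y) = τ x * τ y := fun x y => by
    simp only [τ, iterate_map_mul, Finset.prod_mul_distrib]
  have k : ∀ i, τ (σ^[i] d) = τ d := fun i => by
    induction i with
    | zero => rfl
    | succ i ih =>
      rw [← ih]
      have := (Finset.prod_range_succ' (fun j => σ^[j] (σ^[i] d)) n).symm.trans (Finset.prod_range_succ _ n)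
      rw [← Function.iterate_add_apply σ n, add_comm n, Function.iterate_add_apply σ i, h1 d hd] at this
      simp only [Function.iterate_zero_apply] at this
      refine Eq.trans (Finset.prod_congr rfl fun j _ => ?_) (mul_right_cancel this)
      rw [← Function.iterate_add_apply, ← Function.iterate_add_apply, add_assoc, add_comm 1]
  have k' : ∀ a ∈ S, τ a = τ d := fun a ha => by obtain ⟨i, rfl⟩ := h2 a ha; exact k i
  have k1 : τ d = 1 := by
    have := m d d'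
    rw [k' _ hdd, k' _ hd'] at this
    exact left_eq_mul.1 this
  have k2 : τ (g * d * t) = 1 := by rw [m, m, k' g hg, k' t ht, k1, one_mul, one_mul]
  obtain ⟨j, rfl⟩ := hn
  simp only [τ, Function.iterate_fixed hz, Finset.prod_const, Finset.card_range] at k2
  rwa [pow_succ, pow_mul, pow_two, h2z, one_pow, one_mul] at k2

/-- the subgroup generated by the line through `c` and `a` -/
def AL (D : Set G) (c a : G) : Subgroup G := closure {z | z ∈ D ∧ Commute z c ∧ Commute z a}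

theorem mem_AL (hz : z ∈ D) (h1 : Commute z c) (h2 : Commute z a) : z ∈ AL D c a := subset_closure ⟨hz, h1, h2⟩

theorem EE_le_AL (ha : a ∈ D) (hc : c ∈ D) (h : Commute a c) : EE D c ≤ AL D c a :=
  closure_mono fun _ hz => ⟨hz.1, (hz.2.commute hc).symm, ((hz.2 a ha).1 h).symm⟩

theorem GQ.clique (hQ : GQ D) (hc : c ∈ D) (ha : a ∈ D) (h : Commute a c) (hn : ¬ Eqv D a c) {z' : G}
    (hz : z ∈ D) (h1 : Commute z c) (h2 : Commute z a) (hz' : z' ∈ D) (h3 : Commute z' c) (h4 : Commute z' a) :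
    Commute z' z := by
  by_cases q : Eqv D z c
  · exact (q z' hz').2 h3
  · exact hQ c hc a ha z hz h h1 h2.symm hn q z' hz' h3 h4

theorem GQ.al_comm (hQ : GQ D) (hc : c ∈ D) (ha : a ∈ D) (h : Commute a c) (hn : ¬ Eqv D a c) {n' : G}
    (h1 : n ∈ AL D c a) (h2 : n' ∈ AL D c a) : Commute n n' :=
  closure_le_cent (fun t ht => (closure_le_cent (fun _ hs => hQ.clique hc ha h hn ht.1 ht.2.1 ht.2.2 hs.1 hs.2.1
    hs.2.2) h2).symm) h1

theorem GQ.al_sq (hQ : GQ D) (hD : RI D) (hc : c ∈ D) (ha : a ∈ D) (h : Commute a c) (hn : ¬ Eqv D a c)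
    (h1 : n ∈ AL D c a) : n * n = 1 := by
  induction h1 using closure_induction with
  | one => simp
  | mem x hx => exact hD.sq x hx.1
  | mul x y hx hy ihx ihy =>
    rw [mul_assoc, ← mul_assoc y, ← (hQ.al_comm hc ha h hn hx hy).eq, mul_assoc, ihy, mul_one, ihx]
  | inv x _ ih => rw [← mul_inv_rev, ih, inv_one]

theorem AL_conj (hD : IsRootInvolutionSet D) (hh : Commute h c) (h1 : n ∈ AL D c a) :
    h * n * h⁻¹ ∈ AL D c (h * a * h⁻¹) := by
  induction h1 using closure_induction with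
  | one => simp
  | mem x hx => exact mem_AL (hD.conj_mem x hx.1 h) ((commute_conj_left hh).2 hx.2.1) ((commute_conj_iff h).2 hx.2.2)
  | mul x y _ _ ihx ihy => convert mul_mem ihx ihy using 1; group
  | inv x _ ih => convert inv_mem ih using 1; group

theorem AL_le (h : ∀ z ∈ D, Commute z c → Commute z a → Commute z b) : AL D c a ≤ AL D c b :=
  closure_mono fun z hz => ⟨hz.1, hz.2.1, h z hz.1 hz.2.1 hz.2.2⟩

theorem eqv_cn_conj (hD : IsRootInvolutionSet D) (hh : Commute h c) (q : Eqv (Cn D c) a b) :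
    Eqv (Cn D c) (h * a * h⁻¹) (h * b * h⁻¹) := fun y hy => by
  have e : y = h * (h⁻¹ * y * h⁻¹⁻¹) * h⁻¹ := by group
  rw [e, commute_conj_iff, commute_conj_iff]
  exact q _ ⟨hD.conj_mem y hy.1 _, (commute_conj_left hh.inv_left).2 hy.2⟩

/-- the elements fixing all lines through `c` -/
def Phi (hD : IsRootInvolutionSet D) (c : G) : Subgroup G where
  carrier := {w | Commute w c ∧ ∀ z ∈ Cn D c, Eqv (Cn D c) z (w * z * w⁻¹)}
  one_mem' := ⟨Commute.one_left c, fun z _ => by simpa using Eqv.refl _ z⟩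
  mul_mem' := fun {v w} hv hw => ⟨hv.1.mul_left hw.1, fun z hz => by
    have := (hw.2 z hz).trans (hv.2 _ ⟨hD.conj_mem z hz.1 w, (commute_conj_left hw.1).2 hz.2⟩)
    convert this using 1; group⟩
  inv_mem' := fun {w} hw => ⟨hw.1.inv_left, fun z hz => by
    have := (hw.2 _ ⟨hD.conj_mem z hz.1 w⁻¹, (commute_conj_left hw.1.inv_left).2 hz.2⟩).symm
    convert this using 1; group⟩

theorem Phi_conj (hD : IsRootInvolutionSet D) (hh : Commute h c) (hw : w ∈ Phi hD c) : h * w * h⁻¹ ∈ Phi hD c :=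
  ⟨(hh.mul_left hw.1).mul_left hh.inv_left, fun z hz => by
    have := eqv_cn_conj hD hh (hw.2 _ ⟨hD.conj_mem z hz.1 h⁻¹, (commute_conj_left hh.inv_left).2 hz.2⟩)
    convert this using 1 <;> group⟩

theorem EE_le_Phi (hD : IsRootInvolutionSet D) (hc : c ∈ D) : EE D c ≤ Phi hD c := fun w hw =>
  ⟨(EE.commute hw hc (Commute.refl c)).symm, fun z hz => by
    rw [← (EE.commute hw hz.1 hz.2).eq, mul_inv_cancel_right]; exact Eqv.refl _ z⟩

theorem Phi_AL (hD : IsRootInvolutionSet D) (ha : a ∈ Cn D c) (hw : w ∈ Phi hD c) (h1 : n ∈ AL D c a) :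
    w * n * w⁻¹ ∈ AL D c a :=
  AL_le (fun z hz c1 c2 => ((hw.2 a ha) z ⟨hz, c1⟩).2 c2) (AL_conj hD hw.1 h1)

theorem Phi_comm (hD : IsRootInvolutionSet D) (ht : t ∈ Cn D c) (hw : w ∈ Phi hD c) : Commute (w * t * w⁻¹) t :=
  ((hw.2 t ht).commute ht).symm

theorem Phi_br (hD : IsRootInvolutionSet D) (ht : t ∈ Cn D c) (hw : w ∈ Phi hD c) :
    w * t * w⁻¹ * t ∈ AL D c t ⊓ Phi hD c :=
  ⟨mul_mem (mem_AL (hD.conj_mem t ht.1 w) ((commute_conj_left hw.1).2 ht.2) (Phi_comm hD ht hw))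
    (mem_AL ht.1 ht.2 (Commute.refl t)), by
      have := mul_mem hw (Phi_conj hD ht.2 (inv_mem hw))
      rwa [(RI.of_set hD).inv ht.1, ← mul_assoc, ← mul_assoc] at this⟩

theorem not_mem_Phi (hD : IsRootInvolutionSet D) (hn : n ∈ D) (hx : x ∈ Cn D c) (o : Od x n) : n ∉ Phi hD c :=
  fun h => by
    have hR := RI.of_set hD
    have := Phi_comm hD hx h
    rw [hR.inv hn] at this
    exact nc hR hx.1 (hR.conj n hn x hx.1) (o.conj_self hR hx.1 hn) this.symm

theorem GQ.nt (hQ : GQ D) (hD : RI D) (hd : d ∈ D) (hx : x ∈ D) (o : Od d x) {u v : G} (hu : u ∈ D) (hv : v ∈ D)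
    (h1 : Commute d u) (h2 : Commute x u) (h3 : Commute d v) (h4 : Commute x v) (h5 : Commute v u) : Eqv D v u :=
  by_contra fun hn => nc hD hd hx o (hQ u hu v hv d hd h5 h1 h3.symm hn
    (fun q => nc hD hd hx o ((q x hx).2 h2).symm) x hx h2 h4).symm

theorem zarg [Finite G] (hD : IsRootInvolutionSet D) (hR : Red D) (hQ : GQ D) (hc : c ∈ D) (hd : d ∈ Cn D c)
    (hx : x ∈ Cn D c) (o : Od d x) (hy : y ∈ D) (y1 : Commute d y) (y2 : Commute x y) (y3 : Od y c)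
    (hgen : ∀ z, ∀ y ∈ D, Commute d y → Commute x y → Od y c → (∀ e ∈ D, Commute e c → Commute e d → Commute e z) →
      Commute x z → Commute y z → z * z = 1 → z = 1)
    (h1 : n ∈ AL D c d) (h2 : Commute x n) : n ∈ EE D c := by
  have hT := hR.toOT
  have hR' := hT.toRI
  have nd : ¬ Eqv D d c := fun q => nc hR' hd.1 hx.1 o ((q x hx.1).2 hx.2).symm
  have n2 := hQ.al_sq hR' hc hd.1 hd.2 nd h1
  have ni := inv_eq_of_mul_eq_one_right n2
  have nD : ∀ d ∈ D, n * d * n ∈ D := fun d hd => by simpa only [ni] using hD.conj_mem d hd n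
  have cl : ∀ e ∈ D, Commute e c → Commute e d → Commute e n := fun e he c1 c2 =>
    hQ.al_comm hc hd.1 hd.2 nd (mem_AL he c1 c2) h1
  have cd := cl d hd.1 hd.2 (Commute.refl d)
  rcases hT.tri' hy (nD y hy) with h | h
  · by_cases e : y = n * y * n
    · refine hgen n y hy y1 y2 y3 cl h2 ?_ n2 ▸ one_mem _
      show y * n = n * y
      conv_lhs => rw [e]
      rw [mul_assoc, n2, mul_one]
    have q := hQ.nt hR' hd.1 hx.1 o (nD y hy) hy ((cd.mul_right y1).mul_right cd) ((h2.mul_right y2).mul_right h2)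
      y1 y2 h
    have q' := hR.mul_eqv hy (nD y hy) q e
    have m := hR.p2 y hy _ (nD y hy) q e
    refine hgen n _ m ((q' d hd.1).1 y1) ((q' x hx.1).1 y2) (q'.od hT hy m hc y3.symm).symm cl h2 ?_ n2 ▸ one_mem _
    show y * (n * y * n) * n = n * (y * (n * y * n))
    calc _ = y * n * y * (n * n) := by group
      _ = n * n * y * n * y := by rw [n2]; group
      _ = _ := by rw [h.eq]; group
  obtain ⟨v, hv, -, -, c1, c2, c3⟩ := mid_of_invol hR' n2 nD hy h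
  rcases hT.tri' hv hc with h' | h'
  · have q := hQ.nt hR' hd.1 hx.1 o hc hv hd.2 hx.2 (c3 d y1 cd) (c3 x y2 h2) h'
    have := hgen (n * v) y hy y1 y2 y3 (fun e he c4 c5 => (cl e he c4 c5).mul_right ((q e he).2 c4))
      (h2.mul_right (c3 x y2 h2)) c2.symm
      (by rw [mul_assoc, ← mul_assoc v, c1.eq, mul_assoc, hR'.sq v hv, mul_one, n2])
    rw [eq_inv_of_mul_eq_one_left this]
    exact inv_mem (mem_EE hv q.symm)
  · exact hgen n v hv (c3 d y1 cd) (c3 x y2 h2) h' cl h2 c1 n2 ▸ one_mem _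

theorem Red.mem_EE [Finite G] (hR : Red D) (hd : d ∈ D) : z ∈ EE D d ↔ z = 1 ∨ (z ∈ D ∧ Eqv D d z) := by
  refine ⟨fun h => ?_, fun h => h.elim (fun e => e ▸ one_mem _) fun h => RI.mem_EE h.1 h.2⟩
  induction h using closure_induction with
  | one => exact Or.inl rfl
  | mem x hx => exact Or.inr hx
  | mul x y _ _ ihx ihy =>
    rcases ihx with rfl | hx
    · rwa [one_mul]
    rcases ihy with rfl | hy
    · rw [mul_one]; exact Or.inr hx
    by_cases e : x = y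
    · left; rw [e, hR.sq y hy.1]
    · exact Or.inr ⟨hR.p2 x hx.1 y hy.1 (hx.2.symm.trans hy.2) e,
        hx.2.trans (hR.mul_eqv hx.1 hy.1 (hx.2.symm.trans hy.2) e)⟩
  | inv x _ ih =>
    rcases ih with rfl | hx
    · simp
    · rw [hR.inv hx.1]; exact Or.inr hx

theorem module_arg [Finite G] (hD : IsRootInvolutionSet D) (hR : Red D) (hQ : GQ D) (hc : c ∈ D) (hd : d ∈ Cn D c)
    (hx : x ∈ Cn D c) (o : Od d x) (hZ : ∀ n ∈ AL D c d, Commute x n → n ∈ EE D c)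
    {Y Q : Subgroup G} (hY : Y = closure ({e | e ∈ D ∧ Eqv D d e} ∪ {x})) (hQY : Q ≤ Y) (h2 : IsPGroup 2 Q)
    (hQd : ∀ y ∈ Q, Commute y d)
    (h1 : ∀ h ∈ Y, Od d (h * d * h⁻¹) → ∃ y ∈ Q, Commute (y * (h * d * h⁻¹) * y⁻¹) x)
    (h3 : ∀ h ∈ Y, Commute (h * d * h⁻¹) d ∨ ∃ k ∈ Y, ∃ y ∈ Q, h = k * d * k⁻¹ * y)
    {T : Set G} (hT : T ⊆ Y) (hT1 : ∀ h ∈ T, ∀ k ∈ T, h ≠ k → Od (h * d * h⁻¹) (k * d * k⁻¹))
    (hT2 : Nat.card (EE D c) ^ 2 ≤ T.ncard) : AL D c d ⊓ Phi hD c ≤ EE D c := by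
  haveI : Fact (Nat.Prime 2) := ⟨Nat.prime_two⟩
  have hT' := hR.toOT
  have hR' := hT'.toRI
  by_contra hF
  have Ed : ∀ e ∈ D, Eqv D d e → e ∈ Cn D c := fun e he q => ⟨he, ((q c hc).1 hd.2.symm).symm⟩
  have Yc : ∀ h ∈ Y, ∀ z ∈ EE D c, Commute h z := fun h hh z hz => closure_le_cent (by
    rintro t (ht | rfl)
    exacts [EE.commute hz ht.1 (Ed t ht.1 ht.2).2, EE.commute hz hx.1 hx.2]) (hY ▸ hh)
  have Yc' : ∀ h ∈ Y, Commute h c := fun h hh => Yc h hh c (mem_EE hc (Eqv.refl _ _))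
  have EY : ∀ e ∈ D, Eqv D d e → e ∈ Y := fun e he q => hY ▸ subset_closure (Or.inl ⟨he, q⟩)
  have xY : x ∈ Y := hY ▸ subset_closure (Or.inr rfl)
  have dY := EY d hd.1 (Eqv.refl _ _)
  have cj : ∀ h ∈ Y, ∀ {a}, a ∈ Cn D c → h * a * h⁻¹ ∈ Cn D c := fun h hh a ha =>
    ⟨hD.conj_mem a ha.1 h, (commute_conj_left (Yc' h hh)).2 ha.2⟩
  have ne : ∀ {a b}, a ∈ D → b ∈ Cn D c → Od a b → ¬ Eqv D a c := fun ha hb o q =>
    nc hR' ha hb.1 o ((q _ hb.1).2 hb.2).symm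
  have nd := ne hd.1 hx o
  have nx := ne hx.1 hd o.symm
  obtain ⟨s, hs, s1, s2, -, -, hsY⟩ := exists_mid hR' hd.1 hx.1 o
  replace hsY : s ∈ Y := (closure_le _).2 (by rintro _ (rfl | rfl) <;> assumption) hsY
  rw [← hR'.inv hs] at s1 s2
  nth_rw 1 [hR'.inv hs] at s1 s2
  have M5 : ∀ h ∈ Y, ∀ k ∈ Y, Od (h * d * h⁻¹) (k * d * k⁻¹) → ∀ n ∈ AL D c (h * d * h⁻¹),
      n ∈ AL D c (k * d * k⁻¹) → n ∈ EE D c := fun h hh k hk o' n m1 m2 => by
    have hk' := mul_mem (inv_mem hh) hk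
    have o2 : Od d (h⁻¹ * k * d * (h⁻¹ * k)⁻¹) := by convert o'.conj h⁻¹ using 1 <;> group
    obtain ⟨y, hy, c1⟩ := h1 _ hk' o2
    have hy' := mul_mem (hQY hy) (inv_mem hh)
    have m3 := AL_conj hD (Yc' _ hy') m1
    have m4 := AL_conj hD (Yc' _ hy') m2
    rw [show y * h⁻¹ * (h * d * h⁻¹) * (y * h⁻¹)⁻¹ = y * d * y⁻¹ by group, (hQd y hy).eq, mul_inv_cancel_right] at m3
    rw [show y * h⁻¹ * (k * d * k⁻¹) * (y * h⁻¹)⁻¹ = y * (h⁻¹ * k * d * (h⁻¹ * k)⁻¹) * y⁻¹ by group] at m4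
    have m5 := cj y (hQY hy) (cj _ hk' hd)
    have m6 := hZ _ m3 (hQ.al_comm hc m5.1 m5.2 (ne m5.1 (cj y (hQY hy) hd) (o2.conj y).symm)
      (mem_AL hx.1 hx.2 c1.symm) m4)
    have := (Yc _ hy' _ m6).eq
    rw [show y * h⁻¹ * n * (y * h⁻¹)⁻¹ * (y * h⁻¹) = y * h⁻¹ * n by group] at this
    rwa [mul_left_cancel this] at m6
  have ALe : ∀ e ∈ D, Eqv D d e → AL D c e ≤ AL D c d := fun e he q => AL_le fun z hz _ h => (q z hz).2 h
  have ALd : ∀ {a}, a ∈ Cn D c → ¬ Eqv D a c → Commute a d → AL D c a ≤ AL D c d := fun ha n1 c1 =>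
    AL_le (hQ c hc _ ha.1 d hd.1 ha.2 hd.2 c1 n1 nd)
  have ZN : ∀ {a}, a ∈ Cn D c → EE D c ≤ AL D c a ⊓ Phi hD c := fun ha =>
    le_inf (EE_le_AL ha.1 hc ha.2) (EE_le_Phi hD hc)
  have Nc : ∀ h ∈ Y, ∀ {a n}, n ∈ AL D c a ⊓ Phi hD c → h * n * h⁻¹ ∈ AL D c (h * a * h⁻¹) ⊓ Phi hD c :=
    fun h hh a n hn => ⟨AL_conj hD (Yc' h hh) hn.1, Phi_conj hD (Yc' h hh) hn.2⟩
  have QN : Q ≤ normalizer ((AL D c d ⊓ Phi hD c : Subgroup G) : Set G) := fun y hy =>
    mem_normalizer_fintype fun n hn => by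
      have := Nc y (hQY hy) hn
      rwa [(hQd y hy).eq, mul_inv_cancel_right] at this
  have N2 : IsPGroup 2 (AL D c d ⊓ Phi hD c : Subgroup G) := fun n =>
    ⟨1, Subtype.ext (by simpa [pow_two] using hQ.al_sq hR' hc hd.1 hd.2 nd n.2.1)⟩
  obtain ⟨v, hv, v1, -, v2⟩ := CfsgH2.exists_central_mod (IsPGroup.to_sup_of_normal_right' h2 N2 QN) le_sup_right
    (sup_le QN le_normalizer) hF
  have vv := hQ.al_sq hR' hc hd.1 hd.2 nd hv.1
  have vi := inv_eq_of_mul_eq_one_right vv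
  have cv : ∀ h ∈ Y, Commute v (h * v * h⁻¹) := fun h hh => by
    rcases h3 h hh with c1 | ⟨k, hk, y, hy, rfl⟩
    · exact hQ.al_comm hc hd.1 hd.2 nd hv.1 (ALd (cj h hh hd) (ne (cj h hh hd).1 (cj h hh hx) (o.conj h)) c1
        (Nc h hh hv).1)
    have m := cj k hk hd
    have tY := mul_mem (mul_mem hk dY) (inv_mem hk)
    generalize k * d * k⁻¹ = t at *
    have z1 := v2 y (mem_sup_left hy)
    have e : t * y * v * (t * y)⁻¹ = t * v * t * ⁅v, y⁆ := by
      rw [mul_assoc _ t, (Yc t tY _ z1).eq, commutatorElement_def, mul_inv_rev, hR'.inv m.1, vi,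
        show t * v * (v * y * v * y⁻¹ * t) = t * (v * v) * y * v * y⁻¹ * t by group, vv]
      group
    rw [e]
    refine Commute.mul_right ?_ (hQ.al_comm hc hd.1 hd.2 nd hv.1 (ZN hd z1).1)
    have := (Phi_comm hD m hv.2).eq
    rw [vi] at this
    show v * (t * v * t) = t * v * t * v
    rw [← mul_assoc, ← mul_assoc, this]; group
  let A : Subgroup G := closure ({w | ∃ h ∈ Y, w = h * v * h⁻¹} ∪ EE D c)
  have ZA : EE D c ≤ A := fun z hz => subset_closure (Or.inr hz)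
  have vA : ∀ h ∈ Y, h * v * h⁻¹ ∈ A := fun h hh => subset_closure (Or.inl ⟨h, hh, rfl⟩)
  have AP : A ≤ Phi hD c := (closure_le _).2 (by
    rintro _ (⟨h, hh, rfl⟩ | hz)
    exacts [(Nc h hh hv).2, EE_le_Phi hD hc hz])
  have cz : ∀ h ∈ Y, ∀ z ∈ EE D c, Commute (h * v * h⁻¹) z := fun h hh z hz =>
    ((Yc h hh z hz).mul_left (hQ.al_comm hc hd.1 hd.2 nd hv.1 (ZN hd hz).1)).mul_left (Yc h hh z hz).inv_left
  have Ac : ∀ w ∈ A, ∀ w' ∈ A, Commute w w' := fun w hw w' hw' => closure_le_cent (fun t ht =>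
    (closure_le_cent (by
      rintro t' (⟨h', hh', rfl⟩ | hz') <;> rcases ht with ⟨h, hh, rfl⟩ | hz
      · have := (commute_conj_iff h').2 (cv _ (mul_mem (inv_mem hh') hh))
        convert this using 1; group
      · exact cz h' hh' t hz
      · exact (cz h hh t' hz').symm
      · exact EE.commute' hz' hz hc (Commute.refl c)) hw').symm) hw
  have AY : ∀ h ∈ Y, ∀ w ∈ A, h * w * h⁻¹ ∈ A := fun h hh w hw => by
    induction hw using closure_induction with
    | one => simp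
    | mem x hx =>
      rcases hx with ⟨k, hk, rfl⟩ | hz
      · convert vA _ (mul_mem hh hk) using 1; group
      · rw [(Yc h hh x hz).eq, mul_inv_cancel_right]; exact ZA hz
    | mul x y _ _ ihx ihy => convert mul_mem ihx ihy using 1; group
    | inv x _ ih => convert inv_mem ih using 1; group
  have PN : ∀ {a}, a ∈ Cn D c → Phi hD c ≤ normalizer ((AL D c a ⊓ Phi hD c : Subgroup G) : Set G) :=
    fun ha w hw => mem_normalizer_fintype fun n hn => ⟨Phi_AL hD ha hw hn.1, Phi_conj hD hw.1 hn.2⟩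
  have mV := fun {w} => CfsgH2.mem_sup_of_le_normalizer' (A := AL D c d ⊓ Phi hD c) (inf_le_right.trans (PN hx))
    (x := w)
  have gen : ∀ {t a b : G}, t ∈ Cn D c → a ∈ Cn D c → ¬ Eqv D a c → Commute t a → AL D c t ≤ AL D c a →
      ∀ {V : Subgroup G}, AL D c a ⊓ Phi hD c ≤ V → AL D c b ⊓ Phi hD c ≤ V →
      (∀ n ∈ AL D c a ⊓ Phi hD c, t * n * t⁻¹ ∈ V) ∧ ∀ n ∈ AL D c b ⊓ Phi hD c, t * n * t⁻¹ ∈ V :=
    fun {t a b} ht ha n1 c1 l V l1 l2 => ⟨fun n hn => by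
      rw [(hQ.al_comm hc ha.1 ha.2 n1 (mem_AL ht.1 ht.2 c1) hn.1).eq, mul_inv_cancel_right]; exact l1 hn,
    fun n hn => by
      have := Phi_br hD ht (inv_mem hn.2)
      have := mul_mem (l2 hn) (l1 ⟨l this.1, this.2⟩)
      rw [hR'.inv ht.1]
      convert this using 1; group⟩
  have VY : Y ≤ normalizer ((AL D c d ⊓ Phi hD c ⊔ AL D c x ⊓ Phi hD c : Subgroup G) : Set G) := by
    rw [hY, closure_le]
    intro t ht
    refine mem_normalizer_fintype fun w hw => ?_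
    obtain ⟨n, hn, n', hn', rfl⟩ := mV.1 hw
    rw [show t * (n * n') * t⁻¹ = t * n * t⁻¹ * (t * n' * t⁻¹) by group]
    rcases ht with ht | rfl
    · have := gen (b := x) (Ed t ht.1 ht.2) hd nd (ht.2.commute hd.1).symm (ALe t ht.1 ht.2) le_sup_left le_sup_right
      exact mul_mem (this.1 n hn) (this.2 n' hn')
    · have := gen (b := d) hx hx nx (Commute.refl _) le_rfl le_sup_right le_sup_left
      exact mul_mem (this.2 n hn) (this.1 n' hn')
  have AV : A ≤ AL D c d ⊓ Phi hD c ⊔ AL D c x ⊓ Phi hD c := (closure_le _).2 (by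
    rintro _ (⟨h, hh, rfl⟩ | hz)
    exacts [(mem_normalizer_iff.1 (VY hh) v).1 (mem_sup_left hv), mem_sup_left (ZN hd hz)])
  have K1 : ∀ a ∈ D, Eqv D d a → ∀ w ∈ A, w * a * w⁻¹ * a ∈ EE D c → w ∈ AL D c d := fun a ha q w hw hz => by
    obtain ⟨n, hn, n', hn', rfl⟩ := mV.1 (AV hw)
    have ha' := Ed a ha q
    have m := Phi_br hD ha' hn'.2
    have c1 := hQ.al_comm hc hd.1 hd.2 nd hn.1 (ALe a ha q m.1)
    have c2 := hQ.al_comm hc hd.1 hd.2 nd hn.1 (mem_AL ha ha'.2 (q.commute hd.1).symm)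
    rw [show n * n' * a * (n * n')⁻¹ * a = n * (n' * a * n'⁻¹) * (n⁻¹ * a) by group, c2.inv_left.eq,
      show n * (n' * a * n'⁻¹) * (a * n⁻¹) = n * (n' * a * n'⁻¹ * a) * n⁻¹ by group, c1.eq,
      mul_inv_cancel_right] at hz
    have aY := EY a ha q
    have o1 : Od (s * d * s⁻¹) (a * s * d * (a * s)⁻¹) := by
      rw [show a * s * d * (a * s)⁻¹ = a * (s * d * s⁻¹) * a⁻¹ by group, s1, hR'.inv ha]
      exact (q.od hT' hd.1 ha hx.1 o.symm).conj_self hR' hx.1 ha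
    refine mul_mem hn.1 (ZN hd (M5 s hsY _ (mul_mem aY hsY) o1 n' (s1 ▸ hn'.1) ?_)).1
    have z0 := (ZN (cj _ (mul_mem aY hsY) hd) hz).1
    rw [show a * s * d * (a * s)⁻¹ = a * (s * d * s⁻¹) * a⁻¹ by group, s1] at z0 ⊢
    have := mul_mem z0 (AL_conj hD (Yc' a aY) hn'.1)
    rwa [show n' * a * n'⁻¹ * a * (a * n' * a⁻¹) = n' * a * n'⁻¹ * (a * a) * n' * a⁻¹ by group, hR'.sq a ha,
      mul_one, inv_mul_cancel_right, mul_inv_cancel_right] at this
  have brA : ∀ a ∈ D, Eqv D d a → ∀ w ∈ A, w * a * w⁻¹ * a ∈ A := fun a ha q w hw => by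
    have := mul_mem hw (AY a (EY a ha q) _ (inv_mem hw))
    rwa [hR'.inv ha, ← mul_assoc, ← mul_assoc] at this
  have I : ∀ a ∈ D, Eqv D d a → ∃ I : Subgroup G, I ≤ A ⊓ AL D c d ∧ (∀ n ∈ I, ∃ w ∈ A, n = w * a * w⁻¹ * a) ∧
      Nat.card A = Nat.card (A ⊓ AL D c d : Subgroup G) * Nat.card I := fun a ha q => by
    let δ : A →* G := MonoidHom.mk' (fun w => w * a * (w : G)⁻¹ * a) fun w w' => by
      have := (Ac _ w.2 _ (brA a ha q _ w'.2)).eq
      calc _ = w * (w' * a * (w' : G)⁻¹ * a) * a * (w : G)⁻¹ * a := by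
            rw [show (w : G) * (w' * a * (w' : G)⁻¹ * a) * a = w * w' * a * (w' : G)⁻¹ * (a * a) by group,
              hR'.sq a ha, coe_mul]; group
        _ = _ := by
            rw [this, ← (Ac _ (brA a ha q _ w'.2) _ (brA a ha q _ w.2)).eq]; group
    refine ⟨δ.range, ?_, ?_, ?_⟩
    · rintro _ ⟨w, rfl⟩
      exact ⟨brA a ha q _ w.2, ALe a ha q (Phi_br hD (Ed a ha q) (AP w.2)).1⟩
    · rintro _ ⟨w, rfl⟩; exact ⟨w, w.2, rfl⟩
    · rw [← δ.ker.card_mul_index, index_ker, ← Nat.card_congr (subgroupOfEquivOfLe (inf_le_left (a := A))).toEquiv]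
      congr 3
      ext w
      rw [MonoidHom.mem_ker, mem_subgroupOf]
      refine ⟨fun h => ⟨w.2, K1 a ha q w w.2 ((show (w : G) * a * (w : G)⁻¹ * a = 1 from h) ▸ one_mem _)⟩, fun h => ?_⟩
      show (w : G) * a * (w : G)⁻¹ * a = 1
      rw [(hQ.al_comm hc hd.1 hd.2 nd h.2 (mem_AL ha (Ed a ha q).2 (q.commute hd.1).symm)).eq,
        mul_inv_cancel_right, hR'.sq a ha]
  obtain ⟨b, hb⟩ := hR.xp d hd.1
  have qb := XP.eqv hT' hR.cl hd.1 hb
  obtain ⟨Ia, a1, a2, a3⟩ := I d hd.1 (Eqv.refl _ _)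
  obtain ⟨Ib, b1, b2, b3⟩ := I b hb.1 qb
  have ZU : EE D c ≤ A ⊓ AL D c d := le_inf ZA ((ZN hd).trans inf_le_left)
  have f1 := card_mul_le ZU b1
  have f2 := card_mul_le a1 b1
  have f3 := card_mul_le (inf_le_left : A ⊓ AL D c d ≤ A) (inf_le_left : A ⊓ AL D c x ≤ A)
  have e1 : Ib ⊓ EE D c = ⊥ := eq_bot_iff.2 fun n hn => by
    obtain ⟨w, hw, rfl⟩ := b2 n hn.1
    rw [(hQ.al_comm hc hd.1 hd.2 nd (K1 b hb.1 qb w hw hn.2) (mem_AL hb.1 (Ed b hb.1 qb).2
      (qb.commute hd.1).symm)).eq, mul_inv_cancel_right, hR'.sq b hb.1]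
    exact one_mem _
  have e2 : Ib ⊓ Ia = ⊥ := eq_bot_iff.2 fun n hn => by
    obtain ⟨w, hw, e⟩ := a2 n hn.2
    obtain ⟨w', hw', e'⟩ := b2 n hn.1
    have m1 := hD.conj_mem d hd.1 w
    have m2 := hD.conj_mem b hb.1 w'
    have c1 := Phi_comm hD hd (AP hw)
    have c2 := Phi_comm hD (Ed b hb.1 qb) (AP hw')
    have c3 := hQ.clique hc hd.1 hd.2 nd m2 ((commute_conj_left (AP hw').1).2 (Ed b hb.1 qb).2)
      ((((AP hw').2 b (Ed b hb.1 qb)) d hd).1 hb.2.1).symm m1 ((commute_conj_left (AP hw).1).2 hd.2) c1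
    generalize w * d * w⁻¹ = d' at *
    generalize w' * b * w'⁻¹ = b' at *
    have e3 : d' * b' = d * b := by
      calc _ = d' * (b' * b) * b := by rw [mul_assoc d', mul_assoc b', hR'.sq b hb.1, mul_one]
        _ = _ := by rw [← e', e, ← mul_assoc, hR'.sq d' m1, one_mul]
    have q1 : Eqv D d' (d * b) := e3 ▸ XP.eqv hT' hR.cl m1 (XP.mul hR' m1 ⟨m2, c3, fun e4 => hR'.ne _ hb.2.2.2 (by
      rw [← e3, e4, hR'.sq d' m1]), e3 ▸ hb.2.2.2⟩)
    have q2 := q1.trans (XP.eqv hT' hR.cl hd.1 (hb.mul hR' hd.1)).symm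
    by_contra hne
    have hne' : d' ≠ d := fun e4 => hne (by rw [e, e4, hR'.sq d hd.1]; exact one_mem _)
    have m3 := hR.p2 d' m1 d hd.1 q2 hne'
    exact not_mem_Phi hD m3 hx ((q2.symm.trans (hR.mul_eqv m1 hd.1 q2 hne')).od hT' hd.1 m3 hx.1 o.symm)
      (e ▸ AP (a1 hn.2).1)
  have e3 : Nat.card (A ⊓ AL D c x ⊓ (A ⊓ AL D c d) : Subgroup G) ≤ Nat.card (EE D c) :=
    card_le_of_le fun n hn => M5 s hsY 1 (one_mem _) (by simpa [s1] using o.symm) n (s1 ▸ hn.1.2)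
      (by simpa using hn.2.2)
  have e4 : Nat.card (A ⊓ AL D c d : Subgroup G) ≤ Nat.card (A ⊓ AL D c x : Subgroup G) :=
    Nat.card_le_card_of_injective (fun n => ⟨s * n * s⁻¹, AY s hsY _ n.2.1, s1 ▸ AL_conj hD (Yc' s hsY) n.2.2⟩)
      fun _ _ e => Subtype.ext (mul_left_cancel (mul_right_cancel (congrArg Subtype.val e)))
  have e5 : T.ncard + 1 ≤ (EE D c).relIndex A := by
    let F : Option T → A ⧸ (EE D c).subgroupOf A := fun o => o.elim ((1 : A) : A ⧸ _)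
      fun h => ((⟨_, vA h (hT h.2)⟩ : A) : A ⧸ _)
    have nz : ∀ h ∈ Y, h * v * h⁻¹ ∉ EE D c := fun h hh m => v1 (by
      have := (Yc h hh _ m).eq
      rw [inv_mul_cancel_right] at this
      rwa [mul_left_cancel this] at m)
    have qe : ∀ {a b : A}, (a : A ⧸ (EE D c).subgroupOf A) = b → (a : G)⁻¹ * b ∈ EE D c := fun e =>
      mem_subgroupOf.1 (QuotientGroup.eq.1 e)
    have : Function.Injective F := by
      rintro (_ | h) (_ | k) e
      · rfl
      · have m : (1 : G)⁻¹ * (k * v * (k : G)⁻¹) ∈ EE D c := qe e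
        exact absurd (by simpa using m) (nz k (hT k.2))
      · have m : (1 : G)⁻¹ * (h * v * (h : G)⁻¹) ∈ EE D c := qe e.symm
        exact absurd (by simpa using m) (nz h (hT h.2))
      · by_contra hne
        have m : (h * v * (h : G)⁻¹)⁻¹ * (k * v * (k : G)⁻¹) ∈ EE D c := qe e
        refine nz k (hT k.2) (M5 h (hT h.2) k (hT k.2) (hT1 h h.2 k k.2 fun e => hne (congrArg some (Subtype.ext e)))
          _ ?_ (Nc k (hT k.2) hv).1)
        have := mul_mem (Nc h (hT h.2) hv).1 (ZN (cj h (hT h.2) hd) m).1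
        rwa [mul_inv_cancel_left] at this
    have := Nat.card_le_card_of_injective F this
    rwa [Finite.card_option, Nat.card_coe_set_eq] at this
  have e6 : Nat.card (EE D c) * (EE D c).relIndex A = Nat.card A := by
    rw [relIndex, ← Nat.card_congr (subgroupOfEquivOfLe ZA).toEquiv, card_mul_index]
  rw [e1, card_bot, mul_one] at f1
  rw [e2, card_bot, mul_one] at f2
  have p1 : 0 < Nat.card (A ⊓ AL D c d : Subgroup G) := Nat.card_pos
  have p2 : 0 < Nat.card (EE D c) := Nat.card_pos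
  have p3 : 0 < Nat.card Ib := Nat.card_pos
  generalize Nat.card (A ⊓ AL D c d : Subgroup G) = U at *
  generalize Nat.card (EE D c) = q at *
  generalize Nat.card Ib = i at *
  have g0 : Nat.card Ia = i := Nat.eq_of_mul_eq_mul_left p1 (a3.symm.trans b3)
  have g1 : U ≤ i * q := Nat.le_of_mul_le_mul_left (a := U) (by
    calc U * U ≤ U * _ := Nat.mul_le_mul_left _ e4
      _ ≤ _ := f3
      _ ≤ U * i * q := by rw [b3]; exact Nat.mul_le_mul_left _ e3
      _ = _ := mul_assoc _ _ _) p1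
  have g2 : i ≤ q := Nat.le_of_mul_le_mul_left (a := i) (by rw [g0] at f2; omega) p3
  have g3 : q * (q ^ 2 + 1) ≤ q * q ^ 2 := by
    calc _ ≤ q * (EE D c).relIndex A := Nat.mul_le_mul_left _ (by omega)
      _ = U * i := by rw [e6, b3]
      _ ≤ q * q * q := Nat.mul_le_mul (g1.trans (Nat.mul_le_mul_right _ g2)) g2
      _ = _ := by ring
  have := Nat.le_of_mul_le_mul_left g3 p2
  omega

end CfsgH7.RI
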