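import Cfsg.Agent.H7.SD1
import Cfsg.Agent.H4.BSLocal
import Cfsg.Agent.H4.Isolated

/-! Root involutions (helper7): closed classes, the transfer argument. -/

set_option autoImplicit false
set_option linter.unusedSectionVars false

namespace CfsgH7.RI
open Cfsg CfsgH9 Subgroup

variable {G : Type*} [Group G] [Finite G] {D : Set G} {a b b' c d e f g h m n p q r s t v w x y z : G}

theorem descent {P : Subgroup G} (hP : IsPGroup 2 P) {A : Set G} (hA : ∀ t ∈ A, t ∈ P) (h1 : 1 ∉ A) (ht : t ∈ A)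
    (H : ∀ t ∈ A, ∃ s ∈ P, ∃ k : ℕ, (t * s * t⁻¹ * s⁻¹) ^ k ∈ A) : False := by
  haveI : Fact (Nat.Prime 2) := ⟨Nat.prime_two⟩
  obtain ⟨n, hn⟩ := P.isNilpotent_iff_lowerCentralSeries.1 hP.isNilpotent
  have : ∀ j, ∃ t ∈ A, t ∈ P.lowerCentralSeries j := fun j => by
    induction j with
    | zero => exact ⟨t, ht, hA t ht⟩
    | succ j ih =>
      obtain ⟨t, h2, h3⟩ := ih
      obtain ⟨s, h4, k, h5⟩ := H t h2
      exact ⟨_, h5, pow_mem (commutator_mem_commutator h3 h4) k⟩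
  obtain ⟨t, h2, h3⟩ := this n
  rw [hn, mem_bot] at h3
  exact h1 (h3 ▸ h2)

theorem le_normalizer_closure {T : Set G} {S : Subgroup G} (H : ∀ s ∈ S, ∀ t ∈ T, s * t * s⁻¹ ∈ T) :
    S ≤ normalizer (closure T : Set G) := by
  have k : ∀ s ∈ S, ∀ t ∈ closure T, s * t * s⁻¹ ∈ closure T := fun s hs t ht => by
    induction ht using closure_induction with
    | one => simp
    | mem x hx => exact subset_closure (H s hs x hx)
    | mul x y _ _ ihx ihy => convert mul_mem ihx ihy using 1; group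
    | inv x _ ih => convert inv_mem ih using 1; group
  refine fun s hs t => ⟨k s hs t, fun h => ?_⟩
  have := k _ (inv_mem hs) _ h
  simp only [mul_assoc, inv_mul_cancel_left, inv_inv, inv_mul_cancel, mul_one] at this
  exact this

theorem commute_of_conj_eq (h : g * a * g⁻¹ = a) : Commute g a := mul_inv_eq_iff_eq_mul.1 h

theorem conj_of_commute (h : Commute g a) : g * a * g⁻¹ = a := by rw [h.eq, mul_inv_cancel_right]

structure Cz (D : Set G) : Prop extends Bad D where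
  nx : ∀ a ∈ D, ∀ b, XP D a b → ∀ v, v * v = 1 → v ≠ 1 → Commute a v → Commute b v → v ∈ D
  exu : ∃ u, u * u = 1 ∧ u ≠ 1 ∧ u ∉ D

theorem Cz.transfer (hC : Cz D) (ha : a ∈ D) (S : Sylow 2 G) {Q : Subgroup G} (hQ : Q.relIndex S = 2)
    (H : ∀ v ∈ Q, v * v = 1 → v ≠ 1 → v ∈ D) : False := by
  obtain ⟨u, h1, h2, h3⟩ := hC.exu
  obtain ⟨M, hM, h4, -⟩ := CfsgH4.thompson_transfer S hQ h1 fun g hg => h3 (by
    have := hC.conj_mem _ (H _ hg (by rw [show g * u * g⁻¹ * (g * u * g⁻¹) = g * (u * u) * g⁻¹ by group, h1]; group)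
      (by simpa using h2)) g⁻¹
    simpa only [mul_assoc, inv_mul_cancel_left, inv_inv, inv_mul_cancel, mul_one] using this)
  have k : ∀ d ∈ D, d ∉ M := fun d hd hm => by
    have : M = ⊤ := by
      rw [eq_top_iff, ← hC.generates, closure_le]
      intro y hy
      obtain ⟨g, -, rfl⟩ := hC.cl d hd y hy
      exact hM.conj_mem d hm g
    rw [this, index_top] at h4
    omega
  obtain ⟨b, hb⟩ := hC.xp a ha
  exact k _ hb.2.2.2 ((mul_mem_iff_of_index_two h4).2 (iff_of_false (k a ha) (k b hb.1)))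

theorem Cz.syl (hC : Cz D) (ha : a ∈ D) :
    ∃ S : Sylow 2 G, (∀ s ∈ S, Commute s a) ∧ ∃ u ∈ S, u * u = 1 ∧ u ≠ 1 ∧ u ∉ D := by
  have hD := hC.ri
  obtain ⟨u, h1, h2, h3⟩ := hC.exu
  obtain ⟨b, hb, c⟩ : ∃ b ∈ D, Commute b u := by
    by_contra! H
    exact h2 (hC.claimA ha h1 h3 fun d hd c => absurd c (H d hd))
  obtain ⟨S, hS⟩ := (CfsgH4.isPGroup_closure_pair_of_commute (hD.sq b hb) h1 c).exists_le_sylow
  obtain ⟨t, ht, c'⟩ : ∃ t ∈ D, ∀ s ∈ S, Commute s t := by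
    by_contra! H
    refine descent S.isPGroup' (A := {t | t ∈ D ∧ t ∈ S}) (fun _ h => h.2) (fun h => hD.ne _ h.1 rfl)
      ⟨hb, hS (subset_closure (Or.inl rfl))⟩ fun t ht => ?_
    obtain ⟨s, hs, n⟩ := H t ht.1
    have h4 := hC.conj_mem t ht.1 s
    have e : t * s * t⁻¹ * s⁻¹ = t * (s * t * s⁻¹) := by rw [hD.inv ht.1]; group
    have m : t * (s * t * s⁻¹) ∈ S := mul_mem ht.2 (mul_mem (mul_mem hs ht.2) (inv_mem hs))
    have ne : s * t * s⁻¹ ≠ t := mt commute_of_conj_eq n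
    refine ⟨s, hs, ?_⟩
    rw [e]
    rcases hD.tri ht.1 h4 with h | h | h
    · exact ⟨1, by rw [pow_one]; exact ⟨(hC.closed ht.1 h4 h ne).2.2.2, m⟩⟩
    · exact absurd (pow_mem m 2) (h.not_sq_mem hD ht.1 S.isPGroup')
    · exact ⟨2, by rw [pow_two, ← mul_assoc]; exact h.mem hD ht.1 h4, pow_mem m 2⟩
  obtain ⟨g, -, rfl⟩ := hC.cl t ht a ha
  refine ⟨g • S, fun s hs => ?_, g * u * g⁻¹, ?_, ?_, by simpa using h2, fun h => h3 ?_⟩
  · have := (commute_conj_iff g).2 (c' _ ((CfsgH4.mem_smul_sylow g s S).1 hs))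
    simpa only [mul_assoc, mul_inv_cancel_left, mul_inv_cancel, mul_one] using this
  · rw [CfsgH4.mem_smul_sylow]
    simp only [mul_assoc, inv_mul_cancel_left, inv_mul_cancel, mul_one]
    exact hS (subset_closure (Or.inr rfl))
  · rw [show g * u * g⁻¹ * (g * u * g⁻¹) = g * (u * u) * g⁻¹ by group, h1]; group
  · simpa only [mul_assoc, inv_mul_cancel_left, inv_inv, inv_mul_cancel, mul_one] using hC.conj_mem _ h g⁻¹

theorem xp_mul_ne (hD : RI D) (ha : a ∈ D) (b : G) : a * b ≠ b := fun e => hD.ne a ha (mul_eq_right.1 e)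

theorem conj_mul_left (h : Commute g a) (b : G) : g * (a * b) * g⁻¹ = a * (g * b * g⁻¹) := by
  rw [← mul_assoc g, h.eq]; group

theorem Cz.no_line (hC : Cz D) (ha : a ∈ D) {S : Sylow 2 G} (h1 : ∀ s ∈ S, Commute s a)
    (h2 : ∃ u ∈ S, u * u = 1 ∧ u ≠ 1 ∧ u ∉ D) (hb : XP D a b) :
    ∃ s ∈ S, s * b * s⁻¹ ≠ b ∧ s * b * s⁻¹ ≠ a * b := by
  have hD := hC.ri
  by_contra! H
  obtain ⟨u, hu, u1, u2, u3⟩ := h2
  refine hC.transfer ha S (Q := S ⊓ centralizer {b}) (relIndex_eq_two_iff.2 ⟨u, hu, fun s hs => ?_⟩)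
    fun v hv v1 v2 => hC.nx a ha b hb v v1 v2 (h1 v hv.1).symm (mem_centralizer_singleton_iff.1 hv.2).symm
  have e := H u hu fun e => u3 (hC.nx a ha b hb u u1 u2 (h1 u hu).symm (commute_of_conj_eq e).symm)
  have k : ∀ s ∈ S, s ∈ (S : Subgroup G) ⊓ centralizer {b} ↔ s * b * s⁻¹ = b := fun s hs =>
    ⟨fun h => conj_of_commute (mem_centralizer_singleton_iff.1 h.2),
      fun h => ⟨hs, mem_centralizer_singleton_iff.2 (commute_of_conj_eq h)⟩⟩
  rw [k _ (mul_mem hs hu), k s hs, show s * u * b * (s * u)⁻¹ = s * (u * b * u⁻¹) * s⁻¹ by group, e,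
    conj_mul_left (h1 s hs)]
  by_cases h : s * b * s⁻¹ = b
  · exact Or.inr ⟨h, by rw [h]; exact xp_mul_ne hD ha b⟩
  · exact Or.inl ⟨by rw [H s hs h, hD.sq_assoc ha], h⟩

theorem Bad.pgroup (hB : Bad D) (ha : a ∈ D) : IsPGroup 2 (closure (Cn D a)) :=
  isPGroup_closure_of_not_od hB.ri (fun _ h => h.1) (ri_cn hB.ri a).conj fun x hx y hy o => by
    by_cases e : x = a
    · exact nc hB.ri hx.1 hy.1 o (e ▸ hy.2.symm)
    · exact (hB.closed ha hx.1 hx.2.symm e).not_od hB.ri ha hy.1 hy.2.symm o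

theorem Cz.inv_set (hC : Cz D) (ha : a ∈ D) {A : Set G} (h1 : ∀ b ∈ A, XP D a b)
    (h2 : ∀ b ∈ A, ∀ g, Commute g a → g * b * g⁻¹ ∈ A) (h3 : ∀ b ∈ A, ∀ b' ∈ A, b' ≠ b → b' ≠ a * b → b * b' ∈ A) :
    b ∉ A := fun hb => by
  have hD := hC.ri
  obtain ⟨S, s1, s2⟩ := hC.syl ha
  refine descent ((hC.pgroup ha).to_sup_of_normal_left' S.isPGroup' (le_normalizer_closure fun s hs t ht =>
    ⟨hC.conj_mem t ht.1 s, (commute_conj_left (s1 s hs)).2 ht.2⟩))
    (fun t ht => mem_sup_left (subset_closure ⟨(h1 t ht).1, (h1 t ht).2.1.symm⟩))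
    (fun h => hD.ne _ (h1 _ h).1 rfl) hb fun t ht => ?_
  obtain ⟨s, hs, n1, n2⟩ := hC.no_line ha s1 s2 (h1 t ht)
  refine ⟨s, mem_sup_right hs, 1, ?_⟩
  rw [pow_one, hD.inv (h1 t ht).1, mul_assoc, mul_assoc, ← mul_assoc s]
  exact h3 t ht _ (h2 t ht s (s1 s hs)) n1 n2

theorem xp_mul_xp (hB : Bad D) (ha : a ∈ D) (hb : XP D a b) (hb' : XP D a b') (c : Commute b b') (n1 : b' ≠ b)
    (n2 : b' ≠ a * b) : XP D a (b * b') :=
  hB.closed ha (hB.closed hb.1 hb'.1 c n1).2.2.2 (Commute.mul_right hb.2.1 hb'.2.1) fun e => n2 (by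
    rw [hb.2.1, ← e, hB.ri.sq_assoc hb.1])

theorem xp_conj (hB : Bad D) (hb : XP D a b) (h : Commute g a) : XP D a (g * b * g⁻¹) := by
  have := hb.conj hB.ri (top_mem hB.toIsRootInvolutionSet g)
  rwa [conj_of_commute h] at this

theorem Cz.swap (hC : Cz D) (ha : a ∈ D) (hb : XP D a b) : ∃ n, n * a * n⁻¹ = a * b ∧ n * b * n⁻¹ = b := by
  have hD := hC.ri
  obtain ⟨n, hn, f4, e⟩ := exists_comm_eq hD hC.cl ha hb fun e => hC.inv_set ha (A := {b | XP D a b ∧ Eqv D a b})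
    (fun _ h => h.1) (fun b h g c => ⟨xp_conj hC.toBad h.1 c, by
      have := h.2.conj hD (top_mem hC.toIsRootInvolutionSet g)
      rwa [conj_of_commute c] at this⟩)
    (fun b h b' h' n1 n2 => by
      have x := xp_mul_xp hC.toBad ha h.1 h'.1 ((h'.2 b h.1.1).1 h.1.2.1.symm) n1 n2
      exact ⟨x, eqv_of_sub hD hC.cl ha x.1 fun y hy c => ((h.2 y hy).1 c).mul_right ((h'.2 y hy).1 c)⟩)
    ⟨hb, eqv_iff.2 (C_eq_of_Aset_eq hD hC.cl ha hb.1 e)⟩
  refine ⟨n, ?_, conj_of_commute (e ▸ (hD.comm_left hn ha f4.not_od).symm)⟩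
  rw [hD.inv hn, hb.2.1, ← e, mul_assoc _ a a, hD.sq a ha, mul_one]

theorem Cz.cycle (hC : Cz D) (ha : a ∈ D) (hb : XP D a b) : ∃ h, h * a * h⁻¹ = b ∧ h * b * h⁻¹ = a * b := by
  obtain ⟨n, e1, e2⟩ := hC.swap ha hb
  obtain ⟨m, e3, e4⟩ := hC.swap hb.1 (hb.symm ha)
  refine ⟨m * n, ?_, ?_⟩
  · rw [show m * n * a * (m * n)⁻¹ = m * (n * a * n⁻¹) * m⁻¹ by group, e1,
      conj_mul_left (commute_of_conj_eq e4), e3, ← hb.2.1, hC.ri.sq_assoc ha]
  · rw [show m * n * b * (m * n)⁻¹ = m * (n * b * n⁻¹) * m⁻¹ by group, e2, e3, hb.2.1]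

/-- good lines -/
def Gd (D : Set G) (a b : G) : Prop := XP D a b ∧ ∀ n ∈ D, Commute n a → n * b * n⁻¹ = b ∨ n * b * n⁻¹ = a * b

theorem Gd.conj (hB : Bad D) (h : Gd D a b) (g : G) : Gd D (g * a * g⁻¹) (g * b * g⁻¹) :=
  ⟨h.1.conj hB.ri (top_mem hB.toIsRootInvolutionSet g), fun n hn c => by
    have e : n = g * (g⁻¹ * n * g⁻¹⁻¹) * g⁻¹ := by group
    rw [e, commute_conj_iff] at c
    refine (h.2 _ (hB.conj_mem n hn _) c).imp (fun e => ?_) fun e => ?_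
    · conv_rhs => rw [← e]
      group
    · rw [show g * a * g⁻¹ * (g * b * g⁻¹) = g * (a * b) * g⁻¹ by group, ← e]; group⟩

theorem Gd.conj' (hB : Bad D) (h : Gd D a b) (c : Commute g a) : Gd D a (g * b * g⁻¹) := by
  have := h.conj hB g
  rwa [conj_of_commute c] at this

theorem Gd.mul (hB : Bad D) (ha : a ∈ D) (h : Gd D a b) : Gd D a (a * b) :=
  ⟨h.1.mul hB.ri ha, fun n hn c => (h.2 n hn c).imp (fun e => by rw [conj_mul_left c, e])
    fun e => by rw [conj_mul_left c, e]⟩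

theorem Gd.symm (hC : Cz D) (ha : a ∈ D) (h : Gd D a b) : Gd D b a := by
  obtain ⟨g, e1, e2⟩ := hC.cycle ha h.1
  have := (h.conj hC.toBad g)
  rw [e1, e2] at this
  have := this.mul hC.toBad h.1.1
  rwa [h.1.2.1, hC.ri.sq_assoc h.1.1] at this

theorem Gd.mul2 (hB : Bad D) (ha : a ∈ D) (h : Gd D a b) (h' : Gd D a b') (c : Commute b b') (n1 : b' ≠ b)
    (n2 : b' ≠ a * b) : Gd D a (b * b') :=
  ⟨xp_mul_xp hB ha h.1 h'.1 c n1 n2, fun n hn c => by
    rw [show n * (b * b') * n⁻¹ = n * b * n⁻¹ * (n * b' * n⁻¹) by group]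
    have e : b * (a * b') = a * (b * b') := by rw [← mul_assoc, ← h.1.2.1, mul_assoc]
    rcases h.2 n hn c with e1 | e1 <;> rcases h'.2 n hn c with e2 | e2 <;> rw [e1, e2]
    exacts [Or.inl rfl, Or.inr e, Or.inr (mul_assoc _ _ _), Or.inl (by rw [mul_assoc, e, hB.ri.sq_assoc ha])]⟩

theorem Bad.exists_gd (hB : Bad D) (ha : a ∈ D) : ∃ b, Gd D a b := by
  have hD := hB.ri
  by_contra! H
  obtain ⟨b, hb⟩ := hB.xp a ha
  refine descent (hB.pgroup ha) (A := {b | XP D a b}) (fun t ht => subset_closure ⟨ht.1, ht.2.1.symm⟩)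
    (fun h => hD.ne _ h.1 rfl) hb fun t ht => ?_
  obtain ⟨n, hn, c, n1, n2⟩ : ∃ n ∈ D, Commute n a ∧ n * t * n⁻¹ ≠ t ∧ n * t * n⁻¹ ≠ a * t := by
    by_contra! H'
    exact H t ⟨ht, fun n hn c => or_iff_not_imp_left.2 (H' n hn c)⟩
  refine ⟨n, subset_closure ⟨hn, c⟩, 1, ?_⟩
  rw [pow_one, hD.inv ht.1, hD.inv hn]
  refine hB.closed ha ((hD.fo_of ht.1 hn (fun e => n1 (conj_of_commute e.symm))
    (ht.not_od hD ha hn c.symm)).mem hD ht.1 hn)
    (((Commute.mul_right ht.2.1 c.symm).mul_right ht.2.1).mul_right c.symm) fun e => n2 ?_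
  rw [ht.2.1, ← e, hD.inv hn, mul_assoc t, mul_assoc t, hD.sq_assoc ht.1]

theorem Gd.partner (hC : Cz D) (ha : a ∈ D) (h : Gd D a b) : ∃ b', Gd D a b' ∧ ¬ Commute b' b := by
  by_contra! H
  exact hC.inv_set ha (A := {b | Gd D a b ∧ ∀ b', Gd D a b' → Commute b' b}) (fun _ h => h.1.1)
    (fun b h g c => ⟨h.1.conj' hC.toBad c, fun b' h' => by
      have := (commute_conj_iff g).2 (h.2 _ (h'.conj' hC.toBad c.inv_left))
      simpa only [mul_assoc, mul_inv_cancel_left, inv_inv, mul_inv_cancel, mul_one] using this⟩)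
    (fun b h b' h' n1 n2 => ⟨h.1.mul2 hC.toBad ha h'.1 (h'.2 b h.1) n1 n2, fun z hz =>
      (h.2 z hz).mul_right (h'.2 z hz)⟩) ⟨h, H⟩

theorem Gd.of_nc (h : Gd D a b) (h' : Gd D a b') (n : ¬ Commute b' b) : b' * b * b'⁻¹ = a * b :=
  (h.2 b' h'.1.1 h'.1.2.1.symm).resolve_left (mt commute_of_conj_eq n)

theorem Gd.line (hC : Cz D) (ha : a ∈ D) (h : Gd D a b) (h' : Gd D a b') (c : Commute b b') :
    b' = b ∨ b' = a * b := by
  have hD := hC.ri
  by_contra! H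
  obtain ⟨p, hp, n⟩ := h.partner hC ha
  obtain ⟨y, hy, c1, c2⟩ : ∃ y, Gd D a y ∧ Commute p y ∧ Commute b y := by
    by_cases k : Commute p b'
    · exact ⟨b', h', k, c⟩
    · refine ⟨_, h.mul2 hC.toBad ha h' c H.1 H.2, commute_of_conj_eq ?_, (Commute.refl b).mul_right c⟩
      rw [show p * (b * b') * p⁻¹ = p * b * p⁻¹ * (p * b' * p⁻¹) by group, h.of_nc hp n, h'.of_nc hp k, mul_assoc,
        ← mul_assoc b, ← h.1.2.1, mul_assoc, hD.sq_assoc ha]
  obtain ⟨g, e1, e2⟩ := hC.cycle ha hy.1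
  have k : ∀ t, Gd D a t → Commute t y → Commute (g * t * g⁻¹) a := fun t ht c => by
    have := ((e2 ▸ (commute_conj_iff g).2 c : Commute _ (a * y)).mul_right
      (e1 ▸ (commute_conj_iff g).2 ht.1.2.1.symm : Commute _ y))
    rwa [mul_assoc a, hD.sq y hy.1.1, mul_one] at this
  obtain ⟨z, hz, n'⟩ := hy.partner hC ha
  have e : y = (g * b * g⁻¹ * (g * p * g⁻¹))⁻¹ * (g * p * g⁻¹ * (g * b * g⁻¹)) := by
    rw [← e1, show (g * b * g⁻¹ * (g * p * g⁻¹))⁻¹ * (g * p * g⁻¹ * (g * b * g⁻¹)) =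
      g * (p⁻¹ * b⁻¹ * p⁻¹⁻¹ * b) * g⁻¹ by group, hD.inv hp.1.1, hD.inv h.1.1, h.of_nc hp n, mul_assoc a,
      hD.sq b h.1.1, mul_one]
  have k1 := k p hp c1
  have k2 := k b h c2
  have l1 := hz.2 _ (hC.conj_mem p hp.1.1 g) k1
  have l2 := hz.2 _ (hC.conj_mem b h.1.1 g) k2
  generalize g * p * g⁻¹ = P at *
  generalize g * b * g⁻¹ = B at *
  have e' : P * B * z * (P * B)⁻¹ = B * P * z * (B * P)⁻¹ := by
    rw [show P * B * z * (P * B)⁻¹ = P * (B * z * B⁻¹) * P⁻¹ by group,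
      show B * P * z * (B * P)⁻¹ = B * (P * z * P⁻¹) * B⁻¹ by group]
    rcases l1 with l1 | l1 <;> rcases l2 with l2 | l2 <;>
      simp only [l1, l2, conj_mul_left k1, conj_mul_left k2]
  refine n' (commute_of_conj_eq ?_).symm
  rw [e, show (B * P)⁻¹ * (P * B) * z * ((B * P)⁻¹ * (P * B))⁻¹ = (B * P)⁻¹ * (P * B * z * (P * B)⁻¹) * (B * P) by
    group, e']
  group

/-- the good lines through `a` -/
def Ln (D : Set G) (a : G) : Type _ := {s : Set G // ∃ b, Gd D a b ∧ s = {b, a * b}}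

instance : Finite (Ln D a) := by unfold Ln; infer_instance

theorem image_line (c : Commute g a) (b : G) :
    (fun x => g * x * g⁻¹) '' {b, a * b} = {g * b * g⁻¹, a * (g * b * g⁻¹)} := by
  rw [Set.image_pair, conj_mul_left c]

/-- the action on the good lines -/
@[instance_reducible] def lnAct (hB : Bad D) {P : Subgroup G} (hP : ∀ s ∈ P, Commute s a) : MulAction P (Ln D a) where
  smul g s := ⟨(fun x => g * x * (g : G)⁻¹) '' s.1, by
    obtain ⟨b, hb, e⟩ := s.2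
    exact ⟨_, hb.conj' hB (hP g g.2), by rw [e, image_line (hP g g.2)]⟩⟩
  one_smul s := Subtype.ext (show (fun x => ((1 : P) : G) * x * _) '' s.1 = _ by simp)
  mul_smul g h s := Subtype.ext (show (fun x => ((g * h : P) : G) * x * _) '' s.1 = (fun x => (g : G) * x * _) ''
    ((fun x => (h : G) * x * _) '' s.1) by simp [Set.image_image, mul_assoc])

theorem line_eq_iff (hD : RI D) (ha : a ∈ D) : ({b', a * b'} : Set G) = {b, a * b} ↔ b' = b ∨ b' = a * b :=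
  ⟨fun h => h.le (Or.inl rfl), by
    rintro (rfl | rfl)
    exacts [rfl, by rw [hD.sq_assoc ha, Set.pair_comm]]⟩

theorem Gd.no_root (hC : Cz D) (ha : a ∈ D) (h : Gd D a b) (c1 : Commute f a) (c2 : Commute f b) (e : f * f = b) :
    False := by
  haveI : Fact (Nat.Prime 2) := ⟨Nat.prime_two⟩
  have hD := hC.ri
  have odd : ¬ 2 ∣ Nat.card (Ln D a) := by
    have hP : ∀ s ∈ zpowers f, Commute s a := by rintro _ ⟨k, rfl⟩; exact c1.zpow_left k
    letI := lnAct hC.toBad hP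
    have h2 := (CfsgH1.isPGroup_zpowers (p := 2) (x := f) (k := 2) (by
      rw [pow_two, pow_mul, pow_two, pow_two, e, hD.sq b h.1.1])).card_modEq_card_fixedPoints (Ln D a)
    have h3 : Nat.card (MulAction.fixedPoints (zpowers f) (Ln D a)) = 1 := by
      rw [Nat.card_eq_one_iff_exists]
      refine ⟨⟨⟨_, b, h, rfl⟩, ?_⟩, ?_⟩
      · rintro ⟨_, k, rfl⟩
        exact Subtype.ext ((image_line (c1.zpow_left k) b).trans (by rw [conj_of_commute (c2.zpow_left k)]))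
      · rintro ⟨⟨_, y, hy, rfl⟩, hf⟩
        have e1 := (line_eq_iff hD ha).1 ((image_line c1 y).symm.trans (congrArg Subtype.val (hf ⟨f, mem_zpowers f⟩)))
        refine Subtype.ext (Subtype.ext ((line_eq_iff hD ha).2 (h.line hC ha hy (commute_of_conj_eq ?_))))
        rw [← e, show f * f * y * (f * f)⁻¹ = f * (f * y * f⁻¹) * f⁻¹ by group]
        rcases e1 with e1 | e1
        · rw [e1, e1]
        · rw [e1, conj_mul_left c1, e1, hD.sq_assoc ha]
    rw [h3] at h2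
    exact fun h => absurd (((Nat.modEq_zero_iff_dvd.2 h).symm.trans h2)) (by decide)
  obtain ⟨S, s1, s2⟩ := hC.syl ha
  letI := lnAct hC.toBad (P := S) s1
  obtain ⟨⟨_, y, hy, rfl⟩, hf⟩ := S.isPGroup'.nonempty_fixed_point_of_prime_not_dvd_card (Ln D a) odd
  obtain ⟨s, hs, n⟩ := hC.no_line ha s1 s2 hy.1
  exact not_or.2 n ((line_eq_iff hD ha).1 ((image_line (s1 s hs) y).symm.trans (congrArg Subtype.val (hf ⟨s, hs⟩))))

theorem Gd.two (hC : Cz D) (ha : a ∈ D) (h : Gd D a b) (hp : Gd D a p) (hq : Gd D a q) (n1 : ¬ Commute p b)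
    (n2 : ¬ Commute q b) : Commute p q := by
  have hD := hC.ri
  by_contra n
  refine (h.symm hC ha).no_root hC h.1.1 (f := p * q) (commute_of_conj_eq ?_)
    (Commute.mul_left hp.1.2.1.symm hq.1.2.1.symm) ?_
  · rw [show p * q * b * (p * q)⁻¹ = p * (q * b * q⁻¹) * p⁻¹ by group, h.of_nc hq n2, conj_mul_left hp.1.2.1.symm,
      h.of_nc hp n1, hD.sq_assoc ha]
  · have := hq.of_nc hp n
    rw [hD.inv hp.1.1] at this
    rw [← mul_assoc, this, mul_assoc, hD.sq q hq.1.1, mul_one]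

theorem Cz.false (hC : Cz D) (ha : a ∈ D) : False := by
  have hD := hC.ri
  obtain ⟨b, hb⟩ := hC.exists_gd ha
  obtain ⟨S, s1, s2⟩ := hC.syl ha
  obtain ⟨r, hr, n⟩ := hC.no_line ha s1 s2 hb.1
  have hc := hb.conj' hC.toBad (s1 r hr)
  have lc : ∀ {y z}, Gd D a y → (z = y ∨ z = a * y) → Commute z y := by
    rintro y _ hy (rfl | rfl)
    exacts [Commute.refl _, Commute.mul_left hy.1.2.1 (Commute.refl y)]
  have n' : ¬ Commute (r * b * r⁻¹) b := fun c => not_or.2 n (hb.line hC ha hc c.symm)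
  have k : ∀ s ∈ S, s ∈ (S : Subgroup G) ⊓ normalizer {b, a * b} ↔ Commute (s * b * s⁻¹) b := fun s hs =>
    ⟨fun h => lc hb ((h.2 b).1 (Or.inl rfl)), fun h => ⟨hs, mem_normalizer_iff_conj_image_eq.2
      ((image_line (s1 s hs) b).trans ((line_eq_iff hD ha).2 (hb.line hC ha (hb.conj' hC.toBad (s1 s hs)) h.symm)))⟩⟩
  have k2 : ∀ s ∈ S, Commute (s * b * s⁻¹) b → ¬ Commute (s * (r * b * r⁻¹) * s⁻¹) b := fun s hs c1 c2 => by
    rcases hb.line hC ha (hb.conj' hC.toBad (s1 s hs)) c1.symm with e | e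
    · exact n' ((commute_conj_iff s).1 (e.symm ▸ c2))
    · exact n' ((commute_conj_iff s).1 (e.symm ▸ Commute.mul_right (hc.conj' hC.toBad (s1 s hs)).1.2.1.symm c2))
  refine hC.transfer ha S (Q := S ⊓ normalizer {b, a * b}) (relIndex_eq_two_iff.2 ⟨r, hr, fun s hs => ?_⟩)
    fun v hv v1 v2 => by_contra fun v3 => ?_
  · rw [k _ (mul_mem hs hr), k s hs, show s * r * b * (s * r)⁻¹ = s * (r * b * r⁻¹) * s⁻¹ by group]
    by_cases h : Commute (s * b * s⁻¹) b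
    · exact Or.inr ⟨h, k2 s hs h⟩
    · exact Or.inl ⟨by_contra fun h' => n' ((commute_conj_iff s).1
        (hb.two hC ha (hc.conj' hC.toBad (s1 s hs)) (hb.conj' hC.toBad (s1 s hs)) h' h)), h⟩
  have c1 := s1 v hv.1
  have k3 : ∀ y, Gd D a y → Commute y (v * y * v⁻¹) → v * y * v⁻¹ = a * y := fun y hy c =>
    (hy.line hC ha (hy.conj' hC.toBad c1) c).resolve_left fun e =>
      v3 (hC.nx a ha y hy.1 v v1 v2 c1.symm (commute_of_conj_eq e).symm)
  have c2 := (k v hv.1).1 hv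
  have e1 := k3 b hb c2.symm
  have e2 := k3 _ hc (hb.two hC ha hc (hc.conj' hC.toBad c1) n' (k2 v hv.1 c2))
  have e3 := hb.of_nc hc n'
  have e4 := hc.of_nc hb (mt Commute.symm n')
  generalize r * b * r⁻¹ = c at *
  refine (hb.symm hC ha).no_root hC hb.1.1 (f := v * b * c) (commute_of_conj_eq ?_)
    ((c1.mul_left hb.1.2.1.symm).mul_left hc.1.2.1.symm) ?_
  · rw [show v * b * c * b * (v * b * c)⁻¹ = v * (b * (c * b * c⁻¹) * b⁻¹) * v⁻¹ by group, e3,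
      conj_mul_left hb.1.2.1.symm, mul_inv_cancel_right, conj_mul_left c1, e1, hD.sq_assoc ha]
  · rw [show v * b * c * (v * b * c) = v * b * v⁻¹ * (v * c * v⁻¹) * (v * v) * b * c by group, v1, e1, e2,
      show a * b * (a * c) * 1 * b * c = a * (b * (a * c) * b⁻¹⁻¹) * c by group, hD.inv hb.1.1,
      conj_mul_left hb.1.2.1.symm, e4, hD.sq_assoc ha, mul_assoc a, hD.sq c hc.1.1, mul_one]

end CfsgH7.RI
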