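import Cfsg.Agent.H7.RI8
import Cfsg.Agent.H7.SD2
import Cfsg.Agent.H1.Transfer

/-! Odd transpositions (helper7): the subgroup generated by a root group and an opposite element. -/

set_option autoImplicit false
set_option linter.unusedSectionVars false

namespace CfsgH7.RI
open Cfsg CfsgH9 CfsgBS MulAction Subgroup

universe u

open CfsgH2.Suz in
theorem caseB_form {G Ω : Type*} [Group G] [Finite G] [MulAction G Ω] (X : R1 G Ω) (h4 : HasFour G)
    (h2 : IsPGroup 2 X.Q) (h : X.CaseB) (hL : X.L = ⊤) (g : G) :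
    g ∈ X.H ∨ ∃ s y, s * s = 1 ∧ s ≠ 1 ∧ y ∈ X.Q ∧ g = s * y := by
  obtain ⟨s, r, hd⟩ := X.exists_dist
  obtain ⟨F, _, _, _, hF, ⟨M⟩⟩ := X.exists_FM h4 hd
  letI : Algebra (ZMod 2) F := ZMod.algebra F 2
  obtain ⟨θ, ψ, χ, -, h1, h3, h5, h6, h7, -, h8, h9, h10⟩ := M.typeA h4 hF h2 h.noncomm h.card
  have c : R1.Cd M r θ ψ χ :=
    ⟨h4, hd, (hd.orderOf_eq_five_iff h4).1 (h.ord s r hd), h1, h3, h5, h6, h7, h8, h9, h10⟩
  have tk : ∀ k ∈ X.K, X.t * k * X.t = k⁻¹ := fun k hk => (X.mem_Kset.1 ((X.mem_K h4).1 hk)).2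
  have ghf : ∀ x ∈ X.Q, x ≠ 1 → ∃ g k f, k ∈ X.K ∧ X.GHF x g k f := fun x hx x1 => by
    by_cases e : ψ x = 0
    · obtain ⟨k, hk, rfl⟩ := X.exists_Kset_conj hd.1 (((X.mem_Q0 h4).1 ((c.ψ_zero x hx).1 e)).resolve_left x1)
      have hk' := X.Kset_subset_K hk
      exact ⟨_, _, _, by rw [tk k hk']; exact mul_mem (mul_mem (inv_mem (inv_mem hk')) (one_mem _)) hk',
        hd.GHF.conj (X.K_le_D hk')⟩
    · obtain ⟨y, hy⟩ := c.Lsurj (χ x / (ψ x * θ (ψ x)) + χ r)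
      obtain ⟨η, hη⟩ := c.exists_η y
      obtain ⟨g, f, e'⟩ := c.hH hx (a := Units.mk0 _ e) rfl (y := y) (by
        have : θ (ψ x) ≠ 0 := by simpa using e
        rw [hy, add_comm (_ / _), ← add_assoc, add_self', zero_add, Units.val_mk0]
        field_simp) hη
      exact ⟨g, _, f, mul_mem (c.kK _) (c.kK _), e'⟩
  have hm : ∀ {b}, b ∈ X.Q ⊔ X.K ↔ _ := CfsgH2.mem_sup_of_le_normalizer
    (X.K_le_D.trans (X.D_le_H.trans X.H_le_normalizer_Q))
  have BH : X.Q ⊔ X.K ≤ X.H := sup_le X.Q_le_H (X.K_le_D.trans X.D_le_H)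
  have hL' : X.L ≤ bn (X.Q ⊔ X.K) X.t X.tt fun b hb => by
      obtain ⟨x, hx, k, hk, rfl⟩ := hm.1 hb
      have e : X.t * (x * k) * X.t = X.t * x * X.t * k⁻¹ := by
        rw [← tk k hk]; simp only [← mul_assoc, X.mul_tt]
      by_cases x1 : x = 1
      · left; rw [e, x1, mul_one, X.tt, one_mul]; exact mem_sup_right (inv_mem hk)
      obtain ⟨g, k', f, this, e'⟩ := ghf x hx x1
      exact Or.inr ⟨_, mul_mem_sup e'.1 this, _, mul_mem_sup e'.2.2.1 (inv_mem hk), by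
        rw [e, e'.2.2.2, mul_assoc]⟩ :=
    sup_le (fun x hx => Or.inl (mem_sup_left hx))
      (zpowers_le.2 (Or.inr ⟨1, one_mem _, 1, one_mem _, by simp⟩))
  rcases hL' (hL ▸ mem_top g) with hb | ⟨a, ha, b, hb, rfl⟩
  · exact Or.inl (BH hb)
  obtain ⟨x, hx, k, hk, rfl⟩ := hm.1 ha
  obtain ⟨y, hy, l, hl, rfl⟩ := hm.1 hb
  have hk' := (X.mem_K h4).1 (mul_mem hk (inv_mem hl))
  refine Or.inr ⟨x * (k * l⁻¹ * X.t) * x⁻¹, x * (l⁻¹ * y * l), ?_, fun e => X.t_not_mem_H ?_,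
    mul_mem hx (X.conj_mem_Q' (X.D_le_H (X.K_le_D hl)) hy), ?_⟩
  · rw [show ∀ z : G, x * z * x⁻¹ * (x * z * x⁻¹) = x * (z * z) * x⁻¹ from fun z => by group, X.Kset_mul_t_sq hk']
    simp
  · rw [conj_eq_one_iff] at e
    rw [eq_inv_of_mul_eq_one_right e]
    exact inv_mem (X.D_le_H hk'.1)
  · have e : l⁻¹ * X.t * l⁻¹ = X.t := by nth_rw 1 [← tk l hl]; rw [X.mul_tt, mul_inv_cancel_right]
    nth_rw 1 [← e]
    group

variable {G : Type u} [Group G] [Finite G] {D : Set G} {a b c d e f g h n p q r s t v w x y z : G}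

theorem cr_of_map {G' : Type*} [Group G'] (π : G →* G') (hT : OT D) (hk : IsPGroup 2 π.ker) (ha : a ∈ D) {y' : G'}
    (h : CR (π '' D) (π a) y') : ∀ y ∈ D, π y = y' → CR D a y := by
  induction h with
  | refl => exact fun y hy e => cr_of_commute ha hy ((commute_map_iff π hT hk ha hy).1 (e ▸ Commute.refl _))
  | tail _ h ih =>
    rintro y hy rfl
    obtain ⟨z, hz, rfl⟩ := h.1
    exact (ih z hz rfl).trans (cr_of_commute hz hy ((commute_map_iff π hT hk hz hy).1 h.2.2.2))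

theorem map_ne_one (hT : OT D) (hcl : OneClass D) (ha : a ∈ D) (hx : x ∈ D) (o : Od a x) :
    ∀ y ∈ D, QuotientGroup.mk' (pCore 2 G) y ≠ 1 := fun y hy h => by
  haveI : Fact (Nat.Prime 2) := ⟨Nat.prime_two⟩
  obtain ⟨z, hz, o'⟩ := hcl.exists_od hT.toRI ha hx o hy
  exact not_mem_of_od hT.toRI hy hz o' (CfsgL0.isPGroup_pCore _ _) ((QuotientGroup.eq_one_iff _).1 h)

theorem map_inj (hT : OT D) (hcl : OneClass D) (ha : a ∈ D) (hx : x ∈ D) (o : Od a x)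
    (hZ : ∀ z ∈ pCore 2 G, ∀ g, Commute g z) (hy : y ∈ D) (hz : z ∈ D)
    (h : QuotientGroup.mk' (pCore 2 G) y = QuotientGroup.mk' _ z) : y = z := by
  by_contra hne
  obtain ⟨w, hw, o'⟩ := hcl.exists_od hT.toRI ha hx o hy
  refine nc hT.toRI hy hw o' (hT.of_mul hy hz hne hw (hZ _ ?_ w)).symm
  rw [← hT.inv hy]
  exact QuotientGroup.eq.1 h

theorem mem_H_iff {G' Ω : Type*} [Group G'] [Finite G'] [MulAction G' Ω] (π : G →* G') (hT : OT D)
    (hk : IsPGroup 2 π.ker) (hne : ∀ y ∈ D, π y ≠ 1) (ha : a ∈ D) {X : R1 G' Ω} (h4 : HasFour G')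
    (hH : ∀ y ∈ π '' D, y ∈ X.H ↔ CR (π '' D) (π a) y) (hy : y ∈ D) : π y ∈ X.I ↔ Commute y a := by
  have k : ∀ y ∈ D, π y ∈ X.H → π y ∈ X.I := fun y hy h =>
    X.mem_I.2 ⟨h, hne y hy, by rw [← map_mul, hT.sq y hy, map_one]⟩
  exact ⟨fun h => (commute_map_iff π hT hk hy ha).1 (X.I_comm h4 h (X.I_subset_Q (k a ha
    ((hH _ ⟨a, ha, rfl⟩).2 Relation.ReflTransGen.refl)))),
    fun h => k y hy ((hH _ ⟨y, hy, rfl⟩).2 (cr_of_commute ⟨a, ha, rfl⟩ ⟨y, hy, rfl⟩ (h.symm.map π)))⟩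

theorem closed_of_central (hS : SpecDisc.{u} D.ncard) (hD : IsRootInvolutionSet D) (hC : Cl D) (hd : d ∈ D)
    (hx : x ∈ D) (hn : ¬ CR D d x) (hZ : ∀ z ∈ pCore 2 G, ∀ g, Commute g z) (hg : g ∈ D) (c : Commute g d)
    (hne : g ≠ d) : g * d ∈ D := by
  haveI : Fact (Nat.Prime 2) := ⟨Nat.prime_two⟩
  have hT := hC.toOT
  have hR := hT.toRI
  have o := od_of_not_cr hR hd hx hn
  have hc : ¬ IsConnectedSet (CommAdj D) D := fun h => hn (h d hd x hx)
  have cl : ∀ y ∈ D, Commute y d → Eqv D d y := fun y hy c =>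
    eqv_of_sub hR hC.cl hd hy fun z hz c' => hC.disc hS hc hd hy hz c.symm c'
  rcases prod_eqv hD hT hC.cl hg hd (cl g hg c).symm with h | ⟨t, ht, q, h⟩
  · refine absurd (map_inj hT hC.cl hd hx o hZ hg hd (QuotientGroup.eq.2 ?_)) hne
    rwa [hT.inv hg]
  let π := QuotientGroup.mk' (pCore 2 G)
  have hne' := map_ne_one hT hC.cl hd hx o
  obtain ⟨b, hb⟩ := hC.xp d hd
  obtain ⟨Ω, _, X, h4, -, hH, -⟩ := disc_R1 (hS.image π) (mapRS π (QuotientGroup.mk'_surjective _) hD hne')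
    (CfsgL0.pCore_quotient _ _) ⟨d, hd, rfl⟩ (b := π b) ⟨⟨b, hb.1, rfl⟩, Commute.map hb.2.1 π,
      fun e => hb.2.2.1 (map_inj hT hC.cl hd hx o hZ hb.1 hd e), _, hb.2.2.2, map_mul _ _ _⟩ ⟨x, hx, rfl⟩
      fun h => hn (cr_of_map π hT ker_mk_pCore hd h x hx rfl)
  have mI := fun {y} => mem_H_iff (y := y) π hT ker_mk_pCore hne' hd h4 hH
  obtain ⟨ξ, hξ, e1, -⟩ := X.exists_gen_K h4
  obtain ⟨ξ, rfl⟩ := QuotientGroup.mk'_surjective _ ξ
  let B := closure (Cn D d)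
  have cB : ∀ y ∈ B, ∀ z ∈ B, Commute y z := fun y hy z hz => closure_le_cent (fun y hy =>
    (closure_le_cent (fun z hz => ((cl y hy.1 hy.2) z hz.1).1 hz.2) hz).symm) hy
  letI : CommGroup B := { (inferInstance : Group B) with mul_comm := fun y z => Subtype.ext (cB y y.2 z z.2) }
  have nB : X.H.comap π ≤ normalizer (B : Set G) := le_normalizer_closure fun s hs y hy =>
    ⟨hD.conj_mem y hy.1 s, (mI (hD.conj_mem y hy.1 s)).1 (by
      rw [map_mul, map_mul, map_inv]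
      exact X.conj_mem_I hs ((mI hy.1).2 hy.2))⟩
  let σ : B →* B := MonoidHom.mk' (fun y => ⟨ξ * y * ξ⁻¹, (nB (X.D_le_H hξ.1) y).1 y.2⟩)
    fun y z => Subtype.ext (by simp [mul_assoc])
  have it : ∀ (i : ℕ) (y : B), (σ^[i] y : G) = ξ ^ i * y * (ξ ^ i)⁻¹ := fun i y => by
    induction i with
    | zero => simp
    | succ i ih => rw [Function.iterate_succ_apply', pow_succ', show (σ _ : G) = ξ * _ * ξ⁻¹ from rfl, ih]; group
  have m : ∀ {y}, y ∈ D → Commute y d → y ∈ B := fun hy c => subset_closure ⟨hy, c⟩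
  have ct : Commute t d := ((q d hd).1 c.symm).symm
  have := avg_lemma σ (X.odd_orderOf_of_mem_D hξ.1) (S := {y | (y : G) ∈ Cn D d}) (fun y _ => Subtype.ext (by
      rw [it, ← (hZ _ ((QuotientGroup.eq_one_iff _).1 (show π (ξ ^ _) = 1 by
        rw [map_pow, pow_orderOf_eq_one])) y).eq, mul_inv_cancel_right]))
    (d := ⟨d, m hd (Commute.refl d)⟩) (d' := ⟨b, m hb.1 hb.2.1.symm⟩) (g := ⟨g, m hg c⟩) (t := ⟨t, m ht ct⟩)
    (fun y hy => by
      obtain ⟨k, hk, e⟩ := X.exists_Kset_conj' ((mI hd).2 (Commute.refl d)) ((mI hy.1).2 hy.2)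
      obtain ⟨i, rfl⟩ := mem_powers_iff_mem_zpowers.2 (e1.ge (X.Kset_subset_K hk))
      refine ⟨i, Subtype.ext ?_⟩
      rw [it]
      exact map_inj hT hC.cl hd hx o hZ (hD.conj_mem d hd _) hy.1 (by
        rw [map_mul, map_mul, map_inv, map_pow]; exact e))
    ⟨hd, Commute.refl d⟩ ⟨hb.1, hb.2.1.symm⟩ ⟨hb.2.2.2, (Commute.refl d).mul_left hb.2.1.symm⟩ ⟨hg, c⟩ ⟨ht, ct⟩
    (Subtype.ext (by
      show ξ * (g * d * t) * ξ⁻¹ = g * d * t
      rw [(hZ _ h ξ).eq, mul_inv_cancel_right]))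
    (Subtype.ext (by
      show g * d * t * (g * d * t) = 1
      rw [← pow_two, ((q.commute hg).mul_left ct.symm).mul_pow, c.mul_pow, pow_two, pow_two, pow_two, hR.sq g hg,
        hR.sq d hd, hR.sq t ht, one_mul, one_mul]))
  rwa [eq_inv_of_mul_eq_one_left (show g * d * t = 1 from congrArg Subtype.val this), hR.inv ht]

theorem GQ.f2 (hS : SpecDisc.{u} D.ncard) (hD : IsRootInvolutionSet D) (hR : Red D) (hQ : GQ D)
    (hcon : IsConnectedSet (CommAdj D) D) (hc : c ∈ D) (hd : d ∈ Cn D c) (hx : x ∈ Cn D c) (o : Od d x) :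
    ¬ AL D c d ⊓ Phi hD c ≤ EE D c := fun H => by
  have hT := hR.toOT
  have hR' := hT.toRI
  have ne : ∀ {a b}, a ∈ D → b ∈ Cn D c → Od a b → ¬ Eqv D a c := fun ha hb o q =>
    nc hR' ha hb.1 o ((q _ hb.1).2 hb.2).symm
  have nd := ne hd.1 hx o
  obtain ⟨e, he, o1, o2⟩ := exists_od2 hT hR.cl hc hd.1 hd.2.symm fun q => nd q.symm
  obtain ⟨g, hg, g1, g2, g3⟩ := hR.toCl.tri hcon hc hd.1 he hd.2.symm (fun q => nd q.symm) o1 o2
  have n1 : ¬ Eqv D g c := fun q => nc hR' he hc o1 ((q e he).1 g3.symm)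
  have n2 : ¬ Eqv D g d := fun q => nc hR' he hd.1 o2 ((q e he).1 g3.symm)
  have og : Od x g := hT.od hx.1 hg fun c' => n1 (hQ.nt hR' hd.1 hx.1 o hc hg hd.2 hx.2 g2.symm c' g1)
  have hC := hR.toCl.res hc hd hx o
  have m1 := Comp.self hd
  have m2 := Comp.of_od m1 hx o
  have m3 := Comp.of_od m2 ⟨hg, g1⟩ og
  set Λ := Comp (Cn D c) d
  have hC' : Cl (sub Λ) := ⟨hC.toOT.sub, sub_oneClass hC.cl, fun y hy => by
    obtain ⟨b, hb⟩ := hC.xp y hy
    exact ⟨⟨b, subset_closure hb.1⟩, hb.1, Subtype.ext hb.2.1, fun e => hb.2.2.1 (congrArg Subtype.val e), hb.2.2.2⟩⟩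
  have cen : ∀ w ∈ pCore 2 (closure Λ), Commute (w : G) d := fun w hw => by
    have cw : Commute (w : G) c := closure_le_cent (fun t ht => ht.1.2) w.2
    have hP : (w : G) ∈ Phi hD c := ⟨cw, fun z hz y hy => by
      by_cases h1 : z ∈ Λ
      · by_cases h2 : y ∈ Λ
        · have hz' : (⟨z, subset_closure h1⟩ : closure Λ) ∈ sub Λ := h1
          exact (eqv_coe.1 (eqv_of_map_eq (QuotientGroup.mk' _) hC'.toOT ker_mk_pCore hz'
            ((subRS hC.toRI).conj_mem _ hz' w) (by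
              rw [map_mul, map_mul, map_inv, (QuotientGroup.eq_one_iff w).2 hw |> (show _ = _ → QuotientGroup.mk' _ w = 1
                from id)]; simp))) y h2
        · exact iff_of_true (Comp.commute (hT.cn c) h1 hy h2)
            (Comp.commute (hT.cn c) (hC.conj_closure w.2 h1) hy h2)
      · rw [(closure_le_cent (fun t ht => (Comp.commute (hT.cn c) ht hz h1).symm) w.2).eq, mul_inv_cancel_right]⟩
    have hd' := hD.conj_mem d hd.1 w
    rcases (hR.mem_EE hc).1 (H (Phi_br hD hd hP)) with h | h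
    · rw [← hR'.inv hd.1] at h
      nth_rw 1 [hR'.inv hd.1] at h
      exact mul_inv_eq_iff_eq_mul.1 (mul_inv_eq_one.1 h)
    · have x1 : XP D d (w * d * (w : G)⁻¹ * d) := XP.mul' hR' hd' ⟨hd.1, Phi_comm hD hd hP,
        fun e => hR'.ne _ h.1 (by rw [← e, hR'.sq d hd.1]), h.1⟩
      exact absurd ((XP.eqv hT hR.cl hd.1 x1).trans h.2.symm) nd
  have := closed_of_central ((hS.sub (fun _ h => h.1.1 : Λ ⊆ D)).preim _) (subRS hC.toRI) hC'
    (d := ⟨d, subset_closure m1⟩) (x := ⟨x, subset_closure m2⟩) (g := ⟨g, subset_closure m3⟩) m1 m2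
    (fun h => ?_) (fun w hw y => ?_) m3 (commute_coe.1 g2) fun e => n2 ?_
  · exact n2 (XP.eqv hT hR.cl hg ⟨hd.1, g2, fun e => n2 (e ▸ Eqv.refl _ _), this.1.1⟩)
  · have : ∀ y, CR Λ d y → Commute y d := fun y h => by
      induction h with
      | refl => exact Commute.refl d
      | @tail p q _ h ih =>
        obtain ⟨r, hr, o'⟩ := Comp.exists_od (hT.cn c) hd hx o h.1
        exact hQ c hc p h.1.1.1 d hd.1 h.1.1.2 hd.2 ih (ne h.1.1.1 hr.1 o') nd q h.2.1.1.1 h.2.1.1.2 h.2.2.2.symm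
    exact nc hR' hd.1 hx.1 o (this x (cr_coe.1 h)).symm
  · refine commute_coe.1 (closure_le_cent (fun t ht => ?_) y.2)
    obtain ⟨k, hk, rfl⟩ := hC.cl d m1 t ht
    have := (commute_conj_iff k).2 (cen _ (Normal.conj_mem inferInstance w hw ⟨k, hk⟩⁻¹))
    simp only [coe_mul, coe_inv, inv_inv, mul_assoc, mul_inv_cancel_left, mul_inv_cancel, mul_one] at this
    simpa only [mul_assoc] using this.symm
  · rw [show g = d from congrArg Subtype.val e]; exact Eqv.refl _ _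

end CfsgH7.RI
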