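import Cfsg.Agent.H7.SD2

/-! Root involutions (helper7): commutator calculus for the root structure theorem. -/

set_option autoImplicit false
set_option linter.unusedSectionVars false

namespace CfsgH7.RI
open Cfsg CfsgH9 Subgroup

variable {G : Type*} [Group G] [Finite G] {D : Set G}
  {a a' b b' c c' d d' e e' f g h m n p q r s t u v w x x' y z : G}

theorem cj_mul (g x y : G) : g * (x * y) * g⁻¹ = g * x * g⁻¹ * (g * y * g⁻¹) := by group

theorem cj_cj (g h x : G) : g * h * x * (g * h)⁻¹ = g * (h * x * h⁻¹) * g⁻¹ := by group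

theorem commute_cj (h : Commute a b) (g : G) : Commute (g * a * g⁻¹) (g * b * g⁻¹) := (commute_conj_iff g).2 h

theorem mcl (ha : a ∈ D) : a ∈ closure D := subset_closure ha

/-- `[a, b] = c` for a pair with product of order four -/
structure K (D : Set G) (a b c : G) : Prop where
  ha : a ∈ D
  hb : b ∈ D
  fo : Fo a b
  eq : a * b * a * b = c

theorem K.hc (hD : RI D) (h : K D a b c) : c ∈ D := h.eq ▸ h.fo.mem hD h.ha h.hb

theorem K.symm (hD : RI D) (h : K D a b c) : K D b a c :=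
  ⟨h.hb, h.ha, h.fo.symm, (hD.comm_eq h.ha h.hb h.fo.not_od).trans h.eq⟩

theorem K.xa (hD : RI D) (h : K D a b c) : XP D a c := h.eq ▸ h.fo.xp_left hD h.ha h.hb

theorem K.xb (hD : RI D) (h : K D a b c) : XP D b c := h.eq ▸ h.fo.xp_right hD h.ha h.hb

theorem _root_.CfsgH9.XP.cm (h : XP D a b) : Commute a b := h.2.1

theorem K.ca (hD : RI D) (h : K D a b c) : Commute a c := (h.xa hD).2.1

theorem K.cb (hD : RI D) (h : K D a b c) : Commute b c := (h.xb hD).2.1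

theorem K.nc (hD : RI D) (h : K D a b c) : ¬ Commute a b := h.fo.not_comm hD h.ha h.hb

theorem K.act (hD : RI D) (h : K D a b c) : a * b * a⁻¹ = b * c := by
  rw [(h.cb hD).eq, ← h.eq, hD.inv h.ha, mul_assoc _ b b, hD.sq b h.hb, mul_one]

theorem K.fix (hD : RI D) (h : K D a b c) : a * c * a⁻¹ = c := conj_of_commute (h.ca hD)

theorem exists_K (hD : RI D) (ha : a ∈ D) (hb : b ∈ D) (h1 : ¬ Commute a b) (h2 : ¬ Od a b) : ∃ c, K D a b c :=
  ⟨_, ha, hb, hD.fo_of ha hb h1 h2, rfl⟩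

theorem K.of_fo (ha : a ∈ D) (hb : b ∈ D) (h : Fo a b) : ∃ c, K D a b c := ⟨_, ha, hb, h, rfl⟩

theorem K.eq_of_act (hD : RI D) (h : K D a b c) (e : a * b * a⁻¹ = b * c') : c = c' :=
  mul_left_cancel ((h.act hD).symm.trans e)

theorem K.of_act (hD : RI D) (ha : a ∈ D) (hb : b ∈ D) (h1 : c ≠ 1) (h2 : ¬ Od a b) (e : a * b * a⁻¹ = b * c) :
    K D a b c := by
  obtain ⟨c', h⟩ := exists_K hD ha hb (fun h => h1 (by
    rw [conj_of_commute h] at e; exact (mul_left_cancel (e.symm.trans (mul_one b).symm)))) h2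
  exact h.eq_of_act hD e ▸ h

theorem K.conj (hD : RI D) (h : K D a b c) (hg : g ∈ closure D) :
    K D (g * a * g⁻¹) (g * b * g⁻¹) (g * c * g⁻¹) :=
  ⟨hD.conj_closure hg h.ha, hD.conj_closure hg h.hb, h.fo.conj g, by rw [← h.eq]; group⟩

theorem K.commute (h : K D a b c) (h1 : Commute g a) (h2 : Commute g b) : Commute g c :=
  h.eq ▸ ((h1.mul_right h2).mul_right h1).mul_right h2

theorem K.commute' (hD : RI D) (h : K D a b c) (h1 : Commute g b) (h2 : Commute g (a * b * a⁻¹)) : Commute g c := by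
  have := h1.mul_right h2
  rwa [h.act hD, hD.sq_assoc h.hb] at this

theorem K.not_eqv (hD : RI D) (h : K D a b c) : ¬ Eqv D c b := fun q => h.nc hD ((q a h.ha).1 (h.ca hD))

theorem Eqv.od' (hD : RI D) (h : Eqv D a b) (ha : a ∈ D) (hb : b ∈ D) (hy : y ∈ D) (o : Od a y) : Od b y :=
  (Aset_subset_of_C_subset hD hb ha (eqv_iff.1 h).ge ⟨hy, o⟩).2

theorem aset_ne (hD : RI D) (hcl : OneClass D) (ha : a ∈ D) (hb : b ∈ D) (h : ¬ Eqv D a b) : Aset D a ≠ Aset D b :=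
  fun e => h (eqv_iff.2 (C_eq_of_Aset_eq hD hcl ha hb e))

theorem T1 (hD : RI D) (hcl : OneClass D) (hb : b ∈ D) (h : XP D b c) (hn : ¬ Eqv D b c) : ∃ n, K D n b c := by
  obtain ⟨n, h1, h2, h3⟩ := exists_comm_eq hD hcl hb h (aset_ne hD hcl hb h.1 hn)
  exact ⟨n, h1, hb, h2, h3⟩

theorem K.next (hD : RI D) (hcl : OneClass D) (h : K D a b c) : ∃ y, K D y c b :=
  T1 hD hcl (h.hc hD) ((h.xb hD).symm h.hb) (h.not_eqv hD)

/-- a pair with product of order three -/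
structure O3 (D : Set G) (a y : G) : Prop where
  ha : a ∈ D
  hy : y ∈ D
  od : Od a y
  eq : a * y * a = y * a * y

theorem O3.symm (h : O3 D a y) : O3 D y a := ⟨h.hy, h.ha, h.od.symm, h.eq.symm⟩

theorem T2 (hD : RI D) (h1 : K D a b c) (h2 : K D y c b) : O3 D a y := by
  have hc := h2.hb
  have hb := h1.hb
  obtain ⟨o, h3⟩ := od_of_three_cycle hD h1.ha h2.ha hc hb (h1.xb hD).2.2.1 (h1.cb hD).symm.eq
    (by nth_rewrite 2 [← hD.inv h1.ha]; exact h1.fix hD)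
    (by nth_rewrite 2 [← hD.inv h1.ha]; rw [h1.act hD, (h1.cb hD).eq])
    (by nth_rewrite 2 [← hD.inv h2.ha]; exact h2.fix hD)
    (by nth_rewrite 2 [← hD.inv h2.ha]; exact h2.act hD)
  refine ⟨h1.ha, h2.ha, o, ?_⟩
  have e3 : a * (y * a * y * a * y) = (a * y) ^ 3 := by simp only [pow_succ, pow_zero, one_mul, mul_assoc]
  have h4 : (a * y) ^ 3 = 1 := by
    by_contra h4
    have hm : y * a * y * a * y ∈ D := by simpa only [mul_assoc] using hD.conj y h2.ha _ (hD.conj a h1.ha y h2.ha)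
    have o3 : Od a (y * a * y * a * y) :=
      ⟨fun e4 => h4 (by rw [← e3, ← e4, hD.sq a h1.ha]), by rw [e3]; exact odd_orderOf_pow o.2 3⟩
    apply (h1.xa hD).not_comm hD hm o3
    have e4 : y * a * y * a * y = a * (a * y) ^ 3 := by rw [← e3, hD.sq_assoc h1.ha]
    rw [e4, mul_assoc, h3, ← mul_assoc, ← (h1.ca hD).eq, mul_assoc]
  rw [← e3] at h4
  calc a * y * a = a * y * a * (y * a * y) * (y * a * y)⁻¹ := by group
    _ = y * a * y := by
      rw [show a * y * a * (y * a * y) = a * (y * a * y * a * y) by group, h4, one_mul, mul_inv_rev, mul_inv_rev,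
        hD.inv h1.ha, hD.inv h2.ha, mul_assoc]

theorem T4 (hD : RI D) (ha : a ∈ D) (o : Od a y) (hx : XP D a x) (hx' : XP D a x') (h : K D y x n)
    (h' : K D y x' n) : x = x' :=
  lemC_inj hD ha h.ha o hx hx' h.fo.symm h'.fo.symm ((h.symm hD).eq.trans (h'.symm hD).eq.symm)

theorem lemB' (hD : RI D) (ha : a ∈ D) (o : Od a y) (c1 : Commute a x) (h : K D y x n) : ∃ f, K D a n f :=
  K.of_fo ha (h.hc hD) ((h.symm hD).eq ▸ lemB hD ha h.ha h.hb o c1 h.fo.symm)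

theorem _root_.CfsgH9.XP.exists_K (hD : RI D) (hy : y ∈ D) (h : XP D a b) (o : Od a y) (hn : ¬ Od b y) : ∃ n, K D y b n :=
  K.of_fo hy h.1 (h.fo_of hD hy o hn).symm

theorem T3 (hD : RI D) (o : O3 D a y) (hd : XP D a d) (h : K D y d b') : K D a b' d := by
  obtain ⟨c', h1⟩ := lemB' hD o.ha o.od hd.cm h
  have f1 : a * d * a⁻¹ = d := conj_of_commute hd.cm
  have e1 : y * (d * b' * c') * y⁻¹ = d * b' * c' := by
    have e2 : d * b' * c' = a * y * a * d * (a * y * a)⁻¹ := by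
      rw [cj_cj, cj_cj, f1, h.act hD, cj_mul, f1, h1.act hD, mul_assoc]
    have e3 : d * b' * c' = a * y * d * (a * y)⁻¹ := by
      rw [cj_cj, h.act hD, cj_mul, f1, h1.act hD, mul_assoc]
    conv_lhs => rw [e2, o.eq, ← cj_cj, ← mul_assoc, ← mul_assoc, hD.sq y o.hy, one_mul, ← e3]
  rw [cj_mul, cj_mul, h.act hD, h.fix hD, mul_assoc d, hD.sq b' (h.hc hD), mul_one, mul_assoc d] at e1
  have e4 := mul_left_cancel e1
  have h2 : K D y c' b' := K.of_act hD o.hy (h1.hc hD) (hD.ne _ (h.hc hD))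
    (fun o' => ((h1.xb hD).not_od hD h1.hb o.hy (h.ca hD).symm.eq) o'.symm) (by rw [e4, (h1.cb hD).eq])
  exact T4 hD o.ha o.od (h1.xa hD) hd h2 h ▸ h1

theorem T5 (hD : RI D) (o : O3 D a y) (c1 : Commute a u) (h : K D y u g) :
    ∃ h, K D a g h ∧ K D y h g ∧ Commute y (u * h) := by
  obtain ⟨k, h1⟩ := lemB' hD o.ha o.od c1 h
  have h2 := T3 hD o.symm (h.xa hD) h1
  refine ⟨k, h1, h2, commute_of_conj_eq ?_⟩
  rw [cj_mul, h.act hD, h2.act hD, (h2.cb hD).eq, mul_assoc, hD.sq_assoc (h.hc hD)]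

theorem swap3 (hD : RI D) (h1 : K D y d b) (h2 : K D a b d) : a * y * a * d * (a * y * a)⁻¹ = b := by
  rw [cj_cj, cj_cj, h2.fix hD, h1.act hD, cj_mul, h2.fix hD, h2.act hD, (h2.cb hD).eq, hD.sq_assoc h1.hb]

theorem mcl3 (ha : a ∈ D) (hy : y ∈ D) : a * y * a ∈ closure D := mul_mem (mul_mem (mcl ha) (mcl hy)) (mcl ha)

/-- the tensor structure attached to a common neighbour `d` of `a` and `b` -/
theorem lemV (hD : RI D) (h : K D a b c) (h1 : XP D a d) (h2 : XP D b d) (hy : K D y c b) :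
    ∃ b', K D y d b' ∧ K D a b' d ∧ XP D c b' ∧ XP D d b' := by
  have o := T2 hD h hy
  obtain ⟨b', h3⟩ := h1.exists_K hD o.hy o.od (h2.not_od hD h.hb o.hy (hy.ca hD).symm.eq)
  have h4 := T3 hD o h1 h3
  have f1 : a * d * a⁻¹ = d := conj_of_commute h1.cm
  refine ⟨b', h3, h4, ?_, h3.xb hD⟩
  have h5 := ((h2.conj hD (mcl h.ha)).conj hD (mcl hy.ha)).conj hD (mcl h.ha)
  rwa [h.act hD, f1, cj_mul y, hy.fix hD, hy.act hD, h3.act hD, ← (h.cb hD).eq, hD.sq_assoc h.hb, h.fix hD,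
    cj_mul, f1, h4.act hD, (h4.cb hD).eq, hD.sq_assoc h1.1] at h5

/-- structure of a commuting pair without a separating odd partner -/
theorem lemS (hD : RI D) (hcl : OneClass D) (hw : w ∈ D) (hd : d ∈ D) (c1 : Commute w d) (hn : ¬ Eqv D d w)
    (H : ∀ x ∈ D, Commute x d → ¬ Od w x) :
    ∃ y n f, O3 D w y ∧ K D y d n ∧ K D w n f ∧ K D y f n ∧ Commute y (d * f) := by
  obtain ⟨y0, hy0, o0, n0⟩ := exists_od_not_od hD hcl hw hd (aset_ne hD hcl hw hd fun q => hn q.symm)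
  obtain ⟨n1, k1⟩ := exists_K hD hy0 hd (fun c => H y0 hy0 c o0) fun o => n0 o.symm
  obtain ⟨f1, k2⟩ := lemB' hD hw o0 c1 k1
  obtain ⟨y, k3⟩ := k2.next hD hcl
  have o := T2 hD k2 k3
  obtain ⟨n, k4⟩ := exists_K hD o.hy hd (fun c => H y o.hy c o.od)
    (((k3.xa hD).symm k3.ha).not_od hD k2.hb hd (k1.cb hD).symm.eq)
  obtain ⟨f, k5, k6, k7⟩ := T5 hD o c1 k4
  exact ⟨y, n, f, o, k4, k5, k6, k7⟩

end CfsgH7.RI
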