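import Cfsg.Agent.H7.RS1

/-! Root involutions (helper7): good lines and the root structure theorem. -/

set_option autoImplicit false
set_option linter.unusedSectionVars false

namespace CfsgH7.RI
open Cfsg CfsgH9 Subgroup

variable {G : Type*} [Group G] [Finite G] {D : Set G}
  {a a' b b' c c' c2 d d' e e' f g h m n p q r s t u v w x x' y z : G}

structure HE (D : Set G) : Prop extends RI D where
  cl : OneClass D
  p2 : ∀ e ∈ D, ∀ f ∈ D, Eqv D e f → e ≠ f → e * f ∈ D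

theorem HE.mem_EE (hR : HE D) (hd : d ∈ D) : z ∈ EE D d ↔ z = 1 ∨ (z ∈ D ∧ Eqv D d z) := by
  refine ⟨fun h => ?_, fun h => h.elim (fun e => e ▸ one_mem _) fun h => RI.mem_EE h.1 h.2⟩
  induction h using closure_induction with
  | one => exact Or.inl rfl
  | mem x hx => exact Or.inr hx
  | mul x y _ _ ihx ihy =>
    rcases ihx with rfl | hx
    · rwa [one_mul]
    rcases ihy with rfl | hy
    · rw [mul_one]; exact Or.inr hx
    by_cases e : x = y
    · left; rw [e, hR.sq y hy.1]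
    · have := hR.p2 x hx.1 y hy.1 (hx.2.symm.trans hy.2) e
      exact Or.inr ⟨this, eqv_of_sub hR.toRI hR.cl hd this fun u hu c =>
        ((hx.2 u hu).1 c).mul_right ((hy.2 u hu).1 c)⟩
  | inv x _ ih =>
    rcases ih with rfl | hx
    · simp
    · rw [hR.inv hx.1]; exact Or.inr hx

theorem HE.eq_one (hR : HE D) (hd : d ∈ D) (hz : z ∈ EE D d) (hy : y ∈ D) (c1 : Commute y z) (c2 : ¬ Commute y d) :
    z = 1 := ((hR.mem_EE hd).1 hz).resolve_right fun h => c2 ((h.2 y hy).2 c1)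

theorem self_EE (hd : d ∈ D) : d ∈ EE D d := RI.mem_EE hd (Eqv.refl D d)

/-- product partner of some member of the class of `d` -/
def XT (D : Set G) (d v : G) : Prop := ∃ e ∈ D, Eqv D d e ∧ XP D e v

theorem XT.mem (h : XT D d v) : v ∈ D := by obtain ⟨e, -, -, h⟩ := h; exact h.1

theorem XT.cm (h : XT D d v) : Commute v d := by obtain ⟨e, -, q, h⟩ := h; exact (q v h.1).2 h.cm.symm

theorem XT.eqv (h : XT D d v) (q : Eqv D e d) : XT D e v := by
  obtain ⟨f, h1, h2, h⟩ := h; exact ⟨f, h1, q.trans h2, h⟩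

theorem XT.of_xp (hd : d ∈ D) (h : XP D d v) : XT D d v := ⟨d, hd, Eqv.refl D d, h⟩

theorem XT.conj (hD : RI D) (h : XT D d v) (hg : g ∈ closure D) : XT D (g * d * g⁻¹) (g * v * g⁻¹) := by
  obtain ⟨f, h1, h2, h⟩ := h; exact ⟨_, hD.conj_closure hg h1, h2.conj hD hg, h.conj hD hg⟩

theorem XT.not_od (hD : RI D) (h : XT D d v) (hx : x ∈ D) (c : Commute x d) : ¬ Od v x := by
  obtain ⟨e, h1, h2, h⟩ := h; exact h.not_od hD h1 hx ((h2 x hx).1 c).symm.eq

/-- elements acting trivially on the partners modulo `E(d)` -/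
def RR (D : Set G) (d u : G) : Prop :=
  (∀ e ∈ EE D d, Commute u e) ∧ ∀ v, XT D d v → ∃ e ∈ EE D d, u * v * u⁻¹ = v * e

theorem RR.mul (h1 : RR D d u) (h2 : RR D d w) : RR D d (u * w) := by
  refine ⟨fun e he => (h1.1 e he).mul_left (h2.1 e he), fun v hv => ?_⟩
  obtain ⟨e1, m1, q1⟩ := h1.2 v hv
  obtain ⟨e2, m2, q2⟩ := h2.2 v hv
  exact ⟨e1 * e2, mul_mem m1 m2, by rw [cj_cj, q2, cj_mul, q1, conj_of_commute (h1.1 e2 m2), mul_assoc]⟩

theorem RR.of_EE (hd : d ∈ D) (hu : u ∈ EE D d) : RR D d u :=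
  ⟨fun e he => EE.commute' hu he hd (Commute.refl d), fun v hv =>
    ⟨1, one_mem _, by rw [conj_of_commute (EE.commute hu hv.mem hv.cm).symm, mul_one]⟩⟩

theorem RR.eqv (h : RR D d u) (q : Eqv D e d) : RR D e u := by
  unfold RR; rw [EE.eq q]; exact ⟨h.1, fun v hv => h.2 v (hv.eqv q.symm)⟩

theorem RR.conj (hD : RI D) (h : RR D d u) (hg : g ∈ closure D) : RR D (g * d * g⁻¹) (g * u * g⁻¹) := by
  have k : g⁻¹ * (g * d * g⁻¹) * g⁻¹⁻¹ = d := by group
  refine ⟨fun e he => ?_, fun v hv => ?_⟩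
  · have := EE.conj hD (inv_mem hg) he
    rw [k] at this
    have := commute_cj (h.1 _ this) g
    rwa [show g * (g⁻¹ * e * g⁻¹⁻¹) * g⁻¹ = e by group] at this
  · have := hv.conj hD (inv_mem hg)
    rw [k] at this
    obtain ⟨e, m1, q⟩ := h.2 _ this
    refine ⟨_, EE.conj hD hg m1, ?_⟩
    calc _ = g * (u * (g⁻¹ * v * g⁻¹⁻¹) * u⁻¹) * g⁻¹ := by group
      _ = _ := by rw [q]; group

theorem RR.K (hD : RI D) (h : RR D d u) (hv : XT D d v) (k : K D u v g) : g ∈ EE D d := by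
  obtain ⟨e, m1, q⟩ := h.2 v hv
  exact k.eq_of_act hD q ▸ m1

theorem lemS2 (hR : HE D) (hw : w ∈ D) (hd : d ∈ D) (c1 : Commute w d) (hn : ¬ Eqv D d w)
    (H : ∀ x ∈ D, Commute x d → ¬ Od w x) (hr : RR D d w) : XP D d w := by
  have hD := hR.toRI
  obtain ⟨y, n, f, o, k1, k2, k3, c2⟩ := lemS hD hR.cl hw hd c1 hn H
  have := hR.eq_one hd (mul_mem (self_EE hd) (hr.K hD (XT.of_xp hd (k1.xb hD)) k2)) o.hy c2 (k1.nc hD)
  rw [← hD.inv hd, inv_mul_eq_one] at this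
  exact (this ▸ k2.xa hD).symm hw

structure Good (D : Set G) (d c : G) : Prop where
  xt : XT D d c
  ne : ¬ Eqv D d c
  rr : RR D d c

theorem Good.eqv_left (h : Good D d c) (q : Eqv D e d) : Good D e c :=
  ⟨h.xt.eqv q, fun q' => h.ne (q.symm.trans q'), h.rr.eqv q⟩

theorem Good.xp (hR : HE D) (hd : d ∈ D) (h : Good D d c) : XP D d c :=
  lemS2 hR h.xt.mem hd h.xt.cm h.ne (fun _ hx c => h.xt.not_od hR.toRI hx c) h.rr

theorem Good.conj (hD : RI D) (h : Good D d c) (hg : g ∈ closure D) : Good D (g * d * g⁻¹) (g * c * g⁻¹) :=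
  ⟨h.xt.conj hD hg, fun q => h.ne (by
    have := q.conj hD (inv_mem hg)
    simpa only [mul_assoc, inv_mul_cancel_left, inv_inv, inv_mul_cancel, mul_one] using this), h.rr.conj hD hg⟩

theorem Good.partner (hR : HE D) (hd : d ∈ D) (h : Good D d c) : ∃ n, K D n c d :=
  T1 hR.toRI hR.cl h.xt.mem ((h.xp hR hd).symm hd) fun q => h.ne q.symm

theorem Good.symm (hR : HE D) (hd : d ∈ D) (h : Good D d c) : Good D c d := by
  have hD := hR.toRI
  obtain ⟨n, k1⟩ := h.partner hR hd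
  obtain ⟨m, k2⟩ := k1.next hD hR.cl
  have := h.conj hD (mcl3 k1.ha k2.ha)
  rw [swap3 hD k2 k1, (T2 hD k1 k2).eq, swap3 hD k1 k2] at this
  exact this

theorem Good.eqv_right (hR : HE D) (hd : d ∈ D) (h : Good D d c) (hc : c' ∈ D) (q : Eqv D c' c) : Good D d c' :=
  ((h.symm hR hd).eqv_left q).symm hR hc

theorem Good.K (hR : HE D) (h : Good D d c) (hw : XT D d w) (n : ¬ Commute w c) :
    ∃ e ∈ EE D d, K D w c e := by
  have hD := hR.toRI
  obtain ⟨e, k⟩ := exists_K hD hw.mem h.xt.mem n (hw.not_od hD h.xt.mem h.xt.cm)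
  exact ⟨e, h.rr.K hD hw (k.symm hD), k⟩

theorem Good.bij (hR : HE D) (hd : d ∈ D) (h : Good D d c) (hw : XT D d w) (n : ¬ Commute w c) (he : e ∈ D)
    (q : Eqv D d e) : ∃ c' ∈ D, Eqv D c' c ∧ RI.K D w c' e := by
  have hD := hR.toRI
  have hc := h.xt.mem
  have k : ∀ c' ∈ {x | x ∈ D ∧ Eqv D c x}, RI.K D w c' (w * c' * w * c') ∧ Eqv D d (w * c' * w * c') := by
    rintro c' ⟨h1, h2⟩
    obtain ⟨e, m1, k⟩ := (h.eqv_right hR hd h1 h2.symm).K hR hw fun c => n ((h2 w hw.mem).2 c)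
    rw [k.eq]
    exact ⟨k, (((hR.mem_EE hd).1 m1).resolve_left (hD.ne _ (k.hc hD))).2⟩
  have inj : Set.InjOn (fun x => w * x * w * x) {x | x ∈ D ∧ Eqv D c x} := fun x hx x' hx' e1 => by
    have a1 := ((k x hx).1.symm hD).act hD
    have a2 := ((k x' hx').1.symm hD).act hD
    simp only at e1
    rw [e1, ← a2] at a1
    have := hR.eq_one hc (mul_mem (inv_mem (RI.mem_EE hx'.1 hx'.2)) (RI.mem_EE hx.1 hx.2)) hw.mem
      (commute_of_conj_eq (by rw [cj_cj, a1]; group)).symm n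
    exact (inv_mul_eq_one.1 this).symm
  obtain ⟨g, hg, rfl⟩ := hR.cl c hc d hd
  have := Set.eq_of_subset_of_ncard_le (s := (fun x => w * x * w * x) '' {x | x ∈ D ∧ Eqv D c x})
    (t := {x | x ∈ D ∧ Eqv D (g * c * g⁻¹) x}) (by rintro _ ⟨x, hx, rfl⟩; exact ⟨(k x hx).1.hc hD, (k x hx).2⟩)
    (by
      rw [inj.ncard_image]
      refine le_of_eq (ncard_eq_of_conj g fun y => ⟨fun hy => ⟨?_, ?_⟩, fun hy => ⟨?_, ?_⟩⟩)
      · simpa using hD.conj_closure (inv_mem hg) hy.1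
      · simpa [mul_assoc] using hy.2.conj hD (inv_mem hg)
      · simpa [mul_assoc] using hD.conj_closure hg hy.1
      · simpa [mul_assoc] using hy.2.conj hD hg)
  obtain ⟨x, hx, e1⟩ := this.ge ⟨he, q⟩
  exact ⟨x, hx.1, hx.2.symm, e1 ▸ (k x hx).1⟩

theorem Good.G1 (hR : HE D) (hd : d ∈ D) (h : Good D d c) (hw : XT D d w) (n : ¬ Commute w c) : Good D d w := by
  have hD := hR.toRI
  have n1 : ¬ Eqv D d w := fun q => n ((q c h.xt.mem).1 h.xt.cm).symm
  refine ⟨hw, n1, fun e he => EE.commute he hw.mem hw.cm, fun v hv => ?_⟩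
  by_cases cv : Commute w v
  · exact ⟨1, one_mem _, by rw [conj_of_commute cv, mul_one]⟩
  obtain ⟨g, k⟩ := exists_K hD hw.mem hv.mem cv (hw.not_od hD hv.mem hv.cm)
  refine ⟨g, ?_, k.act hD⟩
  obtain ⟨e, he, q, hv⟩ := hv
  obtain ⟨c', hc', q', k1⟩ := h.bij hR hd hw n he q
  obtain ⟨t, k2⟩ := (k1.symm hD).next hD hR.cl
  obtain ⟨y, k3⟩ := k.next hD hR.cl
  obtain ⟨v', -, k4, x1, -⟩ := lemV hD k (k1.xa hD) (hv.symm he) k3
  obtain ⟨g', k5, k6, x2, -⟩ := lemV hD (k4.symm hD) (x1.symm (k.hc hD)) (k.xa hD) k2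
  have o := T2 hD (k1.symm hD) k2
  obtain ⟨e', m1, k7⟩ := (h.eqv_right hR hd hc' q').K hR ⟨e, he, q, x2⟩
    ((k5.xa hD).not_comm hD hc' o.od.symm)
  have k8 := T3 hD o.symm (k5.xa hD) (k7.symm hD)
  have q1 := (q.symm.trans (((hR.mem_EE hd).1 m1).resolve_left (hD.ne _ (k7.hc hD))).2).conj hD (mcl3 hc' k2.ha)
  rw [swap3 hD k2 (k1.symm hD), swap3 hD k8 (k7.symm hD)] at q1
  have q2 := q1.conj hD (mcl3 k2.ha k4.hb)
  rw [swap3 hD (k4.symm hD) k2, swap3 hD k6 k5] at q2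
  exact RI.mem_EE (k.hc hD) (q.trans q2)

theorem Good.of_K (hR : HE D) (hd : d ∈ D) (h : Good D d c) (k : RI.K D c2 c d) : Good D d c2 :=
  h.G1 hR hd (XT.of_xp hd ((k.xa hR.toRI).symm k.ha)) (k.nc hR.toRI)

theorem Good.F2 (hR : HE D) (hd : d ∈ D) (h : Good D d c) (k : RI.K D c2 c d) (c1 : Commute u d)
    (c3 : Commute u c2) (hu : u * c ∈ D) : RR D d u := by
  have hD := hR.toRI
  have h1 := hD.conj_closure (mcl k.ha) hu
  rw [cj_mul, conj_of_commute c3.symm, k.act hD] at h1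
  have n : ¬ Commute (u * c) c2 := fun e => k.nc hD (by simpa using (c3.inv_left.mul_left e).symm)
  have c4 : Commute d (u * c) := c1.symm.mul_right h.xt.cm.symm
  have := ((h.of_K hR hd k).G1 hR hd (XT.of_xp hd ⟨hu, c4, fun e => n (e ▸ (k.ca hD).symm),
    by rw [c4.eq, mul_assoc]; exact h1⟩) n).rr.mul h.rr
  rwa [mul_assoc, hD.sq c k.hb, mul_one] at this

theorem Good.bad1 (hR : HE D) (hd : d ∈ D) (h : Good D d c) (k : RI.K D c2 c d) (ky : RI.K D y d c) (hu : XP D d u)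
    (hn : ¬ RR D d u) : Commute u c ∧ Commute u c2 ∧ ∃ g h, RI.K D y u g ∧ RI.K D c2 g h ∧ Commute y (u * h) := by
  have hD := hR.toRI
  have c1 : Commute u c := by_contra fun n => hn (h.G1 hR hd (XT.of_xp hd hu) n).rr
  have c3 : Commute u c2 := by_contra fun n => hn ((h.of_K hR hd k).G1 hR hd (XT.of_xp hd hu) n).rr
  obtain ⟨g, k1⟩ := exists_K hD ky.ha hu.1 (fun c4 => hn (h.F2 hR hd k hu.cm.symm c3 (by
      have := hD.conj_closure (mcl3 k.ha ky.ha) hu.2.2.2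
      rwa [cj_mul, swap3 hD ky k, conj_of_commute ((c3.symm.mul_left c4).mul_left c3.symm), ← c1.eq] at this)))
    (((ky.xa hD).symm ky.ha).not_od hD k.hb hu.1 c1.symm.eq)
  obtain ⟨h', k2, -, c4⟩ := T5 hD (T2 hD k ky) c3.symm k1
  exact ⟨c1, c3, g, h', k1, k2, c4⟩

theorem Good.bad2 (hR : HE D) (hd : d ∈ D) (h : Good D d c) (k : RI.K D c2 c d) (ky : RI.K D y d c) (hu : XP D d u)
    (hn : ¬ RR D d u) : ∃ h, Commute y (u * h) ∧ Commute u h ∧ RR D d h ∧ XP D h c2 ∧ XP D d h := by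
  have hD := hR.toRI
  obtain ⟨c1, c3, g, h1, k1, k2, c4⟩ := h.bad1 hR hd k ky hu hn
  obtain ⟨-, -, g', h2, k3, k4, -⟩ := h.bad1 hR hd k ky (hu.mul hD hd) fun r => hn (by
    have := (RR.of_EE hd (self_EE hd)).mul r
    rwa [hD.sq_assoc hd] at this)
  have cd : Commute c d := h.xt.cm
  have gd : Commute d g := k1.commute' hD hu.cm (by
    have := commute_cj (hu.cm.mul_left c1.symm) y
    rwa [← ky.act hD, ← cj_cj, hD.sq y ky.ha, one_mul, inv_one, mul_one] at this)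
  have gc : Commute c g := k1.commute (ky.ca hD).symm c1.symm
  have hc : Commute c h1 := k2.commute' hD gc (by
    have := commute_cj (gc.mul_left gd) c2
    rwa [← k.act hD, ← cj_cj, hD.sq c2 k.ha, one_mul, inv_one, mul_one] at this)
  have hd' : Commute d h1 := k2.commute (k.ca hD).symm gd
  have e1 : g' = c * g := k3.eq_of_act hD (by
    rw [cj_mul, ky.act hD, k1.act hD, mul_assoc, mul_assoc, ← mul_assoc c, ← c1.eq, mul_assoc])
  have e2 : h2 = d * h1 := k4.eq_of_act hD (by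
    rw [e1, cj_mul, k.act hD, k2.act hD, mul_assoc, mul_assoc, ← mul_assoc d, gd.eq, mul_assoc])
  have m2 : d * h1 ∈ D := e2 ▸ k4.hc hD
  have x1 := (k2.xa hD).symm k.ha
  exact ⟨h1, c4, k2.commute c3 (k1.cb hD), (h.of_K hR hd k).F2 hR hd (k.symm hD) hd'.symm hc.symm x1.2.2.2, x1,
    k2.hc hD, hd', fun e => hD.ne _ m2 (by rw [e, hD.sq d hd]), m2⟩

theorem Good.all (hR : HE D) (hd : d ∈ D) (h : Good D d c) (ha : XP D d a) : RR D d a := by
  have hD := hR.toRI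
  by_contra hn
  obtain ⟨c2, k⟩ := h.partner hR hd
  obtain ⟨y, ky⟩ := k.next hD hR.cl
  obtain ⟨b, kb⟩ := T1 hD hR.cl ha.1 (ha.symm hd) fun q => hn (RR.of_EE hd (RI.mem_EE ha.1 q.symm))
  have hb := (kb.xa hD).symm kb.ha
  have sep : ∀ {u v}, XP D d u → XP D d v → RR D d u → ¬ RR D d v → Commute v u := fun {u v} hu hv r1 r2 => by
    by_contra n
    exact r2 (Good.G1 hR hd ⟨XT.of_xp hd hu, fun q => n ((q v hv.1).1 hv.cm.symm), r1⟩ (XT.of_xp hd hv) n).rr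
  have hn' : ¬ RR D d b := fun r => kb.nc hD (sep hb ha r hn).symm
  obtain ⟨h1, y1, a1, r1, x1, z1⟩ := h.bad2 hR hd k ky ha hn
  obtain ⟨h2, y2, a2, r2, x2, z2⟩ := h.bad2 hR hd k ky hb hn'
  have b1 := sep z1 hb r1 hn'
  have b2 := sep z2 ha r2 hn
  obtain ⟨e, m1, e1⟩ := r1.2 h2 (XT.of_xp hd z2)
  have e2 : a * h1 * (b * h2) * (a * h1)⁻¹ = b * h2 * (d * e) := by
    rw [cj_cj, cj_mul h1, conj_of_commute b1.symm, e1, cj_mul, cj_mul, (kb.symm hD).act hD, conj_of_commute b2,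
      conj_of_commute (EE.commute m1 ha.1 ha.cm.symm), mul_assoc, mul_assoc, ← mul_assoc d, z2.cm.eq, mul_assoc]
  have c5 : Commute y (d * e) := by
    have := y2.inv_right.mul_right ((y1.mul_right y2).mul_right y1.inv_right)
    rwa [e2, inv_mul_cancel_left] at this
  have e3 := hR.eq_one hd (mul_mem (self_EE hd) m1) ky.ha c5 (ky.nc hD)
  rw [← hD.inv hd, inv_mul_eq_one] at e3
  subst e3
  have k1 : RI.K D h1 h2 d := K.of_act hD z1.1 z2.1 (hD.ne d hd) (z1.not_od hD hd z2.1 z2.cm) e1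
  obtain ⟨y', k2⟩ := k1.next hD hR.cl
  obtain ⟨b', -, k3, x3, -⟩ := lemV hD k1 x1 x2 k2
  exact k.nc hD (EE.commute (r1.K hD (XT.of_xp hd x3) k3) k.hb h.xt.cm).symm

end CfsgH7.RI
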