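import Cfsg.Agent.H7.RS2

/-! Root involutions (helper7): the root structure theorem. -/

set_option autoImplicit false
set_option linter.unusedSectionVars false

namespace CfsgH7.RI
open Cfsg CfsgH9 Subgroup

variable {G : Type*} [Group G] [Finite G] {D : Set G}
  {a a' b b' c c' c2 d d' e e' f g h m n p q r s t u v w x x' y z : G}

/-- isolated vertices among the members commuting with `d` -/
def Wd (D : Set G) (d : G) : Set G := {w | w ∈ D ∧ Commute w d ∧ ∀ x ∈ D, Commute x d → ¬ Od w x}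

theorem Wd.conj (hD : RI D) (hw : w ∈ Wd D d) (hg : g ∈ closure D) (c : Commute g d) : g * w * g⁻¹ ∈ Wd D d :=
  ⟨hD.conj_closure hg hw.1, (commute_conj_left c).2 hw.2.1, fun x hx cx o => hw.2.2 _
    (hD.conj_closure (inv_mem hg) hx) ((commute_conj_left c.inv_left).2 cx) (by
      have := o.conj g⁻¹
      rwa [show g⁻¹ * (g * w * g⁻¹) * g⁻¹⁻¹ = w by group] at this)⟩

theorem Wd.pgroup (hD : RI D) (d : G) : IsPGroup 2 (closure (Wd D d)) :=
  isPGroup_closure_of_not_od hD (fun _ h => h.1)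
    (fun a ha b hb => by nth_rewrite 2 [← hD.inv ha.1]; exact Wd.conj hD hb (mcl ha.1) ha.2.1)
    fun a ha b hb => ha.2.2 b hb.1 hb.2.1

theorem XT.wd (hD : RI D) (h : XT D d v) : v ∈ Wd D d := ⟨h.mem, h.cm, fun _ hx c => h.not_od hD hx c⟩

theorem Wd.of_mem (hD : RI D) (hp : p ∈ D) (h : p ∈ closure (Wd D d)) : p ∈ Wd D d := by
  have k : ∀ u ∈ closure (Wd D d), Commute u d := fun u hu =>
    closure_induction (fun x hx => hx.2.1) (Commute.one_left d) (fun _ _ _ _ h1 h2 => h1.mul_left h2)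
      (fun _ _ h => h.inv_left) hu
  refine ⟨hp, k p h, fun x hx c o => o.not_sq_mem hD hp (Wd.pgroup hD d) ?_⟩
  have := (le_normalizer_closure (S := zpowers x) (T := Wd D d) (fun s hs t ht => by
    obtain ⟨k, rfl⟩ := hs
    exact Wd.conj hD ht (zpow_mem (mcl hx) k) (c.zpow_left k)) (mem_zpowers x) p).1 h
  rw [hD.inv hx] at this
  have := mul_mem h this
  rwa [pow_two, ← mul_assoc, mul_assoc p x p, mul_assoc p]

theorem exists_good (hR : HE D) (ha : a ∈ D) (hb : b ∈ D) (h4 : Fo a b) (hd : d ∈ D) : ∃ c, Good D d c := by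
  have hD := hR.toRI
  obtain ⟨c, k⟩ := K.of_fo ha hb h4
  suffices h : ∃ u, Good D c u by
    obtain ⟨u, hu⟩ := h
    obtain ⟨g, hg, rfl⟩ := hR.cl c (k.hc hD) d hd
    exact ⟨_, hu.conj hD hg⟩
  have hc := k.hc hD
  by_contra hn
  refine descent (Wd.pgroup hD c) (A := {w | w ∈ Wd D c ∧ ¬ Eqv D c w}) (fun t ht => subset_closure ht.1)
    (fun h => hD.ne 1 h.1.1 rfl) (t := b) ⟨(XT.of_xp hc ((k.xb hD).symm hb)).wd hD, k.not_eqv hD⟩ fun t ht => ?_
  by_contra H
  have r : RR D c t := ⟨fun e he => EE.commute he ht.1.1 ht.1.2.1, fun v hv => by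
    by_cases cv : Commute t v
    · exact ⟨1, one_mem _, by rw [conj_of_commute cv, mul_one]⟩
    obtain ⟨g, k1⟩ := exists_K hD ht.1.1 hv.mem cv (ht.1.2.2 v hv.mem hv.cm)
    have e1 : (t * v * t⁻¹ * v⁻¹) ^ 1 = g := by rw [pow_one, hD.inv ht.1.1, hD.inv hv.mem, k1.eq]
    refine ⟨g, RI.mem_EE (k1.hc hD) (by_contra fun q => H ⟨v, subset_closure (hv.wd hD), 1, ?_, e1 ▸ q⟩),
      k1.act hD⟩
    rw [e1]
    refine Wd.of_mem hD (k1.hc hD) (k1.eq ▸ ?_)
    have m1 := subset_closure (k := Wd D c) ht.1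
    have m2 := subset_closure (k := Wd D c) (hv.wd hD)
    exact mul_mem (mul_mem (mul_mem m1 m2) m1) m2⟩
  exact hn ⟨t, XT.of_xp hc (lemS2 hR ht.1.1 hc ht.1.2.1 ht.2 ht.1.2.2 r), ht.2, r⟩

/-- non-degenerate class with `E(d) = E_d ∪ 1` -/
structure HN (D : Set G) : Prop extends HE D where
  fo : ∃ a ∈ D, ∃ b ∈ D, Fo a b

theorem HN.good (hR : HN D) (hd : d ∈ D) : ∃ c, Good D d c := by
  obtain ⟨a, ha, b, hb, h⟩ := hR.fo
  exact exists_good hR.toHE ha hb h hd

theorem HN.rr (hR : HN D) (h : XT D d v) : RR D d v := by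
  obtain ⟨e, he, q, h⟩ := h
  obtain ⟨c, hc⟩ := hR.good he
  exact (hc.all hR.toHE he h).eqv q

theorem HN.good_of (hR : HN D) (hd : d ∈ D) (h : XP D d v) (n : ¬ Eqv D d v) : Good D d v :=
  ⟨XT.of_xp hd h, n, hR.rr (XT.of_xp hd h)⟩

/-- (B): commutators of two partners of `d` lie in `E(d)` -/
theorem HN.lemB (hR : HN D) (hd : d ∈ D) (k : K D a b c) (ha : XP D d a) (hb : XP D d b) : Eqv D d c :=
  (((hR.mem_EE hd).1 ((hR.rr (XT.of_xp hd ha)).K hR.toRI (XT.of_xp hd hb) k)).resolve_left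
    (hR.ne _ (k.hc hR.toRI))).2

theorem HE.xp_of_eqv (hR : HE D) (hd : d ∈ D) (he : e ∈ D) (q : Eqv D d e) (n : e ≠ d) : XP D d e :=
  ⟨he, q.commute hd, n, hR.p2 d hd e he q n.symm⟩

/-- (A): isolated vertices are partners -/
theorem HN.lemA (hR : HN D) (hd : d ∈ D) (hw : w ∈ Wd D d) (hne : w ≠ d) : XP D d w := by
  have hD := hR.toRI
  by_cases q : Eqv D d w
  · exact hR.xp_of_eqv hd hw.1 q hne
  obtain ⟨y, n, f, o, k1, k2, k3, c2⟩ := lemS hD hR.cl hw.1 hd hw.2.1 q hw.2.2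
  have x1 := k1.xb hD
  have x2 := x1.conj hD (mcl hw.1)
  rw [conj_of_commute hw.2.1, k2.act hD] at x2
  have r : RR D d f := by
    have := (hR.rr (XT.of_xp hd x1)).mul (hR.rr (XT.of_xp hd x2))
    rwa [hD.sq_assoc x1.1] at this
  have hf := k2.hc hD
  by_cases q1 : Eqv D d f
  · have := hR.eq_one hd (mul_mem (self_EE hd) (RI.mem_EE hf q1)) o.hy c2 (k1.nc hD)
    rw [← hD.inv hd, inv_mul_eq_one] at this
    exact (this ▸ k2.xa hD).symm hw.1
  have w1 : f ∈ Wd D d := Wd.of_mem hD hf (by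
    have := mul_mem (subset_closure (k := Wd D d) ((XT.of_xp hd x1).wd hD))
      (subset_closure (k := Wd D d) ((XT.of_xp hd x2).wd hD))
    rwa [hD.sq_assoc x1.1] at this)
  obtain ⟨s, k4⟩ := T1 hD hR.cl hd (lemS2 hR.toHE hf hd w1.2.1 q1 w1.2.2 r) q1
  have xw := (k2.xa hD).symm hw.1
  obtain ⟨f', m1, e1⟩ := (hR.rr (XT.of_xp hf ((k4.xa hD).symm k4.ha))).2 w (XT.of_xp hf xw)
  have n1 : ¬ Od (w * f') y := fun o1 => hw.2.2 _ (hD.conj_closure (inv_mem (mcl k4.ha)) o.hy) (by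
      have := commute_cj c2 s⁻¹
      rwa [← k4.act hD, show s⁻¹ * (s * d * s⁻¹) * s⁻¹⁻¹ = d by group] at this) (by
      have := o1.conj s⁻¹
      rwa [← e1, show s⁻¹ * (s * w * s⁻¹) * s⁻¹⁻¹ = w by group] at this)
  rcases (hR.mem_EE hf).1 m1 with rfl | ⟨h1, h2⟩
  · exact absurd (by rw [mul_one]; exact o.od) n1
  have n2 : ¬ Od f' y := fun o1 => k3.fo.not_od (h2.symm.od' hD h1 hf o.hy o1).symm
  exact absurd (XP.od_mul hD hw.1 o.hy ⟨h1, (h2 w hw.1).1 (k2.ca hD), fun e => n2 (e ▸ o.od),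
    e1 ▸ hD.conj_closure (mcl k4.ha) hw.1⟩ o.od n2).symm n1

theorem wd_eq : {w | IsIsolatedElem (OddAdj (commutingMembers D d)) (commutingMembers D d) w} = Wd D d := by
  ext w
  exact ⟨fun h => ⟨h.1.1, h.1.2, fun x hx c o => (h.2 x).1 ⟨h.1, ⟨hx, c⟩, o⟩⟩,
    fun h => ⟨⟨h.1, h.2.1⟩, fun x => ⟨fun o => h.2.2 x o.2.1.1 o.2.1.2 o.2.2,
      fun o => h.2.2 x o.1.1 o.1.2 (Od.symm o.2.2)⟩⟩⟩

theorem HN.wd_eq (hR : HN D) (hd : d ∈ D) : Wd D d = productPartners D d ∪ {d} := by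
  ext w
  refine ⟨fun h => ?_, ?_⟩
  · by_cases e : w = d
    · exact Or.inr e
    · exact Or.inl (mem_productPartners.2 (hR.lemA hd h e))
  · rintro (h | rfl)
    · exact (XT.of_xp hd (mem_productPartners.1 h)).wd hR.toRI
    · exact ⟨hd, Commute.refl _, fun x hx c o => o.not_comm hR.toRI hd hx c.symm⟩

theorem scc_eq : sameCommutingClass D d = {e | e ∈ D ∧ Eqv D d e} := by
  ext e; exact and_congr_right fun _ => eqv_iff.symm

theorem scs_eq : sameCommutingSubgroup D d = EE D d := by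
  unfold sameCommutingSubgroup EE; rw [scc_eq]

theorem HN.rr_wd (hR : HN D) (hd : d ∈ D) (hw : w ∈ Wd D d) : RR D d w := by
  by_cases e : w = d
  · exact e ▸ RR.of_EE hw.1 (self_EE hw.1)
  · exact hR.rr (XT.of_xp hd (hR.lemA hd hw e))

theorem HN.comm_le (hR : HN D) (hd : d ∈ D) : ⁅closure (Wd D d), closure (Wd D d)⁆ ≤ EE D d := by
  have k1 : ∀ u ∈ closure (Wd D d), ∀ e ∈ EE D d, Commute u e := fun u hu e he =>
    closure_induction (fun x hx => EE.commute he hx.1 hx.2.1) (Commute.one_left e)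
      (fun _ _ _ _ h1 h2 => h1.mul_left h2) (fun _ _ h => h.inv_left) hu
  have k2 : ∀ u ∈ Wd D d, ∀ v ∈ Wd D d, u * v * u⁻¹ * v⁻¹ ∈ EE D d := fun u hu v hv => by
    by_cases e : v = d
    · rw [e, conj_of_commute hu.2.1, mul_inv_cancel]; exact one_mem _
    obtain ⟨e, m1, e1⟩ := (hR.rr_wd hd hu).2 v (XT.of_xp hd (hR.lemA hd hv e))
    rwa [e1, conj_of_commute (EE.commute m1 hv.1 hv.2.1)]
  have k3 : ∀ S : Set G, (∀ u ∈ S, ∀ e ∈ EE D d, Commute u e) → ∀ v, (∀ u ∈ S, u * v * u⁻¹ * v⁻¹ ∈ EE D d) →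
      ∀ u ∈ closure S, (∀ e ∈ EE D d, Commute u e) ∧ u * v * u⁻¹ * v⁻¹ ∈ EE D d := fun S h1 v h2 u hu => by
    induction hu using closure_induction with
    | mem x hx => exact ⟨h1 x hx, h2 x hx⟩
    | one => exact ⟨fun e _ => Commute.one_left e, by simp⟩
    | mul x y _ _ ihx ihy =>
      refine ⟨fun e he => (ihx.1 e he).mul_left (ihy.1 e he), ?_⟩
      have := mul_mem ihy.2 ihx.2
      rw [← conj_of_commute (ihx.1 _ ihy.2)] at this
      convert this using 1; group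
    | inv x _ ih =>
      refine ⟨fun e he => (ih.1 e he).inv_left, ?_⟩
      have := inv_mem ih.2
      rw [← conj_of_commute (ih.1 _ this).inv_left] at this
      convert this using 1; group
  rw [commutator_le]
  intro u hu v hv
  refine (k3 _ (fun u hu => k1 u (subset_closure hu)) v (fun u hu => ?_) u hu).2
  have := inv_mem (k3 _ (fun u hu => k1 u (subset_closure hu)) u (fun v hv => k2 v hv u hu) v hv).2
  convert this using 1; group

theorem s5055 (hD : IsNondegenerateRootInvolutionSet D) (hcl : IsRootInvolutionClass D)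
    (hE : ∀ d ∈ D, (sameCommutingSubgroup D d : Set G) = sameCommutingClass D d ∪ {1}) (hd : d ∈ D) :
    closure {w | IsIsolatedElem (OddAdj (commutingMembers D d)) (commutingMembers D d) w} =
      closure (productPartners D d ∪ {d}) ∧
    D ∩ (closure (productPartners D d ∪ {d}) : Set G) = productPartners D d ∪ {d} ∧
    ⁅closure (productPartners D d ∪ {d}), closure (productPartners D d ∪ {d})⁆ = sameCommutingSubgroup D d ∧
    sameCommutingClass D d = {e | e ∈ D ∧ e ∈ closure (productPartners D d ∪ {d}) ∧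
      ∀ y ∈ closure (productPartners D d ∪ {d}), e * y = y * e} := by
  have hI := RI.of_set hD.1
  have hR : HN D := ⟨⟨hI, oneClass_of_class hcl, fun e he f hf q n => by
    have : e * f ∈ sameCommutingClass D e ∪ {1} := by
      rw [← hE e he, scs_eq]; exact mul_mem (self_EE he) (RI.mem_EE hf q)
    rcases this with h | h
    · exact h.1
    · rw [← hI.inv he, Set.mem_singleton_iff, inv_mul_eq_one] at h; exact absurd h n⟩, hD.2.2.2⟩
  have we : ∀ e ∈ D, Eqv D d e → e ∈ Wd D d := fun e he q =>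
    ⟨he, (q.commute hd).symm, fun x hx c o => o.not_comm hI he hx ((q x hx).1 c).symm⟩
  rw [wd_eq, ← hR.wd_eq hd, scs_eq, scc_eq]
  refine ⟨rfl, Set.ext fun p => ⟨fun h => Wd.of_mem hI h.1 h.2, fun h => ⟨h.1, subset_closure h⟩⟩,
    le_antisymm (hR.comm_le hd) ((closure_le _).2 fun e he => ?_), Set.ext fun e => ⟨fun he => ⟨he.1,
      subset_closure (we e he.1 he.2), fun y hy => ?_⟩, fun he => ⟨he.1, by_contra fun q => ?_⟩⟩⟩
  · obtain ⟨c, hc⟩ := hR.good he.1
    obtain ⟨n, k⟩ := hc.partner hR.toHE he.1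
    have := commutator_mem_commutator
      (subset_closure (k := Wd D d) (((hc.of_K hR.toHE he.1 k).xt.eqv he.2).wd hI))
      (subset_closure (k := Wd D d) ((hc.xt.eqv he.2).wd hI))
    rwa [commutatorElement_def, hI.inv k.ha, hI.inv k.hb, k.eq] at this
  · exact closure_induction (p := fun y _ => Commute e y) (fun x hx => ((he.2 x hx.1).1 hx.2.1).symm)
      (Commute.one_right e) (fun _ _ _ _ h1 h2 => h1.mul_right h2) (fun _ _ h => h.inv_right) hy
  · obtain ⟨n, k⟩ := (hR.good_of hd (hR.lemA hd (Wd.of_mem hI he.1 he.2.1) fun e1 => q (e1 ▸ Eqv.refl D e)) q).partner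
      hR.toHE hd
    exact k.nc hI (Eq.symm (he.2.2 n (subset_closure ((XT.of_xp hd ((k.xa hI).symm k.ha)).wd hI))))

end CfsgH7.RI
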