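import Cfsg.Agent.H7.RS3

/-! Root involutions (helper7): the structure of `X_d` without the closure hypothesis on `E_d`. -/

set_option autoImplicit false
set_option linter.unusedSectionVars false

namespace CfsgH7.RI
open Cfsg CfsgH9 Subgroup

variable {G : Type*} [Group G] [Finite G] {D : Set G}
  {a a' b b' c c' c2 d d' e e' f g h m n p q r s t u v v' w x x' y z : G}

structure HC (D : Set G) : Prop extends RI D where
  cl : OneClass D

theorem HC.eqv (hR : HC D) (hd : d ∈ D) (hz : z ∈ EE D d) (h : z ∈ D) : Eqv D d z :=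
  eqv_of_sub hR.toRI hR.cl hd h fun _ hy c => EE.commute hz hy c

theorem HC.eqvK (hR : HC D) (hd : d ∈ D) (h : RR D d u) (hv : XT D d v) (k : K D u v g) : Eqv D d g :=
  hR.eqv hd (h.K hR.toRI hv k) (k.hc hR.toRI)

theorem Eqv.not_od (hD : RI D) (h : Eqv D a b) (ha : a ∈ D) (hb : b ∈ D) (hy : y ∈ D) (o : ¬ Od y a) : ¬ Od y b :=
  fun o' => o (h.symm.od' hD hb ha hy o'.symm).symm

theorem K.eqv_right (hD : RI D) (k : K D t e w) (he : e' ∈ D) (q : Eqv D e e') : ∃ g, K D t e' g :=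
  exists_K hD k.ha he (fun c => k.nc hD ((q t k.ha).2 c)) (q.not_od hD k.hb he k.ha k.fo.not_od)

theorem O3.mem (hD : RI D) (o : O3 D a y) : a * y * a ∈ D := hD.conj a o.ha y o.hy

theorem cj_inv (hD : RI D) (hs : s ∈ D) (h : s * a * s⁻¹ = b) : s * b * s⁻¹ = a := by
  rw [← h, ← cj_cj, hD.sq s hs]; group

theorem O3.cj (hD : RI D) (o : O3 D a y) : a * y * a * a * (a * y * a)⁻¹ = y := by
  rw [cj_cj, mul_inv_cancel_right, cj_cj, hD.inv o.hy, ← o.eq, ← mul_assoc, ← mul_assoc, hD.sq a o.ha, one_mul,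
    mul_inv_cancel_right]

theorem commute3 (h1 : Commute g a) (h2 : Commute g y) : Commute g (a * y * a) := (h1.mul_right h2).mul_right h1

/-- a member of `D` normalising `E_d` centralises it -/
theorem HC.cm_of_eqv (hR : HC D) (hx : x ∈ D) (hd : d ∈ D) (q : Eqv D d (x * d * x⁻¹)) : Commute x d := by
  have hD := hR.toRI
  by_contra n
  by_cases o : Od x d
  · exact nc hD hd (hD.conj x hx d hd) (o.symm.conj_self hD hd hx) (by have := q.commute hd; rwa [hD.inv hx] at this)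
  obtain ⟨g, k⟩ := exists_K hD hx hd n o
  have h1 := hD.conj_closure (mcl hx) hd
  have := mul_mem (self_EE hd) (RI.mem_EE h1 q)
  rw [k.act hD, hD.sq_assoc hd] at this
  exact k.not_eqv hD (hR.eqv hd this (k.hc hD)).symm

theorem exists_rot (ha : a * a = 1) (hb : b * b = 1) (o : Od a b) :
    ∃ k : ℕ, (a * b) ^ k * b * ((a * b) ^ k)⁻¹ = a := by
  obtain ⟨k, hk⟩ := o.2
  have hi : b * (a * b) * b⁻¹ = (a * b)⁻¹ := CfsgH4.dih_inv_right ha hb
  have h1 := CfsgH4.inverts_pow hi (k + 1)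
  refine ⟨k + 1, ?_⟩
  rw [← h1]
  calc _ = (a * b) ^ (k + 1) * (b * b) * (a * b) ^ (k + 1) * b⁻¹ := by group
    _ = (a * b) ^ (2 * k + 1) * a := by
      rw [hb, mul_one, ← pow_add, show k + 1 + (k + 1) = 2 * k + 1 + 1 by ring, pow_succ]; group
    _ = a := by rw [← hk, pow_orderOf_eq_one, one_mul]

theorem eqv_pow (hD : RI D) (hg : g ∈ closure D) (q : Eqv D d (g * d * g⁻¹)) (k : ℕ) :
    Eqv D d (g ^ k * d * (g ^ k)⁻¹) := by
  induction k with
  | zero => simpa using Eqv.refl D d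
  | succ k ih => rw [pow_succ', cj_cj]; exact q.trans (ih.conj hD hg)

theorem Good.CI (hR : HC D) (hd : d ∈ D) (h : Good D d c) (k1 : RI.K D c w e) (k2 : RI.K D t e w) (q : Eqv D d e)
    (he : e' ∈ D) (q' : Eqv D d e') :
    ∃ g h, RI.K D t e' g ∧ RI.K D c g h ∧ RI.K D t h g ∧ Commute t (e' * h) ∧ Eqv D d h ∧ Eqv D w g := by
  have hD := hR.toRI
  obtain ⟨g, k3⟩ := k2.eqv_right hD he (q.symm.trans q')
  obtain ⟨h', k4, k5, c1⟩ := T5 hD (T2 hD k1 k2) ((q' c k1.ha).1 h.xt.cm) k3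
  have q1 := hR.eqvK hd h.rr ⟨e', he, q', k3.xb hD⟩ k4
  have q2 := (q.symm.trans q1).conj hD (mcl3 k1.ha k2.ha)
  rw [swap3 hD k2 k1, swap3 hD k5 k4] at q2
  exact ⟨g, h', k3, k4, k5, c1, q1, q2⟩

theorem Good.lemR (hR : HC D) (hd : d ∈ D) (h : Good D d c) (hw : XP D d w) (n : ¬ Commute w c)
    (kv : RI.K D v w d) (kt : RI.K D t d w) (he : e' ∈ D) (q' : Eqv D d e') (k : RI.K D t e' g) : Eqv D w g := by
  have hD := hR.toRI
  have hc := h.xt.mem
  have fin : ∀ {c e}, Good D d c → RI.K D c w e → RI.K D t e w → Eqv D d e → Eqv D w g := fun h k1 k2 q => by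
    obtain ⟨g', -, k3, -, -, -, -, q2⟩ := h.CI hR hd k1 k2 q he q'
    rwa [← k.eq, k3.eq]
  obtain ⟨e, k1⟩ := exists_K hD hc hw.1 (fun c => n (Commute.symm c))
    fun o => hw.not_od hD hd hc h.xt.cm.symm.eq o.symm
  have q := hR.eqvK hd h.rr (XT.of_xp hd hw) k1
  have he := k1.hc hD
  obtain ⟨s, k2⟩ := k1.next hD hR.cl
  have m1 := (T2 hD kv kt).mem hD
  have m2 := (T2 hD k1 k2).mem hD
  have a1 := swap3 hD kt kv
  have a2 := swap3 hD k2 k1
  have a3 := cj_inv hD m1 a1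
  have a4 := cj_inv hD m2 a2
  have tz : ∀ z ∈ EE D w, d * z ∈ D → Eqv D d (d * z) → RI.K D t (d * z) w := fun z m3 m4 q1 =>
    K.of_act hD kt.ha m4 (hD.ne _ hw.1) (q1.not_od hD hd m4 kt.ha kt.fo.not_od) (by
      rw [cj_mul, kt.act hD, conj_of_commute (EE.commute m3 kt.ha (kt.ca hD)), mul_assoc, mul_assoc,
        (EE.commute m3 hw.1 (Commute.refl w)).eq])
  generalize v * t * v = σ at m1 a1 a3
  by_cases o : Od σ (c * s * c)
  · obtain ⟨j, e1⟩ := exists_rot (hD.sq _ m1) (hD.sq _ m2) o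
    have m3 := mul_mem (mcl m1) (mcl m2)
    have q1 : Eqv D d (σ * (c * s * c) * d * (σ * (c * s * c))⁻¹) := by
      have := (q.conj hD (mcl m2)).conj hD (mcl m1)
      rw [a2, a3, ← cj_cj] at this
      exact this.symm
    have q2 : Eqv D w (σ * (c * s * c) * w * (σ * (c * s * c))⁻¹) := by
      have := q.conj hD (mcl m1)
      rwa [a1, ← a4, ← cj_cj] at this
    replace q1 := eqv_pow hD m3 q1 j
    replace q2 := eqv_pow hD m3 q2 j
    replace m3 := pow_mem m3 j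
    generalize (σ * (c * s * c)) ^ j = ρ at e1 q1 q2 m3
    have h1 := (h.conj hD m3).eqv_left q1
    rw [cj_mul, cj_mul] at e1
    obtain ⟨g1, h', k3, k4, k5, c1, q3, -⟩ := h1.CI hR hd (k1.conj hD m3) (k2.conj hD m3)
      (q1.trans (q.conj hD m3)) hd (Eqv.refl D d)
    have a5 := swap3 hD k5 k4
    have m4 := mul_mem (self_EE hd) (RI.mem_EE (k4.hc hD) q3)
    have c2 : Commute (ρ * c * ρ⁻¹) (d * h') := EE.commute m4 k4.ha h1.xt.cm
    have c3 : Commute σ (d * h') := e1 ▸ (commute3 c2.symm c1.symm).symm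
    have m5 := EE.conj hD (mcl m1) m4
    rw [a1, conj_of_commute c3] at m5
    have e2 : d * (d * h') = h' := hD.sq_assoc hd _
    have z2 := EE.sq hD hd m4
    have e3 : g1 = w * (d * h') := by rw [← a5, e1, ← e2, cj_mul, a1, conj_of_commute c3, e2]
    refine fin (e := h') h1 (K.of_act hD k4.ha hw.1 (hD.ne _ (k4.hc hD))
      (fun o => hw.not_od hD hd k4.ha h1.xt.cm.symm.eq o.symm) ?_) (e2 ▸ tz _ m5 (e2.symm ▸ k4.hc hD) (e2.symm ▸ q3)) q3
    have e4 : w = g1 * (d * h') := by rw [e3, mul_assoc, z2, mul_one]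
    have c4 : Commute h' (d * h') := EE.commute m4 (k4.hc hD) (q3.commute hd).symm
    conv_lhs => rw [e4, cj_mul, k4.act hD, conj_of_commute c2, mul_assoc, c4.eq, ← mul_assoc, ← e4]
  · obtain ⟨g1, -, k3, -, -, -, -, q1⟩ := h.CI hR hd k1 k2 q hd (Eqv.refl D d)
    have q2 := q1.conj hD (mcl hc)
    have k4 := (k3.conj hD (mcl hc)).act hD
    rw [conj_of_commute h.xt.cm] at k4
    rw [hD.inv hc] at k4
    rw [k1.act hD, hD.inv hc] at q2
    have q3 : Eqv D d (c * s * c * (σ * e * σ⁻¹) * (c * s * c)⁻¹) := by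
      have := (q.conj hD (mcl m1)).conj hD (mcl m2)
      rw [a1, a4] at this
      exact q.trans this
    have e1 : c * s * c * (σ * e * σ⁻¹) * (c * s * c)⁻¹ =
        c * s * c * σ * (c * s * c) * σ * d * (c * s * c * σ * (c * s * c) * σ)⁻¹ := by
      rw [cj_cj _ σ d, a1, cj_cj _ (c * s * c) w, a4, cj_cj _ σ e]
    have e2 : c * s * c * (σ * e * σ⁻¹) * (c * s * c)⁻¹ = d := by
      rw [e1] at q3 ⊢
      rcases hD.comm_mem_or m2 m1 (fun o' => o o'.symm) with e2 | m3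
      · rw [e2]; simp
      · exact conj_of_commute (hR.cm_of_eqv m3 hd q3)
    have e3 := cj_inv hD m2 e2
    have c1 : Commute σ (w * e) := hR.cm_of_eqv m1 ((k1.xb hD).2.2.2) (by
      rw [cj_mul, a3, ← e3, k4, hD.sq_assoc hd]; exact q2)
    have e4 := conj_of_commute c1
    rw [cj_mul, a3] at e4
    have q4 := q.conj hD (mcl m1)
    rw [a1] at q4
    have m3 := mul_mem (self_EE hw.1) (RI.mem_EE (hD.conj_closure (mcl m1) he) q4)
    have e5 : w * (σ * e * σ⁻¹) = d * e := by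
      rw [← hD.sq_assoc hd (σ * e * σ⁻¹), e4, ← mul_assoc, ← hw.cm.eq, mul_assoc, hD.sq_assoc hw.1]
    have e6 : d * (d * e) = e := hD.sq_assoc hd _
    exact fin h k1 (e6 ▸ tz _ (e5 ▸ m3) (e6.symm ▸ he) (e6.symm ▸ q)) q

theorem Good.G1' (hR : HC D) (hd : d ∈ D) (h : Good D d c) (hw : XT D d w) (n : ¬ Commute w c) : Good D d w := by
  have hD := hR.toRI
  have n1 : ¬ Eqv D d w := fun q => n ((q c h.xt.mem).1 h.xt.cm).symm
  refine ⟨hw, n1, fun e he => EE.commute he hw.mem hw.cm, fun v hv => ?_⟩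
  by_cases cv : Commute w v
  · exact ⟨1, one_mem _, by rw [conj_of_commute cv, mul_one]⟩
  obtain ⟨g0, k0⟩ := exists_K hD hw.mem hv.mem cv (hw.not_od hD hv.mem hv.cm)
  refine ⟨g0, RI.mem_EE (k0.hc hD) ?_, k0.act hD⟩
  have hc := h.xt.mem
  obtain ⟨e, k1⟩ := exists_K hD hc hw.mem (fun c => n (Commute.symm c)) fun o => hw.not_od hD hc h.xt.cm o.symm
  have q := hR.eqvK hd h.rr hw k1
  obtain ⟨t, k2⟩ := k1.next hD hR.cl
  have o := T2 hD k1 k2
  obtain ⟨e', he, q', hv⟩ := hv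
  obtain ⟨w', -, k3, -, -, -, -, qw⟩ := h.CI hR hd k1 k2 q he q'
  obtain ⟨g, k⟩ := (k0.symm hD).eqv_right hD (k3.hc hD) qw
  replace k := k.symm hD
  obtain ⟨y, k4⟩ := k.next hD hR.cl
  obtain ⟨v', -, k5, x1, -⟩ := lemV hD k ((k3.xb hD).symm he) (hv.symm he) k4
  obtain ⟨g', k6, k7, x2, -⟩ := lemV hD (k5.symm hD) (x1.symm (k.hc hD)) (k.xa hD) k3
  obtain ⟨e'', k8⟩ := exists_K hD hc x2.1 (fun c => (k6.xa hD).not_comm hD hc o.od.symm (Commute.symm c))
    fun o => x2.not_od hD he hc ((q' c hc).1 h.xt.cm).symm.eq o.symm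
  have q1 := (q.symm.trans (hR.eqvK hd h.rr ⟨e', he, q', x2⟩ k8)).conj hD (mcl3 hc k2.ha)
  rw [swap3 hD k2 k1, swap3 hD (T3 hD o.symm (k6.xa hD) k8) k8] at q1
  have q2 := (qw.symm.trans q1).conj hD (mcl3 k2.ha k5.hb)
  rw [swap3 hD (k5.symm hD) k3, swap3 hD k7 k6] at q2
  replace q2 := q'.trans q2
  have hg := k.hc hD
  obtain ⟨s, k9⟩ := (k.symm hD).next hD hR.cl
  have o1 := T2 hD (k.symm hD) k9
  have m1 := o1.mem hD
  have a1 := swap3 hD k9 (k.symm hD)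
  have a2 := cj_inv hD m1 a1
  have k10 := (k0.symm hD).conj hD (mcl m1)
  rw [o1.cj hD] at k10
  have q3 := qw.symm.conj hD (mcl m1)
  rw [a2] at q3
  have q4 := (h.eqv_left q2.symm).lemR hR hg ((k.xa hD).symm k.ha) (fun c => n ((qw _ hc).2 c.symm).symm)
    (k.symm hD) k9 k10.hb q3 k10
  have q5 := q4.conj hD (mcl m1)
  rw [a2, cj_inv hD m1 rfl] at q5
  exact q2.trans q5

theorem Good.of_K' (hR : HC D) (hd : d ∈ D) (h : Good D d c) (k : RI.K D c2 c d) : Good D d c2 :=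
  h.G1' hR hd (XT.of_xp hd ((k.xa hR.toRI).symm k.ha)) (k.nc hR.toRI)

theorem Good.F2' (hR : HC D) (hd : d ∈ D) (h : Good D d c) (k : RI.K D c2 c d) (c1 : Commute u d)
    (c3 : Commute u c2) (hu : u * c ∈ D) : RR D d u := by
  have hD := hR.toRI
  have h1 := hD.conj_closure (mcl k.ha) hu
  rw [cj_mul, conj_of_commute c3.symm, k.act hD] at h1
  have n : ¬ Commute (u * c) c2 := fun e => k.nc hD (by simpa using (c3.inv_left.mul_left e).symm)
  have c4 : Commute d (u * c) := c1.symm.mul_right h.xt.cm.symm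
  have := ((h.of_K' hR hd k).G1' hR hd (XT.of_xp hd ⟨hu, c4, fun e => n (e ▸ (k.ca hD).symm),
    by rw [c4.eq, mul_assoc]; exact h1⟩) n).rr.mul h.rr
  rwa [mul_assoc, hD.sq c k.hb, mul_one] at this

theorem Good.bad1' (hR : HC D) (hd : d ∈ D) (h : Good D d c) (k : RI.K D c2 c d) (ky : RI.K D y d c) (hu : XP D d u)
    (hn : ¬ RR D d u) : Commute u c ∧ Commute u c2 ∧ ∃ g h, RI.K D y u g ∧ RI.K D c2 g h ∧ Commute y (u * h) := by
  have hD := hR.toRI
  have c1 : Commute u c := by_contra fun n => hn (h.G1' hR hd (XT.of_xp hd hu) n).rr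
  have c3 : Commute u c2 := by_contra fun n => hn ((h.of_K' hR hd k).G1' hR hd (XT.of_xp hd hu) n).rr
  obtain ⟨g, k1⟩ := exists_K hD ky.ha hu.1 (fun c4 => hn (h.F2' hR hd k hu.cm.symm c3 (by
      have := hD.conj_closure (mcl3 k.ha ky.ha) hu.2.2.2
      rwa [cj_mul, swap3 hD ky k, conj_of_commute ((c3.symm.mul_left c4).mul_left c3.symm), ← c1.eq] at this)))
    (((ky.xa hD).symm ky.ha).not_od hD k.hb hu.1 c1.symm.eq)
  obtain ⟨h', k2, -, c4⟩ := T5 hD (T2 hD k ky) c3.symm k1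
  exact ⟨c1, c3, g, h', k1, k2, c4⟩

theorem Good.bad2' (hR : HC D) (hd : d ∈ D) (h : Good D d c) (k : RI.K D c2 c d) (ky : RI.K D y d c) (hu : XP D d u)
    (hn : ¬ RR D d u) : ∃ h, Commute y (u * h) ∧ Commute u h ∧ RR D d h ∧ XP D h c2 ∧ XP D d h := by
  have hD := hR.toRI
  obtain ⟨c1, c3, g, h1, k1, k2, c4⟩ := h.bad1' hR hd k ky hu hn
  obtain ⟨-, -, g', h2, k3, k4, -⟩ := h.bad1' hR hd k ky (hu.mul hD hd) fun r => hn (by
    have := (RR.of_EE hd (self_EE hd)).mul r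
    rwa [hD.sq_assoc hd] at this)
  have cd : Commute c d := h.xt.cm
  have gd : Commute d g := k1.commute' hD hu.cm (by
    have := commute_cj (hu.cm.mul_left c1.symm) y
    rwa [← ky.act hD, ← cj_cj, hD.sq y ky.ha, one_mul, inv_one, mul_one] at this)
  have gc : Commute c g := k1.commute (ky.ca hD).symm c1.symm
  have hc : Commute c h1 := k2.commute' hD gc (by
    have := commute_cj (gc.mul_left gd) c2
    rwa [← k.act hD, ← cj_cj, hD.sq c2 k.ha, one_mul, inv_one, mul_one] at this)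
  have hd' : Commute d h1 := k2.commute (k.ca hD).symm gd
  have e1 : g' = c * g := k3.eq_of_act hD (by
    rw [cj_mul, ky.act hD, k1.act hD, mul_assoc, mul_assoc, ← mul_assoc c, ← c1.eq, mul_assoc])
  have e2 : h2 = d * h1 := k4.eq_of_act hD (by
    rw [e1, cj_mul, k.act hD, k2.act hD, mul_assoc, mul_assoc, ← mul_assoc d, gd.eq, mul_assoc])
  have m2 : d * h1 ∈ D := e2 ▸ k4.hc hD
  have x1 := (k2.xa hD).symm k.ha
  exact ⟨h1, c4, k2.commute c3 (k1.cb hD), (h.of_K' hR hd k).F2' hR hd (k.symm hD) hd'.symm hc.symm x1.2.2.2, x1,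
    k2.hc hD, hd', fun e => hD.ne _ m2 (by rw [e, hD.sq d hd]), m2⟩

theorem Good.all' (hR : HC D) (hd : d ∈ D) (h : Good D d c) (hx : XP D d c) (ha : XP D d a) : RR D d a := by
  have hD := hR.toRI
  by_contra hn
  obtain ⟨c2, k⟩ := T1 hD hR.cl hx.1 (hx.symm hd) fun q => h.ne q.symm
  obtain ⟨y, ky⟩ := k.next hD hR.cl
  obtain ⟨b, kb⟩ := T1 hD hR.cl ha.1 (ha.symm hd) fun q => hn (RR.of_EE hd (RI.mem_EE ha.1 q.symm))
  have hb := (kb.xa hD).symm kb.ha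
  have sep : ∀ {u v}, XP D d u → XP D d v → RR D d u → ¬ RR D d v → Commute v u := fun {u v} hu hv r1 r2 => by
    by_contra n
    exact r2 (Good.G1' hR hd ⟨XT.of_xp hd hu, fun q => n ((q v hv.1).1 hv.cm.symm), r1⟩ (XT.of_xp hd hv) n).rr
  have hn' : ¬ RR D d b := fun r => kb.nc hD (sep hb ha r hn).symm
  obtain ⟨h1, y1, a1, r1, x1, z1⟩ := h.bad2' hR hd k ky ha hn
  obtain ⟨h2, y2, a2, r2, x2, z2⟩ := h.bad2' hR hd k ky hb hn'
  have b1 := sep z1 hb r1 hn'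
  have b2 := sep z2 ha r2 hn
  obtain ⟨e, m1, e1⟩ := r1.2 h2 (XT.of_xp hd z2)
  have e2 : a * h1 * (b * h2) * (a * h1)⁻¹ = b * h2 * (d * e) := by
    rw [cj_cj, cj_mul h1, conj_of_commute b1.symm, e1, cj_mul, cj_mul, (kb.symm hD).act hD, conj_of_commute b2,
      conj_of_commute (EE.commute m1 ha.1 ha.cm.symm), mul_assoc, mul_assoc, ← mul_assoc d, z2.cm.eq, mul_assoc]
  have c5 : Commute y (d * e) := by
    have := y2.inv_right.mul_right ((y1.mul_right y2).mul_right y1.inv_right)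
    rwa [e2, inv_mul_cancel_left] at this
  have k1 : RI.K D h1 h2 e := K.of_act hD z1.1 z2.1 (fun e3 => ky.nc hD (by rwa [e3, mul_one] at c5))
    (z1.not_od hD hd z2.1 z2.cm) e1
  obtain ⟨y', k2⟩ := k1.next hD hR.cl
  obtain ⟨b', -, k3, x3, -⟩ := lemV hD k1 x1 x2 k2
  exact k.nc hD (EE.commute (r1.K hD ⟨e, k1.hc hD, hR.eqv hd m1 (k1.hc hD), x3⟩ k3) k.hb h.xt.cm).symm

theorem exists_good' (hR : HC D) (ha : a ∈ D) (hb : b ∈ D) (h4 : Fo a b) (hd : d ∈ D) :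
    ∃ c, Good D d c ∧ XP D d c := by
  have hD := hR.toRI
  obtain ⟨c, k⟩ := K.of_fo ha hb h4
  suffices h : ∃ c ∈ D, ∃ u, Good D c u ∧ XP D c u by
    obtain ⟨c, hc, u, hu⟩ := h
    obtain ⟨g, hg, rfl⟩ := hR.cl c hc d hd
    exact ⟨_, hu.1.conj hD hg, hu.2.conj hD hg⟩
  have hc := k.hc hD
  by_contra hn
  refine descent (Wd.pgroup hD c) (A := {w | w ∈ Wd D c ∧ ¬ Eqv D c w}) (fun t ht => subset_closure ht.1)
    (fun h => hD.ne 1 h.1.1 rfl) (t := b) ⟨(XT.of_xp hc ((k.xb hD).symm hb)).wd hD, k.not_eqv hD⟩ fun t ht => ?_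
  by_contra H
  have r : RR D c t := ⟨fun e he => EE.commute he ht.1.1 ht.1.2.1, fun v hv => by
    by_cases cv : Commute t v
    · exact ⟨1, one_mem _, by rw [conj_of_commute cv, mul_one]⟩
    obtain ⟨g, k1⟩ := exists_K hD ht.1.1 hv.mem cv (ht.1.2.2 v hv.mem hv.cm)
    have e1 : (t * v * t⁻¹ * v⁻¹) ^ 1 = g := by rw [pow_one, hD.inv ht.1.1, hD.inv hv.mem, k1.eq]
    refine ⟨g, RI.mem_EE (k1.hc hD) (by_contra fun q => H ⟨v, subset_closure (hv.wd hD), 1, ?_, e1 ▸ q⟩),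
      k1.act hD⟩
    rw [e1]
    refine Wd.of_mem hD (k1.hc hD) (k1.eq ▸ ?_)
    have m1 := subset_closure (k := Wd D c) ht.1
    have m2 := subset_closure (k := Wd D c) (hv.wd hD)
    exact mul_mem (mul_mem (mul_mem m1 m2) m1) m2⟩
  obtain ⟨y, n, f, -, k1, k2, -, -⟩ := lemS hD hR.cl ht.1.1 hc ht.1.2.1 ht.2 ht.1.2.2
  have q := hR.eqvK hc r (XT.of_xp hc (k1.xb hD)) k2
  have x1 := (k2.xa hD).symm k2.ha
  exact hn ⟨f, k2.hc hD, t, Good.eqv_left ⟨⟨f, k2.hc hD, q, x1⟩, ht.2, r⟩ q.symm, x1⟩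

structure HF (D : Set G) : Prop extends HC D where
  fo : ∃ a ∈ D, ∃ b ∈ D, Fo a b

theorem HF.rr (hR : HF D) (h : XT D d v) : RR D d v := by
  obtain ⟨e, he, q, h⟩ := h
  obtain ⟨a, ha, b, hb, h4⟩ := hR.fo
  obtain ⟨c, hc, hx⟩ := exists_good' hR.toHC ha hb h4 he
  exact (hc.all' hR.toHC he hx h).eqv q

theorem HF.lemB (hR : HF D) (hd : d ∈ D) (k : K D a b c) (ha : XT D d a) (hb : XT D d b) : Eqv D d c :=
  hR.eqvK hd (hR.rr ha) hb k

end CfsgH7.RI
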