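import Cfsg.Agent.H7.RI5

/-! Root involutions (helper7): a disconnected class in a simple group is closed under commuting products. -/

set_option autoImplicit false
set_option linter.unusedSectionVars false

namespace CfsgH7.RI
open Cfsg CfsgH9 Subgroup

universe u
variable {G : Type*} [Group G] {D : Set G} {a b c d e f g h m n p q r s t v w x y z : G}

theorem ri_cn (hD : RI D) (w : G) : RI (Cn D w) where
  sq d hd := hD.sq d hd.1
  ne d hd := hD.ne d hd.1
  conj a ha b hb := ⟨hD.conj a ha.1 b hb.1, (ha.2.mul_left hb.2).mul_left ha.2⟩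
  pair a ha b hb := (hD.pair a ha.1 b hb.1).imp_right fun h => h.imp_right fun h =>
    ⟨h.1, h.2, (ha.2.mul_left hb.2).pow_left 2⟩

theorem CR.mono {T : Set G} (hT : T ⊆ D) (h : CR T a b) : CR D a b := by
  induction h with
  | refl => exact Relation.ReflTransGen.refl
  | tail _ h ih => exact ih.trans (cr_of_commute (hT h.1) (hT h.2.1) h.2.2.2)

theorem CR.mem (h : CR D a b) (ha : a ∈ D) : b ∈ D := by
  induction h with
  | refl => exact ha
  | tail _ h _ => exact h.2.1

theorem CR.conj' (hD : IsRootInvolutionSet D) (h : CR D a b) (g : G) : CR D (g * a * g⁻¹) (g * b * g⁻¹) :=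
  h.conj (RI.of_set hD) (top_mem hD g)

theorem mem_CH_of (hD : IsRootInvolutionSet D) (h : CR D a b) (hg : CR D b (g * b * g⁻¹)) : CR D a (g * a * g⁻¹) :=
  (h.trans hg).trans (h.conj' hD g).symm

theorem cr_conj_of_mem (hD : RI D) (ha : a ∈ D) (h : CR D a b) (hg : g ∈ closure D) (h' : CR D a (g * a * g⁻¹)) :
    CR D a (g * b * g⁻¹) := h'.trans (h.conj hD hg)

theorem disc_two' {G : Type u} [Group G] [Finite G] {D : Set G} {a b x y : G} (hS : SpecDisc.{u} D.ncard)
    (hD : IsRootInvolutionSet D) (ha : a ∈ D) (hb : XP D a b) (hx : x ∈ D) (hy : y ∈ D) (n1 : ¬ CR D a x)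
    (n2 : ¬ CR D a y) : ∃ g, CR D a (g * a * g⁻¹) ∧ CR D y (g * x * g⁻¹) := by
  have hR := RI.of_set hD
  have hc : ¬ IsConnectedSet (CommAdj D) D := fun h => n1 (h a ha x hx)
  let π := QuotientGroup.mk' (twoZCore G)
  obtain ⟨_, hD', hb', hne, -, l2⟩ := disc_quot hD ha hb hc (π := π) rfl
  obtain ⟨se, hna⟩ := disc_se (hS.image _) hD' ⟨a, ha, rfl⟩ hb'
    fun h => hc fun p hp q hq => (l2 p hp q hq).1 (h _ ⟨p, hp, rfl⟩ _ ⟨q, hq, rfl⟩)
  obtain ⟨-, -, Y, hY⟩ := CfsgBS.exists_R1_of_se CfsgBS.thmA hna se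
  have hH : ∀ g, π g • Y.a = Y.a ↔ CR D a (g * a * g⁻¹) := fun g => by
    rw [← Y.mem_H, hY, ← l2 a ha _ (hD.conj_mem a ha g), map_mul, map_mul, map_inv]; rfl
  have hcl := oneClass_of_connected hR (odd_connected_of_disc hR hc)
  obtain ⟨k, -, rfl⟩ := hcl a ha x hx
  obtain ⟨l, -, rfl⟩ := hcl a ha y hy
  obtain ⟨q, hq, e⟩ := Y.exists_Q_smul (mt (hH k).1 n1) (mt (hH l).1 n2)
  obtain ⟨g, rfl⟩ := QuotientGroup.mk'_surjective _ q
  refine ⟨g, (hH g).1 (Y.Q_le_H hq), ?_⟩
  have := ((hH (l⁻¹ * g * k)).1 (by rw [map_mul, map_mul, map_inv, mul_smul, mul_smul, e, inv_smul_smul])).conj' hD l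
  convert this using 1; group

theorem disc_two {G : Type u} [Group G] [Finite G] {D : Set G} {a b x y : G} (hS : SpecDisc.{u} D.ncard)
    (hD : RI D) (ha : a ∈ D) (hb : XP D a b) (hx : x ∈ D) (hy : y ∈ D) (n1 : ¬ CR D a x)
    (n2 : ¬ CR D a y) : ∃ g ∈ closure D, CR D a (g * a * g⁻¹) ∧ CR D y (g * x * g⁻¹) := by
  obtain ⟨g, h1, h2⟩ := disc_two' (hS.preim _) (subRS hD) (a := ⟨a, subset_closure ha⟩)
    (b := ⟨b, subset_closure hb.1⟩) (x := ⟨x, subset_closure hx⟩) (y := ⟨y, subset_closure hy⟩) ha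
    ⟨hb.1, Subtype.ext hb.2.1, fun e => hb.2.2.1 (congrArg Subtype.val e), hb.2.2.2⟩ hx hy
    (mt cr_coe.1 n1) (mt cr_coe.1 n2)
  exact ⟨g, g.2, cr_coe.1 h1, cr_coe.1 h2⟩

/-- a disconnected class acting faithfully on its components -/
structure Bad (D : Set G) : Prop extends IsRootInvolutionSet D where
  cl : OneClass D
  xp : ∀ d ∈ D, ∃ d', XP D d d'
  disc : ∀ a ∈ D, ∃ x ∈ D, ¬ CR D a x
  faith : ∀ w, (∀ y ∈ D, CR D y (w * y * w⁻¹)) → w = 1

theorem Bad.ri (hB : Bad D) : RI D := RI.of_set hB.toIsRootInvolutionSet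

theorem Bad.claimA (hB : Bad D) (ha : a ∈ D) (hv : v * v = 1) (h1 : v ∉ D)
    (H : ∀ d ∈ D, Commute d v → CR D a d) : v = 1 := by
  have hD := hB.ri
  have hS := hB.toIsRootInvolutionSet
  have iv : ∀ {v : G}, v * v = 1 → v⁻¹ = v := fun h => inv_eq_of_mul_eq_one_right h
  have cj : ∀ {v : G}, v * v = 1 → ∀ d ∈ D, v * d * v ∈ D := fun {v} h d hd => by
    have := hS.conj_mem d hd v
    rwa [iv h] at this
  have key : ∀ x ∈ D, ¬ CR D a x → CR D x (v * x * v) := fun x hx n => by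
    by_contra n'
    obtain ⟨m, hm, -, -, c1, c2, -⟩ := mid_of_invol hD hv (cj hv) hx (od_of_not_cr hD hx (cj hv x hx) n')
    have hw : v * m * (v * m) = 1 := by
      rw [mul_assoc, ← mul_assoc m, c1.eq, mul_assoc, hD.sq m hm, mul_one, hv]
    refine h1 (?_ : v ∈ D)
    rw [show v = m from by
      rw [← iv hv]; refine inv_eq_of_mul_eq_one_right (hB.faith _ fun y hy => ?_)
      rw [iv hw]
      by_contra n2
      obtain ⟨d, hd, -, e, c3, c4, -⟩ := mid_of_invol hD hw (cj hw) hy (od_of_not_cr hD hy (cj hw y hy) n2)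
      have cm : Commute (v * m) m := c1.symm.mul_left (Commute.refl m)
      obtain ⟨h, e1, c5⟩ : ∃ h, h * m * h⁻¹ = d ∧ Commute (v * m) h := by
        by_cases k : CR D a d
        · obtain ⟨h, -, e1, k1⟩ := exists_conj_via hD hm hd hx
            (od_of_not_cr hD hm hx fun h => n ((H m hm c1).trans h)) (od_of_not_cr hD hd hx fun h => n (k.trans h))
          exact ⟨h, e1, k1 _ cm c3.symm c2⟩
        · obtain ⟨h, hh, e1⟩ := (od_of_not_cr hD hm hd fun h => k ((H m hm c1).trans h)).exists_conj hD hm hd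
          exact ⟨h, e1.symm, commute_of_mem_pair hh cm c3.symm⟩
      have e2 : v * m * d = h * v * h⁻¹ := by
        rw [← e1, ← mul_assoc, ← mul_assoc, c5.eq, mul_assoc h, mul_assoc v, hD.sq m hm, mul_one]
      have k1 := CR.conj' hS ((H m hm c1).symm.trans (H _ (hS.conj_mem y hy h⁻¹) ((commute_conj_iff h).1 (by
        rw [← e2, show h * (h⁻¹ * y * h⁻¹⁻¹) * h⁻¹ = y by group]; exact c4.symm)))) h
      rw [e1, show h * (h⁻¹ * y * h⁻¹⁻¹) * h⁻¹ = y by group] at k1
      have k2 : CR D y (d * y * d⁻¹) := (mem_CH hS hy hd).2 k1.symm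
      rw [hD.inv hd, e] at k2
      exact n2 k2]
    exact hm
  refine hB.faith v fun y hy => ?_
  rw [iv hv]
  by_cases k : CR D a y
  · by_contra n
    have := key _ (cj hv y hy) fun h => n (k.symm.trans h)
    rw [show v * (v * y * v) * v = v * v * y * (v * v) by group, hv, one_mul, mul_one] at this
    exact n this.symm
  · exact key y hy k

theorem Bad.closed (hB : Bad D) (ha : a ∈ D) (hc : c ∈ D) (h : Commute a c) (hne : c ≠ a) : XP D a c := by
  have hD := hB.ri
  refine ⟨hc, h, hne, by_contra fun hn => hne ?_⟩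
  have := hB.claimA ha (v := a * c) (by rw [mul_assoc, ← mul_assoc c, ← h.eq, mul_assoc, hD.sq c hc, mul_one, hD.sq a ha])
    hn fun d hd cd => cr_of_not_od hD ha hd fun o => hn ?_
  · rw [← hD.inv ha]; exact eq_inv_of_mul_eq_one_right this
  · have := hD.lemD hd o.symm (z := a * c) (by
      rw [mul_assoc, ← mul_assoc c, ← h.eq, mul_assoc, hD.sq c hc, mul_one, hD.sq a ha]) cd.symm
      ((Commute.refl a).mul_left h.symm) (by rw [h.eq, mul_assoc, hD.sq a ha, mul_one]; exact hc)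
    exact absurd (by rw [← hD.inv ha]; exact eq_inv_of_mul_eq_one_right this) hne

theorem Bad.mul_mem (hB : Bad D) (ha : a ∈ D) (hc : c ∈ D) (h : Commute a c) : a * c = 1 ∨ a * c ∈ D := by
  by_cases e : c = a
  · exact Or.inl (e ▸ hB.ri.sq c hc)
  · exact Or.inr (hB.closed ha hc h e).2.2.2

section
variable {G : Type u} [Group G] [Finite G] {D : Set G} {a b c d e f g h m n p q r s t v w x y z : G}

theorem Bad.clique (hB : Bad D) (ih : ∀ m < D.ncard, SpecDisc.{u} m) (hv : v * v = 1) (h1 : v ∉ D) (h2 : v ≠ 1)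
    (ha : a ∈ D) (hb : XP D a b) (c1 : Commute a v) (c2 : Commute b v) (hy : y ∈ D) (c3 : Commute y v)
    (hz : z ∈ D) (c4 : Commute z v) (k1 : CR D a y) (k2 : CR D a z) : Commute y z := by
  have hD := hB.ri
  have hS : SpecDisc.{u} (Cn D v).ncard := ih _ (Set.ncard_lt_ncard ⟨fun _ h => h.1, fun h => h2 (hB.faith v
    fun y hy => by rw [← (h hy).2.eq, mul_inv_cancel_right])⟩)
  obtain ⟨x, hx, c5, n⟩ : ∃ x ∈ D, Commute x v ∧ ¬ CR D a x := by
    by_contra! H
    exact h2 (hB.claimA ha hv h1 H)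
  have hb' : XP (Cn D v) a b := ⟨⟨hb.1, c2⟩, hb.2.1, hb.2.2.1, hb.2.2.2, c1.mul_left c2⟩
  have sub : Cn D v ⊆ D := fun _ h => h.1
  have n' : ¬ CR (Cn D v) a x := mt (CR.mono sub) n
  have k : ∀ y ∈ Cn D v, CR D a y → CR (Cn D v) a y := fun y hy k => by_contra fun k' => by
    obtain ⟨g, hg, l1, l2⟩ := disc_two hS (ri_cn hD v) ⟨ha, c1⟩ hb' hy ⟨hx, c5⟩ k' n'
    exact n ((cr_conj_of_mem hD ha k (closure_mono sub hg) (l1.mono sub)).trans (l2.mono sub).symm)
  exact disc_comm hS (ri_cn hD v) ⟨ha, c1⟩ hb' ⟨ha, c1⟩ ⟨hx, c5⟩ n' y ⟨hy, c3⟩ z ⟨hz, c4⟩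
    ((k y ⟨hy, c3⟩ k1).symm.trans (k z ⟨hz, c4⟩ k2))

theorem Bad.nx (hB : Bad D) (ih : ∀ m < D.ncard, SpecDisc.{u} m) (hy : y ∈ D) (k : CR D a y) (o : Od a y)
    (hv : v * v = 1) (h2 : v ≠ 1) (ha : a ∈ D) (hb : XP D a b) (c1 : Commute a v) (c2 : Commute b v) : v ∈ D := by
  have hD := hB.ri
  by_contra h1
  have iv : v⁻¹ = v := inv_eq_of_mul_eq_one_right hv
  have cj : ∀ d ∈ D, v * d * v ∈ D := fun d hd => by
    have := hB.conj_mem d hd v
    rwa [iv] at this
  have cl := fun {y z : G} => hB.clique ih hv h1 h2 ha hb c1 c2 (y := y) (z := z)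
  have rf : CR D a a := Relation.ReflTransGen.refl
  have fin : ∀ c ∈ D, Commute c v → Commute c y → False := fun c hc c3 c4 => by
    have c5 := cl ha c1 hc c3 rf (k.trans (cr_of_commute hy hc c4.symm))
    by_cases e : a = c
    · exact nc hD ha hy o (e ▸ c4)
    · exact (hB.closed hc ha c5.symm e).not_od hD hc hy c4 o
  have hy' := cj y hy
  have e0 : v * (v * y * v) * v = y := by rw [show v * (v * y * v) * v = v * v * y * (v * v) by group, hv]; group
  have cv : ∀ c, v * c * v = c → Commute c v := fun c e => by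
    show c * v = v * c
    rw [← e, mul_assoc, hv, mul_one, e]
  have mv : ∀ p q, v * (p * q) * v = v * p * v * (v * q * v) := fun p q => by
    rw [show v * p * v * (v * q * v) = v * p * (v * v) * q * v by group, hv]; group
  rcases hD.tri hy hy' with h | h | h
  · rcases hB.mul_mem hy hy' h with e | e
    · exact fin y hy (cv y (by rw [← hD.inv hy']; exact (eq_inv_of_mul_eq_one_left e).symm)) (Commute.refl y)
    · exact fin _ e (cv _ (by rw [mv, e0, h])) ((Commute.refl y).mul_left h.symm)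
  · obtain ⟨m, hm, o', e1, c3, c4, -⟩ := mid_of_invol hD hv cj hy h
    have k1 : CR D a m := by
      have := cr_conj_of_mem hD ha k (top_mem hB.toIsRootInvolutionSet v) (by rw [← c1.eq, mul_inv_cancel_right])
      rw [iv, ← e1] at this
      refine k.trans ((mem_CH hB.toIsRootInvolutionSet hy hm).1 ?_)
      show CR D y _
      rw [hD.inv hm]
      exact k.symm.trans this
    have c5 := cl ha c1 hm c3 rf k1
    have c6 := cl hb.1 c2 hm c3 (cr_of_commute ha hb.1 hb.2.1) k1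
    have hw : v * m * (v * m) = 1 := by
      rw [mul_assoc, ← mul_assoc m, c3.eq, mul_assoc, hD.sq m hm, mul_one, hv]
    have e : v * m * m = v := by rw [mul_assoc, hD.sq m hm, mul_one]
    refine nc hD ha hy o (hB.clique ih hw (fun hw' => ?_) (fun e' => h1 ?_) ha hb (c1.mul_right c5) (c2.mul_right c6)
      ha (c1.mul_right c5) hy c4.symm rf k)
    · rcases hB.mul_mem hw' hm (c3.symm.mul_left (Commute.refl m)) with h | h <;> rw [e] at h
      exacts [h2 h, h1 h]
    · rwa [← e, e', one_mul]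
  · refine fin _ (h.mem hD hy hy') (cv _ ?_) (hD.comm_left hy hy' h.not_od)
    rw [mv, mv, mv, e0, hD.comm_eq hy hy' h.not_od]

end

end CfsgH7.RI
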