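import Cfsg.Agent.H7.SD2
import Cfsg.Agent.H4.StrEmb
import Cfsg.Agent.SF.Shult

/-! Root involutions (helper7): reduction of the disconnected case to Shult's theorem. -/

set_option autoImplicit false
set_option linter.unusedSectionVars false

namespace CfsgH7.RI
open Cfsg CfsgH9 Subgroup

universe u

variable {G : Type u} [Group G] [Finite G] {D : Set G} {a b : G}

theorem se_of_subgroupOf {H K : Subgroup G} (hK : K = ⊤) (h : IsStronglyEmbedded (H.subgroupOf K)) :
    IsStronglyEmbedded H := by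
  subst hK
  rw [CfsgH4.isStronglyEmbedded_iff] at h ⊢
  refine ⟨fun e => h.1 (by rw [e, top_subgroupOf]), ?_, fun g t ht h2 h3 =>
    h.2.2 ⟨g, trivial⟩ ⟨t, trivial⟩ ht (by rw [← h2, ← orderOf_coe]) h3⟩
  rw [← Nat.card_congr (subgroupOfEquivOfLe (le_top : H ≤ ⊤)).toEquiv]
  exact h.2.1

theorem bad_of [IsSimpleGroup G] (hD : IsRootInvolutionClass D) (ha : a ∈ D) (hb : XP D a b)
    (hc : ¬ IsConnectedSet (CommAdj D) D) : Bad D := by
  have hR := RI.of_set hD.1
  have hcl := oneClass_of_class hD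
  unfold IsConnectedSet at hc
  push Not at hc
  obtain ⟨p, hp, q, hq, n⟩ := hc
  refine ⟨hD.1, hcl, fun d hd => exists_xp hR hcl ha hb hd, fun d hd => ?_, fun w hw => ?_⟩
  · by_contra! H
    exact n ((H p hp).symm.trans (H q hq))
  let K : Subgroup G := ⨅ y ∈ D, CH hD.1 y
  have mK : ∀ w, w ∈ K ↔ ∀ y ∈ D, CR D y (w * y * w⁻¹) := fun w => by simp only [K, mem_iInf]; rfl
  haveI : K.Normal := ⟨fun w hw g => (mK _).2 fun y hy => by
    have := CR.conj' hD.1 ((mK w).1 hw _ (hD.1.conj_mem y hy g⁻¹)) g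
    convert this using 1 <;> group⟩
  rcases Normal.eq_bot_or_eq_top this with e | e
  · exact mem_bot.1 (e ▸ (mK w).2 hw)
  · exact absurd ((mem_CH hD.1 hp hq).1 ((mK q).1 (e ▸ mem_top q) p hp)) n

theorem Bad.se_clique (hSh : CfsgSF.SpecSF.{u}) (hB : Bad D) (ha : a ∈ D) (H : ∀ y z, CR D a y → CR D a z → Commute y z) :
    IsStronglyEmbedded (CH hB.toIsRootInvolutionSet a) := by
  have hD := hB.ri
  have hS := hB.toIsRootInvolutionSet
  have rf : CR D a a := Relation.ReflTransGen.refl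
  let V : Subgroup G :=
    { carrier := {y | y = 1 ∨ CR D a y}
      one_mem' := Or.inl rfl
      mul_mem' := by
        rintro y z (rfl | hy) (rfl | hz)
        · exact Or.inl (one_mul 1)
        · exact Or.inr (by rwa [one_mul])
        · exact Or.inr (by rwa [mul_one])
        · exact (hB.mul_mem (hy.mem ha) (hz.mem ha) (H y z hy hz)).imp_right fun h =>
            cr_of_commute ha h ((H a y rf hy).mul_right (H a z rf hz))
      inv_mem' := by
        rintro y (rfl | hy)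
        · exact Or.inl inv_one
        · exact Or.inr (by rwa [hD.inv (hy.mem ha)]) }
  obtain ⟨x, hx, n⟩ := hB.disc a ha
  refine se_of_subgroupOf ?_ (CfsgSF.shult_of' hSh (V := V) (closure_eq V ▸ le_normalizer_closure ?_ :) ?_ ?_
    ⟨a, Or.inr rf, hD.ne a ha⟩ ?_ fun e => n ((mem_CH hS ha hx).1 (e ▸ mem_top x)))
  · rw [eq_top_iff, ← hS.generates, closure_le]
    intro y hy
    obtain ⟨g, -, rfl⟩ := hB.cl a ha y hy
    exact normalClosure_normal.conj_mem a (subset_normalClosure (Or.inr rf)) g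
  · rintro s hs _ (rfl | ht)
    · exact Or.inl (by simp)
    · exact Or.inr (cr_conj_of_mem hD ha ht (top_mem hS s) hs)
  · rintro y (rfl | hy)
    exacts [one_mem _, (mem_CH hS ha (hy.mem ha)).2 hy]
  · rintro y (rfl | hy)
    exacts [one_mul 1, hD.sq y (hy.mem ha)]
  · rintro g hg z (rfl | hz) h
    · rfl
    · exact absurd (((mem_CH hS ha (hS.conj_mem z (hz.mem ha) g)).1 h).trans (hz.conj' hS g).symm) hg

theorem specDisc_of (hSh : CfsgSF.SpecSF.{u}) (n : ℕ) : SpecDisc.{u} n := by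
  induction n using Nat.strong_induction_on with
  | _ n ih =>
  intro G _ _ _ D hD a b hn ha hb hc
  have hB := bad_of hD ha hb hc
  have hR := hB.ri
  by_cases H : ∀ y z, CR D a y → CR D a z → Commute y z
  · exact hB.se_clique hSh ha H
  push Not at H
  obtain ⟨y, z, hy, hz, nc⟩ := H
  have hy' := hy.mem ha
  have hz' := hz.mem ha
  obtain ⟨x, hx, o⟩ : ∃ x, CR D y x ∧ Od y x := by
    rcases hR.tri hy' hz' with h | h | h
    · exact absurd h nc
    · exact ⟨z, hy.symm.trans hz, h⟩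
    · have x1 := h.xp_left hR hy' hz'
      obtain ⟨n, x, -, -, -, hx, h5, -, o, -⟩ := exists_order_three hR hB.cl hy' x1 (C_ne_of_fo hR hy' hz' h)
      exact ⟨x, (cr_of_commute hy' x1.1 x1.2.1).trans (cr_of_not_od hR x1.1 hx h5.symm.not_od), o⟩
  have nx : ∀ a ∈ D, ∀ b, XP D a b → ∀ v, v * v = 1 → v ≠ 1 → Commute a v → Commute b v → v ∈ D :=
    fun a ha b hb v h1 h2 => by
      obtain ⟨g, -, rfl⟩ := hB.cl y hy' a ha
      exact hB.nx (fun m hm => ih m (hm.trans_le hn)) (hD.1.conj_mem x (hx.mem hy') g) (hx.conj' hD.1 g) (o.conj g)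
        h1 h2 ha hb
  by_cases h : ∃ u, u * u = 1 ∧ u ≠ 1 ∧ u ∉ D
  · exact (Cz.false ⟨hB, nx, h⟩ ha).elim
  push Not at h
  have m : a ∈ CH hD.1 a := (mem_CH hD.1 ha ha).2 Relation.ReflTransGen.refl
  obtain ⟨p, hp, n⟩ := hB.disc a ha
  refine (CfsgH4.isStronglyEmbedded_iff _).2 ⟨fun e => n ((mem_CH hD.1 ha hp).1 (e ▸ mem_top p)), ?_,
    fun g t ht h2 h3 => ?_⟩
  · rw [even_iff_two_dvd, ← hD.1.orderOf_eq a ha]
    exact orderOf_dvd_natCard _ m
  · have t1 := h t (CfsgH4.mul_self_of_orderOf h2) (by rintro rfl; simp at h2)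
    have t2 := hD.1.conj_mem t t1 g⁻¹
    rw [inv_inv] at t2
    have := CR.conj' hD.1 ((mem_CH hD.1 ha t2).1 h3) g
    rw [show g * (g⁻¹ * t * g) * g⁻¹ = t by group] at this
    exact ((mem_CH hD.1 ha t1).1 ht).trans this.symm

end CfsgH7.RI
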