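import Mathlib

set_option autoImplicit false

namespace CfsgH7

variable {X : Type*} [Group X]

theorem shin_mem_iff (τ : MulAut X) (g : X) :
    g ∈ (MulEquiv.toMonoidHom τ).eqLocus (MonoidHom.id X) ↔ τ g = g := Iff.rfl

theorem shin_norm (σ : MulAut X) (a g : X) (ha : g = a * (σ a)⁻¹) (d : ℕ) :
    ((List.range d).map (fun i => (σ ^ i) g)).prod = a * ((σ ^ d) a)⁻¹ := by
  induction d with
  | zero => simp
  | succ d ih =>
    rw [List.range_succ, List.map_append, List.prod_append, ih, ha]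
    simp [pow_succ, mul_assoc]

theorem shin_comm (σ : MulAut X) (i j : ℕ) (a : X) : (σ ^ i) ((σ ^ j) a) = (σ ^ j) ((σ ^ i) a) := by
  rw [← MulAut.mul_apply, ← MulAut.mul_apply, ← pow_add, ← pow_add, add_comm]

theorem shin_comm1 (σ : MulAut X) (j : ℕ) (a : X) : σ ((σ ^ j) a) = (σ ^ j) (σ a) := by
  have := shin_comm σ 1 j a
  simpa using this

theorem shin_fixed (σ : MulAut X) (e : ℕ) (a g : X) (ha : g = a * (σ a)⁻¹) (hg : (σ ^ e) g = g) :
    σ (((σ ^ e) a)⁻¹ * a) = ((σ ^ e) a)⁻¹ * a := by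
  rw [ha, map_mul, map_inv] at hg
  rw [map_mul, map_inv, shin_comm1]
  have h : ((σ ^ e) (σ a))⁻¹ = ((σ ^ e) a)⁻¹ * (a * (σ a)⁻¹) := by
    rw [← hg]; group
  rw [h]; group

theorem shin_pow_fixed (σ : MulAut X) (x : X) (hx : σ x = x) (k : ℕ) : (σ ^ k) x = x := by
  induction k with
  | zero => simp
  | succ k ih => rw [pow_succ, MulAut.mul_apply, hx, ih]

end CfsgH7
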