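import Mathlib
import Cfsg.Prelude.Def_Characters

set_option autoImplicit false

namespace CfsgH7

open Classical

theorem isIrrCharacter_of_rep {Γ : Type*} [Group Γ] {V : Type*} [AddCommGroup V] [Module ℂ V]
    [FiniteDimensional ℂ V] (σ : Representation ℂ Γ V) (h : σ.IsIrreducible) :
    Cfsg.IsIrrCharacter Γ σ.character := by
  let e := (Module.finBasis ℂ V).equivFun
  let ρ : Representation ℂ Γ (Fin (Module.finrank ℂ V) → ℂ) :=
    (e.conjAlgEquiv ℂ).toMonoidHom.comp σ
  have hρ : ∀ g v, ρ g (e v) = e (σ g v) := fun g v => by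
    change e (σ g (e.symm (e v))) = _
    rw [e.symm_apply_apply]
  refine ⟨_, ρ, ?_, funext fun g => LinearMap.trace_conj' (σ g) e⟩
  let c : Subrepresentation ρ → Subrepresentation σ := fun M =>
    ⟨M.toSubmodule.comap e.toLinearMap, fun g v hv => by
      change e (σ g v) ∈ M.toSubmodule
      rw [← hρ]
      exact M.apply_mem_toSubmodule g hv⟩
  have hc : Function.Injective c := fun M N hMN => by
    apply Subrepresentation.toSubmodule_injective
    have h1 : M.toSubmodule.comap e.toLinearMap = N.toSubmodule.comap e.toLinearMap :=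
      congrArg Subrepresentation.toSubmodule hMN
    exact Submodule.comap_injective_of_surjective e.surjective h1
  have hb : c ⊥ = ⊥ := by
    apply Subrepresentation.toSubmodule_injective
    change Submodule.comap e.toLinearMap ⊥ = ⊥
    rw [Submodule.comap_bot]
    exact LinearEquiv.ker e
  have ht : c ⊤ = ⊤ := by
    apply Subrepresentation.toSubmodule_injective
    exact Submodule.comap_top _
  have : Nontrivial (Subrepresentation ρ) := ⟨⟨⊥, ⊤, fun hh => by
    have := congrArg c hh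
    rw [hb, ht] at this
    exact bot_ne_top this⟩⟩
  exact ⟨fun M => (eq_bot_or_eq_top (c M)).imp (fun h' => hc (h'.trans hb.symm))
    fun h' => hc (h'.trans ht.symm)⟩

theorem trace_funLeft {Y : Type*} [Fintype Y] (s : Y → Y) (hs : ∀ y, s y ≠ y) :
    LinearMap.trace ℂ (Y → ℂ) (LinearMap.funLeft ℂ ℂ s) = 0 := by
  rw [LinearMap.trace_eq_matrix_trace ℂ (Pi.basisFun ℂ Y), Matrix.trace]
  refine Finset.sum_eq_zero fun y _ => ?_
  simp [LinearMap.toMatrix_apply, LinearMap.funLeft_apply, hs y]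

/-- Chamber system data giving a Steinberg representation. -/
structure StData (G X I : Type*) [Group G] (p : ℕ) where
  φ : G →* Equiv.Perm X
  adj : I → X → X → Prop
  adj_refl : ∀ i D, adj i D D
  adj_symm : ∀ i D D', adj i D D' → adj i D' D
  adj_trans : ∀ i D D' D'', adj i D D' → adj i D' D'' → adj i D D''
  adj_map : ∀ i g D D', adj i D D' → adj i (φ g D) (φ g D')
  U : X → Subgroup G
  O : X → X → Prop
  U_fix : ∀ C, ∀ u ∈ U C, φ u C = C
  U_p : ∀ C, IsPGroup p (U C)
  U_O : ∀ C, ∀ u ∈ U C, ∀ D, O C D → O C (φ u D)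
  trans : ∀ C D D', O C D → O C D' → ∃ u ∈ U C, φ u D = D'
  free : ∀ C D, O C D → ∀ u ∈ U C, φ u D = D → u = 1
  near : ∀ C, ∃ δ : X → ℕ, ∀ D, ¬ O C D → ∃ i, ∀ D', adj i D D' → D' ≠ D → δ D' < δ D
  apt : ∀ C, ∃ (W : Type) (_ : Fintype W) (ch : W → X) (s : W → ℂ) (τ : I → W → W) (w₀ : W),
    (∀ i w, τ i (τ i w) = w) ∧ (∀ i w, s (τ i w) = - s w) ∧ (∀ i w, adj i (ch w) (ch (τ i w))) ∧
      s w₀ ≠ 0 ∧ O C (ch w₀) ∧ ∀ w, O C (ch w) → w = w₀
  sylow : ∀ P : Subgroup G, IsPGroup p P → ∃ C, P ≤ U C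

namespace StData

variable {G X I : Type*} [Group G] {p : ℕ} (S : StData G X I p)

section fin

variable [Fintype X]

/-- the Steinberg module -/
def St : Submodule ℂ (X → ℂ) where
  carrier := {f | ∀ i D, ∑ D', (if S.adj i D D' then f D' else 0) = 0}
  add_mem' := fun {f g} hf hg i D => by
    have : ∀ D', (if S.adj i D D' then (f + g) D' else 0) =
        (if S.adj i D D' then f D' else 0) + (if S.adj i D D' then g D' else 0) := fun D' => by
      split_ifs <;> simp
    simp only [this, Finset.sum_add_distrib, hf i D, hg i D, add_zero]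
  zero_mem' := fun i D => by simp
  smul_mem' := fun c f hf i D => by
    have : ∀ D', (if S.adj i D D' then (c • f) D' else 0) =
        c * (if S.adj i D D' then f D' else 0) := fun D' => by
      split_ifs <;> simp
    simp only [this, ← Finset.mul_sum, hf i D, mul_zero]

theorem mem_St {f : X → ℂ} : f ∈ S.St ↔ ∀ i D, ∑ D', (if S.adj i D D' then f D' else 0) = 0 :=
  Iff.rfl

omit [Fintype X] in
theorem adj_map_iff (i : I) (g : G) (D D' : X) : S.adj i (S.φ g D) (S.φ g D') ↔ S.adj i D D' :=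
  ⟨fun h => by simpa using S.adj_map i g⁻¹ _ _ h, S.adj_map i g D D'⟩

theorem comp_mem_St (g : G) {f : X → ℂ} (hf : f ∈ S.St) : (fun D => f (S.φ g D)) ∈ S.St := by
  intro i D
  have := hf i (S.φ g D)
  rw [← Equiv.sum_comp (S.φ g)] at this
  simpa only [S.adj_map_iff] using this

/-- the Steinberg representation -/
def rep : Representation ℂ G S.St where
  toFun g := (LinearMap.funLeft ℂ ℂ (S.φ g⁻¹)).restrict fun _ hf => S.comp_mem_St g⁻¹ hf
  map_one' := by ext f D; simp [LinearMap.funLeft_apply]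
  map_mul' g h := by ext f D; simp [LinearMap.funLeft_apply]

theorem rep_apply (g : G) (f : S.St) (D : X) : (S.rep g f).1 D = f.1 (S.φ g⁻¹ D) := rfl

theorem eq_zero_of_O (C : X) {f : X → ℂ} (hf : f ∈ S.St) (h : ∀ D, S.O C D → f D = 0) :
    f = 0 := by
  obtain ⟨δ, hδ⟩ := S.near C
  funext D
  induction hn : δ D using Nat.strong_induction_on generalizing D with
  | _ n ih =>
  by_cases hD : S.O C D
  · exact h D hD
  obtain ⟨i, hi⟩ := hδ D hD
  have := hf i D
  rw [Finset.sum_eq_single D] at this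
  · simpa [S.adj_refl] using this
  · intro D' _ hD'
    split_ifs with h'
    · exact ih _ (hn ▸ hi D' h' hD') D' rfl
    · rfl
  · simp

theorem exists_delta (C : X) :
    ∃ f ∈ S.St, ∃ D₀, S.O C D₀ ∧ f D₀ = 1 ∧ ∀ D, S.O C D → D ≠ D₀ → f D = 0 := by
  obtain ⟨W, _, ch, s, τ, w₀, h1, h2, h3, h4, h5, h6⟩ := S.apt C
  let f : X → ℂ := fun D => ∑ w, if ch w = D then s w else 0
  have hf : f ∈ S.St := by
    intro i D
    have e1 : ∑ D', (if S.adj i D D' then f D' else 0) =
        ∑ w, if S.adj i D (ch w) then s w else 0 := by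
      have : ∀ D', (if S.adj i D D' then f D' else 0) =
          ∑ w, if ch w = D' then (if S.adj i D (ch w) then s w else 0) else 0 := fun D' => by
        split_ifs with h
        · exact Finset.sum_congr rfl fun w _ => by
            split_ifs with h' h'' <;> simp_all
        · symm
          exact Finset.sum_eq_zero fun w _ => by
            split_ifs with h' h'' <;> simp_all
      simp only [this]
      rw [Finset.sum_comm]
      simp
    rw [e1]
    have e2 := Equiv.sum_comp (Function.Involutive.toPerm (τ i) (h1 i))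
      (fun w => if S.adj i D (ch w) then s w else 0)
    have e3 : ∀ w, (if S.adj i D (ch (τ i w)) then s (τ i w) else 0) =
        - (if S.adj i D (ch w) then s w else 0) := fun w => by
      have : S.adj i D (ch (τ i w)) ↔ S.adj i D (ch w) :=
        ⟨fun h => S.adj_trans _ _ _ _ h (S.adj_symm _ _ _ (h3 i w)),
          fun h => S.adj_trans _ _ _ _ h (h3 i w)⟩
      rw [h2]
      simp only [this]
      split_ifs <;> simp
    change ∑ w, (if S.adj i D (ch (τ i w)) then s (τ i w) else 0) = _ at e2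
    simp only [e3, Finset.sum_neg_distrib] at e2
    linear_combination (-1 / 2 : ℂ) * e2
  have hv : ∀ D, S.O C D → f D = if ch w₀ = D then s w₀ else 0 := fun D hD => by
    refine Finset.sum_eq_single w₀ (fun w _ hw => ?_) (by simp)
    rw [if_neg]
    rintro rfl
    exact hw (h6 w hD)
  refine ⟨(s w₀)⁻¹ • f, S.St.smul_mem _ hf, ch w₀, h5, ?_, fun D hD hne => ?_⟩
  · simp [hv _ h5, h4]
  · simp [hv _ hD, hne.symm]

/-- restriction to the chambers opposite to `C` -/
def res (C : X) : S.St →ₗ[ℂ] ({D // S.O C D} → ℂ) :=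
  LinearMap.funLeft ℂ ℂ Subtype.val ∘ₗ S.St.subtype

theorem res_apply (C : X) (f : S.St) (D : {D // S.O C D}) : S.res C f D = f.1 D := rfl

theorem res_bijective (C : X) : Function.Bijective (S.res C) := by
  constructor
  · rw [← LinearMap.ker_eq_bot, LinearMap.ker_eq_bot']
    intro f hf
    exact Subtype.ext (S.eq_zero_of_O C f.2 fun D hD => congrFun hf ⟨D, hD⟩)
  · rw [← LinearMap.range_eq_top, eq_top_iff, ← (Pi.basisFun ℂ _).span_eq, Submodule.span_le]
    rintro _ ⟨D, rfl⟩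
    obtain ⟨f, hf, D₀, h0, h1, h2⟩ := S.exists_delta C
    obtain ⟨u, hu, e⟩ := S.trans C D D₀ D.2 h0
    refine ⟨⟨_, S.comp_mem_St u hf⟩, funext fun D' => ?_⟩
    rw [res_apply]
    by_cases h : D' = D
    · subst h; simp [e, h1]
    · simp only [Pi.basisFun_apply, Pi.single_eq_of_ne h]
      refine h2 _ (S.U_O C u hu _ D'.2) fun h' => h (Subtype.ext ?_)
      exact (S.φ u).injective (h'.trans e.symm)

theorem card_O (C : X) : Nat.card {D // S.O C D} = Nat.card (S.U C) := by
  obtain ⟨f, hf, D₀, h0, -⟩ := S.exists_delta C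
  symm
  refine Nat.card_eq_of_bijective (fun u : S.U C => ⟨S.φ u D₀, S.U_O C u u.2 _ h0⟩) ⟨?_, ?_⟩
  · intro u v h
    have h1 : S.φ u D₀ = S.φ v D₀ := congrArg Subtype.val h
    have := S.free C D₀ h0 ((v : G)⁻¹ * u) (mul_mem (inv_mem v.2) u.2) (by simp [h1])
    exact Subtype.ext (inv_mul_eq_one.1 this).symm
  · intro D
    obtain ⟨u, hu, e⟩ := S.trans C D₀ D h0 D.2
    exact ⟨⟨u, hu⟩, Subtype.ext e⟩

theorem char_one (C : X) : S.rep.character 1 = Nat.card (S.U C) := by
  rw [Representation.char_one, (LinearEquiv.ofBijective _ (S.res_bijective C)).finrank_eq,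
    Module.finrank_fintype_fun_eq_card, ← S.card_O C, Nat.card_eq_fintype_card]

theorem char_U (C : X) {u : G} (hu : u ∈ S.U C) (h1 : u ≠ 1) : S.rep.character u = 0 := by
  let e := LinearEquiv.ofBijective _ (S.res_bijective C)
  let s : {D // S.O C D} → {D // S.O C D} := fun D => ⟨S.φ u⁻¹ D, S.U_O C _ (inv_mem hu) _ D.2⟩
  have : e.conj (S.rep u) = LinearMap.funLeft ℂ ℂ s := by
    refine LinearMap.ext fun f => ?_
    obtain ⟨f, rfl⟩ := e.surjective f
    rw [LinearEquiv.conj_apply_apply, e.symm_apply_apply]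
    rfl
  rw [Representation.character, ← LinearMap.trace_conj' (S.rep u) e, this]
  refine trace_funLeft s fun D h => h1 ?_
  exact inv_eq_one.1 (S.free C D D.2 _ (inv_mem hu) (congrArg Subtype.val h))

variable [Finite G] [Fact p.Prime]

omit [Fact p.Prime] in
theorem card_U_eq (C D : X) : Nat.card (S.U C) = Nat.card (S.U D) := by
  have := (S.char_one C).symm.trans (S.char_one D)
  exact_mod_cast this

omit [Fintype X] [Finite G] [Fact p.Prime] in
theorem sylow_eq (P : Sylow p G) : ∃ C, (P : Subgroup G) = S.U C := by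
  obtain ⟨C, hC⟩ := S.sylow P P.isPGroup'
  exact ⟨C, (P.is_maximal' (S.U_p C) hC).symm⟩

theorem exists_conj (C D : X) : ∃ g : G, ∀ u ∈ S.U C, g * u * g⁻¹ ∈ S.U D := by
  have key : ∀ C, ∃ P : Sylow p G, (P : Subgroup G) = S.U C := fun C => by
    obtain ⟨P, hP⟩ := (S.U_p C).exists_le_sylow
    obtain ⟨C', hC'⟩ := S.sylow_eq P
    refine ⟨P, (Subgroup.eq_of_le_of_card_ge hP ?_).symm⟩
    rw [hC', S.card_U_eq C' C]
  obtain ⟨P, hP⟩ := key C
  obtain ⟨Q, hQ⟩ := key D
  obtain ⟨g, rfl⟩ := MulAction.exists_smul_eq G P Q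
  refine ⟨g, fun u hu => ?_⟩
  rw [← hQ, Sylow.coe_subgroup_smul]
  rw [← hP] at hu
  exact Subgroup.smul_mem_pointwise_smul _ _ _ hu

theorem exists_fixed (C : X) (M : Subrepresentation S.rep) (hM : M ≠ ⊥) :
    ∃ f ∈ M.toSubmodule, f ≠ 0 ∧ ∀ u ∈ S.U C, S.rep u f = f := by
  have : M.toSubmodule ≠ ⊥ := fun h => hM (Subrepresentation.toSubmodule_injective h)
  obtain ⟨f, hf, hf0⟩ := Submodule.exists_mem_ne_zero_of_ne_bot this
  obtain ⟨D, hD⟩ : ∃ D, f.1 D ≠ 0 := by
    by_contra h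
    push Not at h
    exact hf0 (Subtype.ext (funext h))
  have := Fintype.ofFinite (S.U D)
  let f' : S.St := ∑ u : S.U D, S.rep u f
  have h1 : f' ∈ M.toSubmodule := Submodule.sum_mem _ fun u _ => M.apply_mem_toSubmodule _ hf
  have h2 : f'.1 D ≠ 0 := by
    have : f'.1 D = ∑ u : S.U D, f.1 D := by
      simp only [f', Submodule.coe_sum, Finset.sum_apply]
      exact Finset.sum_congr rfl fun u _ => by rw [rep_apply, S.U_fix D _ (inv_mem u.2)]
    rw [this, Finset.sum_const, nsmul_eq_mul]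
    exact mul_ne_zero (Nat.cast_ne_zero.2 Fintype.card_ne_zero) hD
  have h3 : ∀ v ∈ S.U D, S.rep v f' = f' := fun v hv => by
    simp only [f', map_sum]
    rw [← Equiv.sum_comp (Equiv.mulLeft (⟨v, hv⟩ : S.U D)) (fun u : S.U D => S.rep u f)]
    exact Finset.sum_congr rfl fun u _ => by simp
  obtain ⟨g, hg⟩ := S.exists_conj C D
  refine ⟨S.rep g⁻¹ f', M.apply_mem_toSubmodule _ h1, fun h => h2 ?_, fun u hu => ?_⟩
  · have : f' = 0 := by
      have := congrArg (S.rep g) h
      rwa [map_zero, ← Module.End.mul_apply, ← map_mul, mul_inv_cancel, map_one,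
        Module.End.one_apply] at this
    simp [this]
  · conv_rhs => rw [← h3 _ (hg u hu)]
    simp only [← Module.End.mul_apply, ← map_mul]
    congr 2
    group

theorem irreducible : S.rep.IsIrreducible := by
  obtain ⟨C, -⟩ := S.sylow ⊥ IsPGroup.of_bot
  obtain ⟨f₀, hf₀, D₀, h0, h1, -⟩ := S.exists_delta C
  have : Nontrivial (Subrepresentation S.rep) := ⟨⟨⊥, ⊤, fun h => by
    have h2 : (⊥ : Submodule ℂ S.St) = ⊤ := congrArg Subrepresentation.toSubmodule h
    have h3 : (⟨f₀, hf₀⟩ : S.St) ∈ (⊥ : Submodule ℂ S.St) := h2 ▸ Submodule.mem_top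
    have h4 : f₀ = 0 := congrArg Subtype.val ((Submodule.mem_bot ℂ).1 h3)
    simp [h4] at h1⟩⟩
  have : NeZero (Nat.card G : ℂ) := ⟨Nat.cast_ne_zero.2 Nat.card_pos.ne'⟩
  refine ⟨fun M => ?_⟩
  obtain ⟨N, hN⟩ := exists_isCompl M
  by_contra hh
  push Not at hh
  have hN0 : N ≠ ⊥ := by
    rintro rfl
    exact hh.2 (eq_top_of_isCompl_bot hN)
  obtain ⟨f, hf, hf0, hfu⟩ := S.exists_fixed C M hh.1
  obtain ⟨g, hg, hg0, hgu⟩ := S.exists_fixed C N hN0
  have hc : ∀ f : S.St, (∀ u ∈ S.U C, S.rep u f = f) → ∀ D, S.O C D → f.1 D = f.1 D₀ := by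
    intro f hf D hD
    obtain ⟨u, hu, e⟩ := S.trans C D₀ D h0 hD
    rw [← hf u hu, rep_apply, hf u hu, ← e]
    simp
  have hz : ∀ f : S.St, (∀ u ∈ S.U C, S.rep u f = f) → f.1 D₀ = 0 → f = 0 := fun f hf h =>
    Subtype.ext (S.eq_zero_of_O C f.2 fun D hD => (hc f hf D hD).trans h)
  have e : g.1 D₀ • f - f.1 D₀ • g = 0 := hz _ (fun u hu => by
    rw [map_sub, map_smul, map_smul, hfu u hu, hgu u hu]) (by simp [mul_comm])
  have e2 : g.1 D₀ • f ∈ (M ⊓ N).toSubmodule :=
    ⟨Submodule.smul_mem _ _ hf, by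
      rw [sub_eq_zero.1 e]
      exact Submodule.smul_mem _ _ hg⟩
  rw [hN.inf_eq_bot] at e2
  rcases smul_eq_zero.1 ((Submodule.mem_bot ℂ).1 e2) with h | h
  · exact hg0 (hz g hgu h)
  · exact hf0 h

end fin

include S in
theorem steinberg [Finite X] [Finite G] [Fact p.Prime] :
    ∃ χ : G → ℂ, Cfsg.IsIrrCharacter G χ ∧
      ∀ P : Sylow p G, χ 1 = Nat.card P ∧ ∀ x : G, x ∈ P → x ≠ 1 → χ x = 0 := by
  have := Fintype.ofFinite X
  refine ⟨S.rep.character, isIrrCharacter_of_rep _ S.irreducible, fun P => ?_⟩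
  obtain ⟨C, hC⟩ := S.sylow_eq P
  refine ⟨?_, fun x hx h1 => S.char_U C (hC ▸ hx) h1⟩
  rw [S.char_one C, ← hC]

/-- passing to a quotient acting on the chambers -/
def quot [Finite G] [Fact p.Prime] (N : Subgroup G) [N.Normal] (hN : ∀ z ∈ N, ∀ D, S.φ z D = D) :
    StData (G ⧸ N) X I p where
  φ := QuotientGroup.lift N S.φ fun z hz => Equiv.ext (hN z hz)
  adj := S.adj
  adj_refl := S.adj_refl
  adj_symm := S.adj_symm
  adj_trans := S.adj_trans
  adj_map i g D D' h := by
    obtain ⟨g, rfl⟩ := QuotientGroup.mk_surjective g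
    exact S.adj_map i g D D' h
  U C := (S.U C).map (QuotientGroup.mk' N)
  O := S.O
  U_fix := by
    rintro C _ ⟨u, hu, rfl⟩
    exact S.U_fix C u hu
  U_p C := (S.U_p C).map _
  U_O := by
    rintro C _ ⟨u, hu, rfl⟩
    exact S.U_O C u hu
  trans C D D' h h' := by
    obtain ⟨u, hu, e⟩ := S.trans C D D' h h'
    exact ⟨_, ⟨u, hu, rfl⟩, e⟩
  free := by
    rintro C D hD _ ⟨u, hu, rfl⟩ e
    rw [S.free C D hD u hu e, map_one]
  near := S.near
  apt := S.apt
  sylow P hP := by
    obtain ⟨Q, hQ⟩ := hP.exists_le_sylow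
    obtain ⟨Q, rfl⟩ := Sylow.mapSurjective_surjective (QuotientGroup.mk'_surjective N) p Q
    obtain ⟨C, hC⟩ := S.sylow Q Q.isPGroup'
    exact ⟨C, hQ.trans (Subgroup.map_mono hC)⟩

theorem steinberg_quot [Finite X] [Finite G] [Fact p.Prime] (N : Subgroup G) [N.Normal]
    (hN : ∀ z ∈ N, ∀ D, S.φ z D = D) :
    ∃ χ : G ⧸ N → ℂ, Cfsg.IsIrrCharacter (G ⧸ N) χ ∧
      ∀ P : Sylow p (G ⧸ N), χ 1 = Nat.card P ∧ ∀ x : G ⧸ N, x ∈ P → x ≠ 1 → χ x = 0 :=
  (S.quot N hN).steinberg

end StData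

end CfsgH7
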