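import Cfsg.Agent.H7.Stein1

set_option autoImplicit false

namespace CfsgH7

open Module Submodule

variable {F V : Type*} [Field F] [AddCommGroup V] [Module F V]

section dims

variable [FiniteDimensional F V]

theorem st_finrank_sup_span {W : Submodule F V} {x : V} (hx : x ∉ W) :
    finrank F ↥(W ⊔ span F {x}) = finrank F W + 1 := by
  have h0 : x ≠ 0 := by rintro rfl; exact hx W.zero_mem
  have h1 : W ⊓ span F {x} = ⊥ :=
    disjoint_iff.1 ((Submodule.disjoint_span_singleton' h0).2 hx)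
  have := Submodule.finrank_sup_add_finrank_inf_eq W (span F {x})
  rw [h1, finrank_bot, finrank_span_singleton h0] at this
  omega

theorem st_eq_sup_span {W W' : Submodule F V} (h : W ≤ W') (hr : finrank F W' ≤ finrank F W + 1)
    {x : V} (hx' : x ∈ W') (hx : x ∉ W) : W' = W ⊔ span F {x} :=
  (Submodule.eq_of_le_of_finrank_le (sup_le h ((span_singleton_le_iff_mem _ _).2 hx'))
    (by rw [st_finrank_sup_span hx]; exact hr)).symm

theorem st_finrank_inf_le (A : Submodule F V) {E E' : Submodule F V} (h : E ≤ E')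
    (hr : finrank F E' ≤ finrank F E + 1) : finrank F ↥(A ⊓ E') ≤ finrank F ↥(A ⊓ E) + 1 := by
  have h1 := Submodule.finrank_sup_add_finrank_inf_eq (A ⊓ E') E
  have h2 : A ⊓ E' ⊓ E = A ⊓ E := by rw [inf_assoc, inf_eq_right.2 h]
  have h3 : finrank F ↥(A ⊓ E' ⊔ E) ≤ finrank F E' :=
    Submodule.finrank_mono (sup_le inf_le_right h)
  rw [h2] at h1
  omega

theorem st_finrank_lt {W W' : Submodule F V} (h : W ≤ W') {x : V} (hx' : x ∈ W') (hx : x ∉ W) :
    finrank F W < finrank F W' :=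
  Submodule.finrank_lt_finrank_of_lt (lt_of_le_of_ne h fun e => hx (e ▸ hx'))

theorem st_exists_notMem {W W' : Submodule F V} (h : finrank F W < finrank F W') :
    ∃ x ∈ W', x ∉ W := by
  by_contra hh
  push Not at hh
  exact absurd (Submodule.finrank_mono (show W' ≤ W from hh)) (by omega)

theorem st_exists_inf {A B : Submodule F V} (h : finrank F V < finrank F A + finrank F B) :
    ∃ x ∈ A, x ∈ B ∧ x ≠ 0 := by
  have h1 := Submodule.finrank_sup_add_finrank_inf_eq A B
  have h2 := Submodule.finrank_le (A ⊔ B)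
  obtain ⟨x, hx, hx0⟩ := st_exists_notMem (W := ⊥) (W' := A ⊓ B) (by rw [finrank_bot]; omega)
  exact ⟨x, hx.1, hx.2, by simpa using hx0⟩

end dims

/-- flags of length `n` whose top member satisfies `T` -/
structure Flag (T : Submodule F V → Prop) (n : ℕ) where
  S : ℕ → Submodule F V
  mono : Monotone S
  rank : ∀ i ≤ n, finrank F (S i) = i
  top : ∀ i, n ≤ i → S i = S n
  ts : T (S n)

namespace Flag

variable {T : Submodule F V → Prop} {n : ℕ}

theorem ext' {D D' : Flag T n} (h : ∀ i ≤ n, D.S i = D'.S i) : D = D' := by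
  have : D.S = D'.S := funext fun i => by
    rcases le_total i n with hi | hi
    · exact h i hi
    · rw [D.top i hi, D'.top i hi, h n le_rfl]
  cases D; cases D'; congr

instance instFiniteFlag [Finite V] : Finite (Flag T n) := by
  have : Finite (Submodule F V) := Finite.of_injective _ SetLike.coe_injective
  exact Finite.of_injective (fun (D : Flag T n) (i : Fin (n + 1)) => D.S i) fun D D' h =>
    ext' fun i hi => congrFun h ⟨i, by omega⟩

theorem le_top' (D : Flag T n) (i : ℕ) : D.S i ≤ D.S n := by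
  rcases le_total i n with hi | hi
  · exact D.mono hi
  · exact (D.top i hi).le

/-- `i`-adjacency -/
def adj (i : ℕ) (D D' : Flag T n) : Prop := ∀ k ≤ n, k ≠ i → D.S k = D'.S k

variable [FiniteDimensional F V]

theorem zero (D : Flag T n) : D.S 0 = ⊥ := Submodule.finrank_eq_zero.1 (D.rank 0 (Nat.zero_le _))

theorem succ_eq (D : Flag T n) {i : ℕ} (hi : i < n) {x : V} (hx' : x ∈ D.S (i + 1))
    (hx : x ∉ D.S i) : D.S (i + 1) = D.S i ⊔ span F {x} :=
  st_eq_sup_span (D.mono (Nat.le_succ i)) (by rw [D.rank _ hi, D.rank _ hi.le]) hx' hx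

theorem exists_succ (D : Flag T n) {i : ℕ} (hi : i < n) : ∃ x ∈ D.S (i + 1), x ∉ D.S i :=
  st_exists_notMem (by rw [D.rank _ hi, D.rank _ hi.le]; omega)

/-- the flag of length zero -/
def nil (h : T ⊥) : Flag T 0 where
  S _ := ⊥
  mono := monotone_const
  rank i hi := by rw [finrank_bot]; omega
  top _ _ := rfl
  ts := h

/-- extension of a flag by a vector -/
def snoc (D : Flag T n) (x : V) (hx : x ∉ D.S n) (h : T (D.S n ⊔ span F {x})) :
    Flag T (n + 1) where
  S i := if i ≤ n then D.S i else D.S n ⊔ span F {x}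
  mono i j hij := by
    dsimp only
    split_ifs with h1 h2 h2
    · exact D.mono hij
    · exact (D.mono h1).trans le_sup_left
    · omega
    · exact le_rfl
  rank i hi := by
    by_cases h1 : i ≤ n
    · rw [if_pos h1]; exact D.rank i h1
    · rw [if_neg h1, st_finrank_sup_span hx, D.rank n le_rfl]; omega
  top i hi := by rw [if_neg (by omega), if_neg (by omega)]
  ts := by rwa [if_neg (by omega)]

theorem snoc_le (D : Flag T n) (x : V) (hx : x ∉ D.S n) (h : T (D.S n ⊔ span F {x})) {i : ℕ}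
    (hi : i ≤ n) : (D.snoc x hx h).S i = D.S i := if_pos hi

theorem snoc_succ (D : Flag T n) (x : V) (hx : x ∉ D.S n) (h : T (D.S n ⊔ span F {x})) :
    (D.snoc x hx h).S (n + 1) = D.S n ⊔ span F {x} := if_neg (by omega)

theorem inf_eq_of_adj {i : ℕ} (hi : i < n) {D D' : Flag T n} (h : adj (i + 1) D D') (hne : D' ≠ D) :
    D'.S (i + 1) ⊓ D.S (i + 1) ≤ D.S i := by
  intro x hx
  by_contra hx'
  have e1 := h i hi.le (by omega)
  apply hne
  refine ext' fun k hk => ?_
  by_cases hki : k = i + 1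
  · subst hki
    rw [D.succ_eq hi hx.2 hx', D'.succ_eq hi hx.1 (e1 ▸ hx'), e1]
  · exact (h k hk hki).symm

/-- closeness to the chain `E` -/
noncomputable def delta (E : ℕ → Submodule F V) (D : Flag T n) : ℕ :=
  ∑ i ∈ Finset.range (n + 1), ∑ j ∈ Finset.range (n + 1), finrank F ↥(D.S i ⊓ E j)

omit [FiniteDimensional F V] in
theorem delta_lt (E : ℕ → Submodule F V) {i : ℕ} (hi : i ≤ n) {D D' : Flag T n} (h : adj i D D')
    (h1 : ∀ j ≤ n, finrank F ↥(D'.S i ⊓ E j) ≤ finrank F ↥(D.S i ⊓ E j))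
    (h2 : ∃ j ≤ n, finrank F ↥(D'.S i ⊓ E j) < finrank F ↥(D.S i ⊓ E j)) :
    delta E D' < delta E D := by
  obtain ⟨j, hj, h2⟩ := h2
  have key : ∑ j ∈ Finset.range (n + 1), finrank F ↥(D'.S i ⊓ E j) <
      ∑ j ∈ Finset.range (n + 1), finrank F ↥(D.S i ⊓ E j) :=
    Finset.sum_lt_sum (fun j hj => h1 j (by simpa [Nat.lt_succ_iff] using hj))
      ⟨j, by simpa [Nat.lt_succ_iff] using hj, h2⟩
  refine Finset.sum_lt_sum (fun k hk => ?_) ⟨i, by simpa [Nat.lt_succ_iff] using hi, key⟩
  by_cases hki : k = i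
  · subst hki; exact key.le
  · rw [h k (by simpa [Nat.lt_succ_iff] using hk) hki]

theorem delta_lt_of {E : ℕ → Submodule F V} (hE : Monotone E) {i : ℕ} (hi : i < n)
    {D D' : Flag T n} (h : adj (i + 1) D D') {j : ℕ} (hj : j ≤ n) {x : V} (hx1 : x ∈ D.S (i + 1))
    (hx2 : x ∈ E j) (hx3 : x ∉ D.S i) (h' : D'.S (i + 1) ⊓ E j ≤ D.S i) :
    delta E D' < delta E D := by
  have e1 := h i hi.le (by omega)
  have lt : ∀ j', j ≤ j' → finrank F ↥(D.S i ⊓ E j') < finrank F ↥(D.S (i + 1) ⊓ E j') :=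
    fun j' hj' => st_finrank_lt (inf_le_inf_right _ (D.mono (Nat.le_succ i))) (x := x)
      ⟨hx1, hE hj' hx2⟩ fun hh => hx3 hh.1
  refine delta_lt E hi h (fun j' _ => ?_) ⟨j, hj, ?_⟩
  · rcases le_total j' j with hjj | hjj
    · exact Submodule.finrank_mono (le_inf
        (((inf_le_inf_left _ (hE hjj)).trans h').trans (D.mono (Nat.le_succ i))) inf_le_right)
    · have h3 := st_finrank_inf_le (E j') (E' := D'.S (i + 1)) (D'.mono (Nat.le_succ i))
        (by rw [D'.rank _ hi, D'.rank _ hi.le])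
      have h4 := lt j' hjj
      rw [inf_comm (E j'), inf_comm (E j'), ← e1] at h3
      simp only [Nat.succ_eq_add_one]
      omega
  · exact lt_of_le_of_lt (Submodule.finrank_mono (le_inf h' inf_le_right)) (lt j le_rfl)

theorem near_aux {E : ℕ → Submodule F V} (hE : Monotone E)
    (hE' : ∀ j < n, finrank F (E (j + 1)) ≤ finrank F (E j) + 1) (D : Flag T n)
    (h0 : ∀ i, i + 1 = n → D.S (i + 1) ⊓ E 0 ≤ D.S i) :
    (∀ i j, i + j = n → D.S i ⊓ E j = ⊥) ∨
      ∃ i, i + 1 < n ∧ ∀ D', adj (i + 1) D D' → D' ≠ D → delta E D' < delta E D := by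
  rw [or_iff_not_imp_right]
  intro hh
  have nn : ∀ i j, i + 1 < n → j ≤ n → D.S (i + 2) ⊓ E j ≤ D.S (i + 1) →
      D.S (i + 1) ⊓ E j ≤ D.S i := by
    intro i j hi hj h x hx
    by_contra hx'
    refine hh ⟨i, hi, fun D' hD' hne => delta_lt_of hE (by omega) hD' hj hx.1 hx.2 hx' ?_⟩
    intro y hy
    refine inf_eq_of_adj (by omega) hD' hne ⟨hy.1, h ⟨?_, hy.2⟩⟩
    rw [hD' (i + 2) hi (by omega)]
    exact D'.mono (Nat.le_succ _) hy.1
  have R : ∀ k i, i + 1 + k = n → D.S (i + 1) ⊓ E k ≤ D.S i := by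
    intro k
    induction k with
    | zero => exact fun i hi => h0 i hi
    | succ k ih =>
      intro i hi x hx
      have h1 := ih (i + 1) (by omega)
      have h2 := nn i k (by omega) (by omega) h1
      by_contra hx'
      refine hx' (nn i (k + 1) (by omega) (by omega) ?_ hx)
      have h3 : D.S (i + 2) ⊓ E k ≤ D.S i := fun y hy => h2 ⟨h1 hy, hy.2⟩
      rw [st_eq_sup_span (inf_le_inf_left (D.S (i + 2)) (hE (Nat.le_succ k)))
        (st_finrank_inf_le _ (hE (Nat.le_succ k)) (hE' k (by omega))) (x := x)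
        ⟨D.mono (Nat.le_succ _) hx.1, hx.2⟩ fun h => hx' (h3 h)]
      exact sup_le h1 ((span_singleton_le_iff_mem _ _).2 hx.1)
  intro i
  induction i with
  | zero => intro j _; rw [D.zero, bot_inf_eq]
  | succ i ih =>
    intro j hj
    rw [eq_bot_iff, ← ih (j + 1) (by omega)]
    exact le_inf (R j i hj) (inf_le_right.trans (hE (Nat.le_succ j)))

omit [FiniteDimensional F V] in
theorem card_lt_fin {i : ℕ} (hi : i ≤ n) : Fintype.card {k : Fin n | k.val < i} = i := by
  rw [Fintype.card_congr (show {k : Fin n | k.val < i} ≃ Fin i from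
    ⟨fun k => ⟨k.1, k.2⟩, fun k => ⟨⟨k, by omega⟩, k.2⟩, fun _ => rfl, fun _ => rfl⟩)]
  simp

/-- the flag spanned by the initial segments of a family of vectors -/
def ofVec (v : Fin n → V) (hv : LinearIndependent F v) (hT : T (span F (Set.range v))) :
    Flag T n where
  S i := span F (v '' {k | k.val < i})
  mono i j hij := span_mono (Set.image_mono fun k (hk : k.val < i) => lt_of_lt_of_le hk hij)
  rank i hi := by
    rw [Set.image_eq_range]
    exact (finrank_span_eq_card (hv.comp ((↑) : {k : Fin n | k.val < i} → Fin n)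
      Subtype.val_injective)).trans (card_lt_fin hi)
  top i hi := by
    congr 2
    ext k
    have := k.2
    simp only [Set.mem_ofPred_eq]
    omega
  ts := by
    have : {k : Fin n | k.val < n} = Set.univ := Set.eq_univ_of_forall fun k => k.2
    rwa [this, Set.image_univ]

omit [FiniteDimensional F V] in
theorem ofVec_S (v : Fin n → V) (hv : LinearIndependent F v) (hT : T (span F (Set.range v)))
    (i : ℕ) : (ofVec v hv hT).S i = span F (v '' {k | k.val < i}) := rfl

omit [FiniteDimensional F V] in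
theorem adj_ofVec_swap (v : Fin n → V) (hv : LinearIndependent F v)
    (hT : T (span F (Set.range v))) (a b : Fin n) (hab : a.val + 1 = b.val)
    (hv' : LinearIndependent F (v ∘ Equiv.swap a b))
    (hT' : T (span F (Set.range (v ∘ Equiv.swap a b)))) :
    adj b.val (ofVec v hv hT) (ofVec (v ∘ Equiv.swap a b) hv' hT') := by
  intro k _ hk
  rw [ofVec_S, ofVec_S, Set.image_comp]
  congr 2
  have key : ∀ x : Fin n, (Equiv.swap a b x).val < k ↔ x.val < k := fun x => by
    rw [Equiv.swap_apply_def]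
    split_ifs with h1 h2
    · subst h1; omega
    · subst h2; omega
    · rfl
  ext x
  simp only [Set.mem_ofPred_eq, Set.mem_image]
  constructor
  · intro hx
    exact ⟨Equiv.swap a b x, (key x).2 hx, by simp⟩
  · rintro ⟨y, hy, rfl⟩
    exact (key y).2 hy

omit [FiniteDimensional F V] in
theorem adj_ofVec_last (v v' : Fin n → V) (hv : LinearIndependent F v)
    (hT : T (span F (Set.range v))) (hv' : LinearIndependent F v')
    (hT' : T (span F (Set.range v'))) (h : ∀ k : Fin n, k.val + 1 < n → v k = v' k) :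
    adj n (ofVec v hv hT) (ofVec v' hv' hT') := by
  intro k hk hk'
  rw [ofVec_S, ofVec_S]
  congr 1
  exact Set.image_congr fun x (hx : x.val < k) => h x (by omega)

theorem eq_span_of (D : Flag T n) (e : Fin n → V) (h1 : ∀ k : Fin n, e k ∈ D.S (k + 1))
    (h2 : ∀ k : Fin n, e k ∉ D.S k) {i : ℕ} (hi : i ≤ n) :
    D.S i = span F (e '' {k | k.val < i}) := by
  induction i with
  | zero => simp [D.zero]
  | succ i ih =>
    rw [D.succ_eq hi (h1 ⟨i, hi⟩) (h2 ⟨i, hi⟩), ih (by omega), ← span_union, ← Set.image_singleton,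
      ← Set.image_union]
    congr 2
    ext k
    simp only [Set.mem_union, Set.mem_ofPred_eq, Set.mem_singleton_iff, Fin.ext_iff]
    omega

end Flag

theorem perm_eq_one_of_le {n : ℕ} (π : Equiv.Perm (Fin n)) (h : ∀ k, π k ≤ k) : π = 1 := by
  have h1 : ∑ k, (π k).val = ∑ k : Fin n, k.val := Equiv.sum_comp π (fun k => k.val)
  have h2 := (Finset.sum_eq_sum_iff_of_le (s := Finset.univ) (f := fun k => (π k).val)
    (g := fun k : Fin n => k.val) fun k _ => h k).1 h1
  ext k
  exact h2 k (Finset.mem_univ _)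

section action

variable {G : Type*} [Group G] (ρ : G →* Module.End F V)

theorem st_mul (g h : G) (v : V) : ρ (g * h) v = ρ g (ρ h v) := by rw [map_mul]; rfl

@[simp] theorem st_inv_apply (g : G) (v : V) : ρ g⁻¹ (ρ g v) = v := by
  rw [← st_mul, inv_mul_cancel, map_one]; rfl

@[simp] theorem st_apply_inv (g : G) (v : V) : ρ g (ρ g⁻¹ v) = v := by
  rw [← st_mul, mul_inv_cancel, map_one]; rfl

theorem st_inj (g : G) : Function.Injective (ρ g) := fun u v h => by
  simpa using congrArg (ρ g⁻¹) h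

theorem st_mem_map (g : G) {W : Submodule F V} {x : V} : x ∈ W.map (ρ g) ↔ ρ g⁻¹ x ∈ W :=
  ⟨by rintro ⟨y, hy, rfl⟩; simpa using hy, fun h => ⟨_, h, by simp⟩⟩

theorem st_finrank_map (g : G) (W : Submodule F V) : finrank F (W.map (ρ g)) = finrank F W :=
  (Submodule.equivMapOfInjective _ (st_inj ρ g) W).finrank_eq.symm

theorem st_map_eq [FiniteDimensional F V] {g : G} {W : Submodule F V} (h : ∀ x ∈ W, ρ g x ∈ W) :
    W.map (ρ g) = W :=
  Submodule.eq_of_le_of_finrank_le (by rintro _ ⟨x, hx, rfl⟩; exact h x hx)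
    (st_finrank_map ρ g W).ge

theorem st_inv_mem [FiniteDimensional F V] {g : G} {W : Submodule F V} (h : ∀ x ∈ W, ρ g x ∈ W)
    {x : V} (hx : x ∈ W) : ρ g⁻¹ x ∈ W := by
  rw [← st_mem_map, st_map_eq ρ h]; exact hx

variable {T : Submodule F V → Prop} {n : ℕ}

/-- image of a flag -/
def Flag.map (hT : ∀ g W, T W → T (W.map (ρ g))) (g : G) (D : Flag T n) : Flag T n where
  S i := (D.S i).map (ρ g)
  mono _ _ h := map_mono (D.mono h)
  rank i hi := (st_finrank_map ρ g _).trans (D.rank i hi)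
  top i hi := by rw [D.top i hi]
  ts := hT g _ D.ts

/-- the action on flags -/
def flagPerm (hT : ∀ g W, T W → T (W.map (ρ g))) (n : ℕ) : G →* Equiv.Perm (Flag T n) :=
  MonoidHom.toHomPerm
    { toFun := fun g => Flag.map ρ hT g
      map_one' := funext fun D => Flag.ext' fun i _ => by
        change (D.S i).map (ρ 1) = D.S i
        rw [map_one]; exact Submodule.map_id _
      map_mul' := fun g h => funext fun D => Flag.ext' fun i _ => by
        change (D.S i).map (ρ (g * h)) = ((D.S i).map (ρ h)).map (ρ g)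
        rw [map_mul, ← Submodule.map_comp]; rfl }

theorem flagPerm_S (hT : ∀ g W, T W → T (W.map (ρ g))) (g : G) (D : Flag T n) (i : ℕ) :
    (flagPerm ρ hT n g D).S i = (D.S i).map (ρ g) := rfl

/-- the elements acting trivially on `A / B`, stabilising `B` -/
def trivOn [FiniteDimensional F V] (A B : Submodule F V) (hBA : B ≤ A) : Subgroup G where
  carrier := {g | ∀ x ∈ A, ρ g x - x ∈ B}
  one_mem' x _ := by simp
  mul_mem' {g h} hg hh x hx := by
    have h1 := hh x hx
    have h2 := hg _ (hBA h1)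
    have : ρ (g * h) x - x = (ρ g (ρ h x - x) - (ρ h x - x)) + (ρ h x - x) + (ρ g x - x) := by
      rw [st_mul, map_sub]; abel
    rw [this]
    exact add_mem (add_mem h2 h1) (hg x hx)
  inv_mem' {g} hg x hx := by
    have h1 : ∀ y ∈ B, ρ g y ∈ B := fun y hy => by simpa using add_mem (hg y (hBA hy)) hy
    have : ρ g⁻¹ x - x = - ρ g⁻¹ (ρ g x - x) := by rw [map_sub, st_inv_apply, neg_sub]
    rw [this]
    exact neg_mem (st_inv_mem ρ h1 (hg x hx))

variable [FiniteDimensional F V]

theorem mem_trivOn {A B : Submodule F V} {hBA : B ≤ A} {g : G} :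
    g ∈ trivOn ρ A B hBA ↔ ∀ x ∈ A, ρ g x - x ∈ B := Iff.rfl

/-- the elements acting trivially on the factors of a flag -/
def Flag.unip (D : Flag T n) : Subgroup G :=
  ⨅ i : Fin n, trivOn ρ (D.S (i + 1)) (D.S i) (D.mono (Nat.le_succ _))

theorem Flag.mem_unip {D : Flag T n} {g : G} :
    g ∈ D.unip ρ ↔ ∀ i < n, ∀ x ∈ D.S (i + 1), ρ g x - x ∈ D.S i := by
  rw [Flag.unip, Subgroup.mem_iInf]
  exact ⟨fun h i hi => h ⟨i, hi⟩, fun h i => h i i.2⟩

theorem Flag.unip_mem {D : Flag T n} {g : G} (hg : g ∈ D.unip ρ) {i : ℕ} (hi : i ≤ n) {x : V}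
    (hx : x ∈ D.S i) : ρ g x ∈ D.S i := by
  cases i with
  | zero =>
    rw [D.zero] at hx ⊢
    simp [(Submodule.mem_bot F).1 hx]
  | succ i => simpa using add_mem (D.mono (Nat.le_succ i) ((Flag.mem_unip ρ).1 hg i hi x hx)) hx

theorem Flag.unip_fix (hT : ∀ g W, T W → T (W.map (ρ g))) {D : Flag T n} {g : G}
    (hg : g ∈ D.unip ρ) : flagPerm ρ hT n g D = D :=
  Flag.ext' fun _ hi => st_map_eq ρ fun _ hx => Flag.unip_mem ρ hg hi hx

theorem Flag.unip_pow {D : Flag T n} {g : G} (hg : g ∈ D.unip ρ) {i : ℕ} (hi : i ≤ n) {x : V}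
    (hx : x ∈ D.S i) : ((ρ g - 1) ^ i) x = 0 := by
  induction i generalizing x with
  | zero => rw [D.zero] at hx; simpa using hx
  | succ i ih =>
    rw [pow_succ, Module.End.mul_apply]
    exact ih (by omega) ((Flag.mem_unip ρ).1 hg i hi x hx)

theorem Flag.snoc_unip {D : Flag T n} {g : G} (hg : g ∈ D.unip ρ) {x : V} (hx : x ∉ D.S n)
    (h : T (D.S n ⊔ span F {x})) (h' : ρ g x - x ∈ D.S n) : g ∈ (D.snoc x hx h).unip ρ := by
  rw [Flag.mem_unip]
  intro i hi y hy
  rw [D.snoc_le x hx h (by omega)]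
  by_cases hin : i = n
  · subst hin
    rw [D.snoc_succ] at hy
    obtain ⟨a, ha, b, hb, rfl⟩ := Submodule.mem_sup.1 hy
    obtain ⟨c, rfl⟩ := Submodule.mem_span_singleton.1 hb
    have : ρ g (a + c • x) - (a + c • x) = ρ g a - a + c • (ρ g x - x) := by
      rw [map_add, map_smul, smul_sub]; abel
    rw [this]
    exact add_mem (sub_mem (Flag.unip_mem ρ hg le_rfl ha) ha) (smul_mem _ _ h')
  · rw [D.snoc_le x hx h (by omega)] at hy
    exact (Flag.mem_unip ρ).1 hg i (by omega) y hy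

omit [FiniteDimensional F V] in
theorem st_pow_eq_one (p : ℕ) [Fact p.Prime] [CharP F p] (hρ : Function.Injective ρ) {g : G}
    (h : IsNilpotent (ρ g - 1)) : ∃ k, g ^ p ^ k = 1 := by
  obtain ⟨m, hm⟩ := h
  refine ⟨m, hρ ?_⟩
  rcases subsingleton_or_nontrivial V with hV | hV
  · exact Subsingleton.elim _ _
  have : CharP (Module.End F V) p := charP_of_injective_algebraMap' F p
  have h1 := add_pow_char_pow_of_commute p m (Commute.one_right (ρ g - 1))
  have h2 : (ρ g - 1) ^ p ^ m = 0 :=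
    pow_eq_zero_of_le (Nat.lt_pow_self (Fact.out : p.Prime).one_lt).le hm
  rw [map_pow, map_one]
  simpa [h2] using h1

omit [FiniteDimensional F V] in
theorem st_exists_fixed (p : ℕ) [Fact p.Prime] [CharP F p] [Finite V] {P : Subgroup G}
    (hP : IsPGroup p P) {W M : Submodule F V} (hWM : W < M) (hW : ∀ g ∈ P, ∀ x ∈ W, ρ g x ∈ W)
    (hM : ∀ g ∈ P, ∀ x ∈ M, ρ g x ∈ M) : ∃ x ∈ M, x ∉ W ∧ ∀ g ∈ P, ρ g x - x ∈ W := by
  let M' := M.map W.mkQ
  letI : MulAction P M' :=
    { smul := fun g w => ⟨W.mapQ W (ρ g) (hW g g.2) w, by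
        obtain ⟨_, x, hx, rfl⟩ := w
        exact ⟨ρ g x, hM g g.2 x hx, rfl⟩⟩
      one_smul := by
        rintro ⟨_, x, hx, rfl⟩
        refine Subtype.ext ?_
        change W.mkQ (ρ 1 x) = W.mkQ x
        rw [map_one]; rfl
      mul_smul := by
        rintro g h ⟨_, x, hx, rfl⟩
        refine Subtype.ext ?_
        change W.mkQ (ρ (g * h) x) = W.mkQ (ρ g (ρ h x))
        rw [st_mul] }
  obtain ⟨y, hy, hy'⟩ := SetLike.exists_of_lt hWM
  have hy0 : (⟨W.mkQ y, y, hy, rfl⟩ : M') ≠ 0 := fun h =>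
    hy' ((Submodule.Quotient.mk_eq_zero W).1 (congrArg Subtype.val h))
  have : Finite M' := Finite.of_surjective (fun x : M => (⟨W.mkQ x, x, x.2, rfl⟩ : M'))
    (by rintro ⟨_, x, hx, rfl⟩; exact ⟨⟨x, hx⟩, rfl⟩)
  have hd : p ∣ Nat.card M' := by
    have : addOrderOf (⟨W.mkQ y, y, hy, rfl⟩ : M') = p :=
      addOrderOf_eq_prime (by rw [← Nat.cast_smul_eq_nsmul F, CharP.cast_eq_zero, zero_smul]) hy0
    exact this ▸ addOrderOf_dvd_natCard _
  have h0 : (0 : M') ∈ MulAction.fixedPoints P M' := fun g => Subtype.ext (map_zero _)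
  obtain ⟨⟨_, x, hx, rfl⟩, hb, hb'⟩ := hP.exists_fixed_point_of_prime_dvd_card_of_fixed_point M' hd h0
  refine ⟨x, hx, fun h => hb' (Subtype.ext ((Submodule.Quotient.mk_eq_zero W).2 h).symm),
    fun g hg => (Submodule.Quotient.eq W).1 (congrArg Subtype.val (hb ⟨g, hg⟩))⟩

end action

end CfsgH7
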