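import Cfsg.Agent.H7.Stein2

set_option autoImplicit false

namespace CfsgH7

open Module Submodule

variable {F V : Type*} [Field F] [AddCommGroup V] [Module F V]

theorem st_exists_dual {W : Submodule F V} {x : V} (hx : x ∉ W) :
    ∃ φ : Dual F V, φ x = 1 ∧ ∀ w ∈ W, φ w = 0 := by
  obtain ⟨f, hf, hf'⟩ := Submodule.exists_dual_map_eq_bot_of_notMem hx inferInstance
  refine ⟨(f x)⁻¹ • f, by simp [hf], fun w hw => ?_⟩
  have : f w = 0 := (Submodule.mem_bot F).1 (hf' ▸ Submodule.mem_map_of_mem hw)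
  simp [this]

theorem st_fix_flag {G : Type*} [Group G] (ρ : G →* Module.End F V) [FiniteDimensional F V]
    {T : Submodule F V → Prop} (hT : ∀ g W, T W → T (W.map (ρ g))) {n : ℕ} {z : G}
    (D : Flag T n) (hz : ∀ x ∈ D.S n, ρ z x ∈ span F {x}) : flagPerm ρ hT n z D = D :=
  Flag.ext' fun i _ => st_map_eq ρ fun x hx =>
    (span_singleton_le_iff_mem _ _).2 hx (hz x (D.le_top' i hx))

theorem st_map_inf_eq_bot {G : Type*} [Group G] (ρ : G →* Module.End F V) {g : G}
    {A B : Submodule F V} (h : A ⊓ B = ⊥) (hB : ∀ x ∈ B, ρ g⁻¹ x ∈ B) : A.map (ρ g) ⊓ B = ⊥ := by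
  rw [eq_bot_iff]
  rintro _ ⟨⟨x, hx, rfl⟩, hx'⟩
  have : x ∈ A ⊓ B := ⟨hx, by simpa using hB _ hx'⟩
  rw [h, Submodule.mem_bot] at this
  simp [this]

theorem st_map_sup_span {T : Module.End F V} {W : Submodule F V} (h : ∀ x ∈ W, T x = x) (f : V) :
    (W ⊔ span F {f}).map T = W ⊔ span F {T f} := by
  rw [Submodule.map_sup, Submodule.map_span, Set.image_singleton]
  congr 1
  exact le_antisymm (by rintro _ ⟨x, hx, rfl⟩; rwa [h x hx]) fun x hx => ⟨x, hx, h x hx⟩

theorem st_map_of_fix {T : Module.End F V} {W : Submodule F V} (h : ∀ x ∈ W, T x = x) :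
    W.map T = W :=
  le_antisymm (by rintro _ ⟨x, hx, rfl⟩; rwa [h x hx]) fun x hx => ⟨x, hx, h x hx⟩

namespace Proj

/-- no condition -/
abbrev TT (F V : Type*) [Field F] [AddCommGroup V] [Module F V] : Submodule F V → Prop :=
  fun _ => True

variable [FiniteDimensional F V] {n : ℕ}

/-- opposite flags -/
def Opp (C D : Flag (TT F V) n) : Prop := ∀ i j, i + j = n → D.S i ⊓ C.S j = ⊥

theorem top_eq (hn : finrank F V = n) (D : Flag (TT F V) n) : D.S n = ⊤ :=
  Submodule.eq_top_of_finrank_eq ((D.rank n le_rfl).trans hn.symm)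

theorem exists_f (hn : finrank F V = n) {C D : Flag (TT F V) n} (h : Opp C D) {k j : ℕ}
    (hk : k + j + 1 = n) :
    ∃ f ∈ D.S (k + 1), f ∈ C.S (j + 1) ∧ f ∉ D.S k ∧ f ∉ C.S j := by
  obtain ⟨f, h1, h2, h0⟩ := st_exists_inf (A := D.S (k + 1)) (B := C.S (j + 1))
    (by rw [D.rank _ (by omega), C.rank _ (by omega)]; omega)
  refine ⟨f, h1, h2, fun h3 => h0 ?_, fun h3 => h0 ?_⟩
  · exact (Submodule.mem_bot F).1 (h k (j + 1) (by omega) ▸ ⟨h3, h2⟩)
  · exact (Submodule.mem_bot F).1 (h (k + 1) j (by omega) ▸ ⟨h1, h3⟩)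

variable {G : Type*} [Group G] (ρ : G →* Module.End F V)

theorem opp_map {C D : Flag (TT F V) n} (h : Opp C D) {u : G} (hu : u ∈ C.unip ρ) :
    Opp C (flagPerm ρ (fun _ _ _ => trivial) n u D) := fun i j hij =>
  st_map_inf_eq_bot ρ (h i j hij) fun _ hx => Flag.unip_mem ρ (inv_mem hu) (by omega) hx

theorem trans (hn : finrank F V = n)
    (htv : ∀ (φ : Dual F V) (v : V), φ v = 0 → ∃ g, ∀ x, ρ g x = x + φ x • v)
    {C D D' : Flag (TT F V) n} (h : Opp C D) (h' : Opp C D') :
    ∃ u ∈ C.unip ρ, flagPerm ρ (fun _ _ _ => trivial) n u D = D' := by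
  have key : ∀ k ≤ n, ∃ u ∈ C.unip ρ, ∀ i ≤ k,
      (flagPerm ρ (fun _ _ _ => trivial) n u D).S i = D'.S i := by
    intro k
    induction k with
    | zero =>
      refine fun _ => ⟨1, one_mem _, fun i hi => ?_⟩
      rw [Nat.le_zero.1 hi, Flag.zero, Flag.zero]
    | succ k ih =>
      intro hk
      obtain ⟨u, hu, e⟩ := ih (by omega)
      have h1 := opp_map ρ h hu
      set D₁ := flagPerm ρ (fun _ _ _ => trivial) n u D with hD₁
      obtain ⟨j, hj⟩ : ∃ j, k + j + 1 = n := ⟨n - k - 1, by omega⟩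
      obtain ⟨f, f1, f2, f3, f4⟩ := exists_f hn h1 hj
      obtain ⟨f', g1, g2, g3, g4⟩ := exists_f hn h' hj
      have hf : f ∉ D₁.S k ⊔ C.S j := by
        intro hh
        obtain ⟨a, ha, b, hb, rfl⟩ := Submodule.mem_sup.1 hh
        have : a ∈ D₁.S k ⊓ C.S (j + 1) :=
          ⟨ha, by simpa using sub_mem f2 (C.mono (Nat.le_succ j) hb)⟩
        rw [h1 k (j + 1) (by omega), Submodule.mem_bot] at this
        exact f4 (by simpa [this] using hb)
      obtain ⟨φ, φ1, φ2⟩ := st_exists_dual hf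
      rw [C.succ_eq (by omega) g2 g4] at f2
      obtain ⟨b, hb, c, hc, hbc⟩ := Submodule.mem_sup.1 f2
      obtain ⟨c, rfl⟩ := Submodule.mem_span_singleton.1 hc
      have hc0 : c ≠ 0 := by
        rintro rfl
        exact f4 (by simpa [← hbc] using hb)
      obtain ⟨t, ht⟩ := htv φ (-b) (by rw [map_neg, φ2 b (mem_sup_right hb), neg_zero])
      have t1 : ∀ x ∈ D₁.S k, ρ t x = x := fun x hx => by simp [ht, φ2 x (mem_sup_left hx)]
      have t2 : ρ t f = c • f' := by rw [ht, φ1, ← hbc]; simp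
      refine ⟨t * u, mul_mem ((Flag.mem_unip ρ).2 fun i hi x hx => ?_) hu, fun i hi => ?_⟩
      · rw [ht, add_sub_cancel_left]
        rcases le_or_gt j i with hji | hji
        · exact smul_mem _ _ (neg_mem (C.mono hji hb))
        · rw [φ2 x (mem_sup_right (C.mono hji hx)), zero_smul]
          exact zero_mem _
      · rw [map_mul, Equiv.Perm.mul_apply, ← hD₁, flagPerm_S]
        by_cases hik : i = k + 1
        · subst hik
          rw [D₁.succ_eq hk f1 f3, st_map_sup_span t1, t2, e k le_rfl,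
            D'.succ_eq hk g1 g3, span_singleton_smul_eq (Ne.isUnit hc0)]
        · rw [st_map_of_fix fun x hx => t1 x (D₁.mono (by omega) hx), e i (by omega)]
  obtain ⟨u, hu, e⟩ := key n le_rfl
  exact ⟨u, hu, Flag.ext' e⟩

theorem free (hn : finrank F V = n) (hρ : Function.Injective ρ) {C D : Flag (TT F V) n}
    (h : Opp C D) {u : G} (hu : u ∈ C.unip ρ)
    (e : flagPerm ρ (fun _ _ _ => trivial) n u D = D) : u = 1 := by
  have key : ∀ k ≤ n, ∀ x ∈ D.S k, ρ u x = x := by
    intro k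
    induction k with
    | zero => intro _ x hx; rw [D.zero, Submodule.mem_bot] at hx; simp [hx]
    | succ k ih =>
      intro hk x hx
      obtain ⟨j, hj⟩ : ∃ j, k + j + 1 = n := ⟨n - k - 1, by omega⟩
      obtain ⟨f, f1, f2, f3, f4⟩ := exists_f hn h hj
      have hf : ρ u f - f ∈ D.S (k + 1) ⊓ C.S j := by
        refine ⟨sub_mem ?_ f1, (Flag.mem_unip ρ).1 hu j (by omega) f f2⟩
        rw [← e]
        exact ⟨f, f1, rfl⟩
      rw [h (k + 1) j (by omega), Submodule.mem_bot, sub_eq_zero] at hf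
      rw [D.succ_eq hk f1 f3] at hx
      obtain ⟨a, ha, b, hb, rfl⟩ := Submodule.mem_sup.1 hx
      obtain ⟨c, rfl⟩ := Submodule.mem_span_singleton.1 hb
      rw [map_add, map_smul, hf, ih (by omega) a ha]
  refine hρ (LinearMap.ext fun x => ?_)
  rw [key n le_rfl x (by rw [top_eq hn]; trivial), map_one, Module.End.one_apply]

theorem exists_frame (C : Flag (TT F V) n) : ∃ b : Fin n → V, LinearIndependent F b ∧
    ∀ i ≤ n, C.S i = span F (b '' {k | k.val < i}) := by
  choose b hb hb' using fun k : Fin n => C.exists_succ k.2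
  have h := fun i (hi : i ≤ n) => C.eq_span_of b hb hb' hi
  refine ⟨b, ?_, h⟩
  rw [linearIndependent_iff_card_eq_finrank_span, Fintype.card_fin, Set.finrank]
  have : {k : Fin n | k.val < n} = Set.univ := Set.eq_univ_of_forall fun k => k.2
  rw [← Set.image_univ, ← this, ← h n le_rfl, C.rank n le_rfl]

theorem sylow (hn : finrank F V = n) [Finite V] (p : ℕ) [Fact p.Prime] [CharP F p]
    {P : Subgroup G} (hP : IsPGroup p P) : ∃ C : Flag (TT F V) n, P ≤ C.unip ρ := by
  have key : ∀ k ≤ n, ∃ C : Flag (TT F V) k, P ≤ C.unip ρ := by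
    intro k
    induction k with
    | zero => exact fun _ => ⟨Flag.nil trivial, fun g _ => (Flag.mem_unip ρ).2 (by simp)⟩
    | succ k ih =>
      intro hk
      obtain ⟨C, hC⟩ := ih (by omega)
      have : C.S k < ⊤ := lt_top_iff_ne_top.2 fun h => by
        have := C.rank k le_rfl
        rw [h, finrank_top] at this
        omega
      obtain ⟨x, -, hx, hx'⟩ := st_exists_fixed ρ p hP this
        (fun g hg x hx => Flag.unip_mem ρ (hC hg) le_rfl hx) (fun _ _ _ _ => trivial)
      exact ⟨C.snoc x hx trivial, fun g hg => Flag.snoc_unip ρ (hC hg) hx trivial (hx' g hg)⟩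
  exact key n le_rfl

/-- the chamber system of the projective geometry -/
noncomputable def data (hn : finrank F V = n) [Finite V] (p : ℕ) [Fact p.Prime] [CharP F p]
    (hρ : Function.Injective ρ)
    (htv : ∀ (φ : Dual F V) (v : V), φ v = 0 → ∃ g, ∀ x, ρ g x = x + φ x • v) :
    StData G (Flag (TT F V) n) {i : ℕ // i + 1 < n} p where
  φ := flagPerm ρ (fun _ _ _ => trivial) n
  adj i := Flag.adj (i + 1)
  adj_refl _ _ _ _ _ := rfl
  adj_symm _ _ _ h k hk hk' := (h k hk hk').symm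
  adj_trans _ _ _ _ h h' k hk hk' := (h k hk hk').trans (h' k hk hk')
  adj_map _ g _ _ h k hk hk' := by rw [flagPerm_S, flagPerm_S, h k hk hk']
  U C := C.unip ρ
  O := Opp
  U_fix _ _ hu := Flag.unip_fix ρ _ hu
  U_p C u := by
    obtain ⟨k, hk⟩ := st_pow_eq_one ρ p hρ (g := u) ⟨n, LinearMap.ext fun x =>
      Flag.unip_pow ρ u.2 le_rfl (by rw [top_eq hn]; trivial)⟩
    exact ⟨k, Subtype.ext hk⟩
  U_O _ _ hu _ h := opp_map ρ h hu
  trans _ _ _ := trans ρ hn htv
  free _ _ h _ hu := free ρ hn hρ h hu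
  near C := ⟨Flag.delta C.S, fun D hD => by
    rcases Flag.near_aux C.mono (fun j hj => by rw [C.rank _ hj, C.rank _ hj.le]) D
      (fun i _ => by rw [C.zero, inf_bot_eq]; exact bot_le) with h | ⟨i, hi, h⟩
    · exact absurd h hD
    · exact ⟨⟨i, hi⟩, h⟩⟩
  apt C := by
    obtain ⟨b, hb, hC⟩ := exists_frame C
    have hli : ∀ π : Equiv.Perm (Fin n), LinearIndependent F ((b ∘ Fin.rev) ∘ π) := fun π =>
      (hb.comp _ Fin.rev_injective).comp _ π.injective
    refine ⟨Equiv.Perm (Fin n), inferInstance, fun π => Flag.ofVec _ (hli π) trivial,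
      fun π => ((Equiv.Perm.sign π : ℤ) : ℂ),
      fun i π => π * Equiv.swap ⟨i, by omega⟩ ⟨i + 1, i.2⟩, 1, fun i π => ?_, fun i π => ?_,
      fun i π => ?_, by simp, fun i j hij => ?_, fun π h => ?_⟩
    · beta_reduce
      rw [mul_assoc, Equiv.swap_mul_self, mul_one]
    · beta_reduce
      rw [Equiv.Perm.sign_mul, Equiv.Perm.sign_swap (by simp [Fin.ext_iff])]
      simp
    · exact Flag.adj_ofVec_swap (T := TT F V) ((b ∘ Fin.rev) ∘ π) (hli π) trivial
        ⟨i, by omega⟩ ⟨i + 1, i.2⟩ rfl (hli (π * _)) trivial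
    · rw [Flag.ofVec_S, hC j (by omega), Equiv.Perm.coe_one, Function.comp_id, Set.image_comp]
      refine disjoint_iff.1 (hb.disjoint_span_image ?_)
      rw [Set.disjoint_left]
      rintro _ ⟨k, hk, rfl⟩ hk'
      simp only [Set.mem_ofPred_eq, Fin.val_rev] at hk hk'
      omega
    · refine perm_eq_one_of_le π fun k => ?_
      by_contra hk
      have h1 : b (π k).rev ∈ (Flag.ofVec _ (hli π) trivial : Flag (TT F V) n).S (k + 1) ⊓
          C.S (n - (k + 1)) := by
        refine ⟨subset_span ⟨k, Nat.lt_succ_self _, rfl⟩, ?_⟩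
        rw [hC _ (by omega)]
        refine subset_span ⟨_, ?_, rfl⟩
        have := (π k).2
        simp only [Set.mem_ofPred_eq, Fin.val_rev, Fin.le_def] at hk ⊢
        omega
      rw [h _ _ (by have := k.2; omega), Submodule.mem_bot] at h1
      exact hb.ne_zero _ h1
  sylow _ hP := sylow ρ hn p hP

theorem steinberg (hn : 2 ≤ finrank F V) [Finite V] [Finite G] (p : ℕ) [Fact p.Prime] [CharP F p]
    (hρ : Function.Injective ρ)
    (htv : ∀ (φ : Dual F V) (v : V), φ v = 0 → ∃ g, ∀ x, ρ g x = x + φ x • v) :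
    ∃ χ : G ⧸ Subgroup.center G → ℂ, Cfsg.IsIrrCharacter (G ⧸ Subgroup.center G) χ ∧
      ∀ P : Sylow p (G ⧸ Subgroup.center G), χ 1 = Nat.card P ∧
        ∀ x : G ⧸ Subgroup.center G, x ∈ P → x ≠ 1 → χ x = 0 := by
  refine (data ρ rfl p hρ htv).steinberg_quot _ fun z hz D => st_fix_flag ρ _ D fun v _ => ?_
  by_cases hv : v = 0
  · simp [hv]
  obtain ⟨x, -, hx⟩ := st_exists_notMem (W := span F {v}) (W' := ⊤)
    (by rw [finrank_span_singleton hv, finrank_top]; omega)
  obtain ⟨φ, φ1, φ2⟩ := st_exists_dual hx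
  obtain ⟨t, ht⟩ := htv φ v (φ2 v (mem_span_singleton_self v))
  have := congrArg (fun g => ρ g x) (Subgroup.mem_center_iff.1 hz t)
  simp only [st_mul, ht, map_add, map_smul, φ1, one_smul, add_right_inj] at this
  exact Submodule.mem_span_singleton.2 ⟨_, this⟩

end Proj

end CfsgH7
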