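import Cfsg.Agent.H7.Stein3

set_option autoImplicit false

namespace CfsgH7

open Module Submodule

/-- an abstract polar space -/
structure Geo (F V : Type*) [Field F] [AddCommGroup V] [Module F V] where
  σ : F ≃+* F
  B : V → V → F
  add_left : ∀ u v w, B (u + v) w = B u w + B v w
  smul_left : ∀ (k : F) u v, B (k • u) v = k * B u v
  add_right : ∀ u v w, B u (v + w) = B u v + B u w
  smul_right : ∀ (k : F) u v, B u (k • v) = σ k * B u v
  refl : ∀ u v, B u v = 0 → B v u = 0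
  nondeg : ∀ u, (∀ v, B u v = 0) → u = 0
  sing : V → Prop
  sing_zero : sing 0
  sing_smul : ∀ (c : F) x, sing x → sing (c • x)
  sing_add : ∀ x y, sing x → sing y → B x y = 0 → sing (x + y)
  sing_self : ∀ x, sing x → B x x = 0
  partner : ∀ e x, sing e → B x e ≠ 0 → ∃ c : F, sing (x + c • e)

namespace Geo

variable {F V : Type*} [Field F] [AddCommGroup V] [Module F V] (Γ : Geo F V)

attribute [simp] add_left smul_left add_right smul_right

@[simp] theorem zero_left (v : V) : Γ.B 0 v = 0 := by simpa using Γ.smul_left 0 0 v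

@[simp] theorem zero_right (v : V) : Γ.B v 0 = 0 := by simpa using Γ.smul_right 0 v 0

@[simp] theorem neg_left (u v : V) : Γ.B (-u) v = - Γ.B u v := by simpa using Γ.smul_left (-1) u v

@[simp] theorem neg_right (u v : V) : Γ.B u (-v) = - Γ.B u v := by
  simpa using Γ.smul_right (-1) u v

@[simp] theorem sub_left (u v w : V) : Γ.B (u - v) w = Γ.B u w - Γ.B v w := by
  rw [sub_eq_add_neg, add_left, neg_left, sub_eq_add_neg]

@[simp] theorem sub_right (u v w : V) : Γ.B u (v - w) = Γ.B u v - Γ.B u w := by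
  rw [sub_eq_add_neg, add_right, neg_right, sub_eq_add_neg]

/-- the form as a functional -/
def Bl (y : V) : Dual F V where
  toFun x := Γ.B x y
  map_add' := by simp
  map_smul' := by simp

@[simp] theorem Bl_apply (y x : V) : Γ.Bl y x = Γ.B x y := rfl

/-- orthogonal complement -/
def perp (W : Submodule F V) : Submodule F V where
  carrier := {x | ∀ w ∈ W, Γ.B x w = 0}
  add_mem' hx hy w hw := by simp [hx w hw, hy w hw]
  zero_mem' w _ := by simp
  smul_mem' c x hx w hw := by simp [hx w hw]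

theorem mem_perp {W : Submodule F V} {x : V} : x ∈ Γ.perp W ↔ ∀ w ∈ W, Γ.B x w = 0 := Iff.rfl

theorem perp_anti {W W' : Submodule F V} (h : W ≤ W') : Γ.perp W' ≤ Γ.perp W :=
  fun _ hx w hw => hx w (h hw)

theorem mem_perp_sup {W W' : Submodule F V} {x : V} (h : x ∈ Γ.perp W) (h' : x ∈ Γ.perp W') :
    x ∈ Γ.perp (W ⊔ W') := fun w hw => by
  obtain ⟨a, ha, b, hb, rfl⟩ := Submodule.mem_sup.1 hw
  simp [h a ha, h' b hb]

theorem mem_perp_span {s : Set V} {x : V} (h : ∀ y ∈ s, Γ.B x y = 0) : x ∈ Γ.perp (span F s) := by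
  intro w hw
  induction hw using Submodule.span_induction with
  | mem y hy => exact h y hy
  | zero => simp
  | add a b _ _ ha hb => simp [ha, hb]
  | smul c a _ ha => simp [ha]

theorem mem_perp_sup_span {W : Submodule F V} {x y : V} (h : x ∈ Γ.perp W) (h' : Γ.B x y = 0) :
    x ∈ Γ.perp (W ⊔ span F {y}) :=
  Γ.mem_perp_sup h (Γ.mem_perp_span (by rintro _ rfl; exact h'))

theorem le_perp_perp (W : Submodule F V) : W ≤ Γ.perp (Γ.perp W) :=
  fun x hx w hw => Γ.refl _ _ (hw x hx)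

/-- totally singular subspaces -/
def TS (W : Submodule F V) : Prop := ∀ x ∈ W, Γ.sing x ∧ x ∈ Γ.perp W

variable {Γ}

theorem TS.mono {W W' : Submodule F V} (h : Γ.TS W') (hW : W ≤ W') : Γ.TS W :=
  fun x hx => ⟨(h x (hW hx)).1, Γ.perp_anti hW (h x (hW hx)).2⟩

theorem TS.le {W : Submodule F V} (h : Γ.TS W) : W ≤ Γ.perp W := fun x hx => (h x hx).2

theorem TS.B {W : Submodule F V} (h : Γ.TS W) {x y : V} (hx : x ∈ W) (hy : y ∈ W) :
    Γ.B x y = 0 := (h x hx).2 y hy

theorem ts_span {s : Set V} (h : ∀ x ∈ s, Γ.sing x) (h' : ∀ x ∈ s, ∀ y ∈ s, Γ.B x y = 0) :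
    Γ.TS (span F s) := by
  have h1 : span F s ≤ Γ.perp (span F s) := span_le.2 fun x hx => Γ.mem_perp_span (h' x hx)
  intro x hx
  refine ⟨?_, h1 hx⟩
  induction hx using Submodule.span_induction with
  | mem y hy => exact h y hy
  | zero => exact Γ.sing_zero
  | add a b ha hb ha' hb' => exact Γ.sing_add a b ha' hb' (h1 ha b hb)
  | smul c a _ ha => exact Γ.sing_smul c a ha

theorem ts_bot : Γ.TS ⊥ := by simpa using ts_span (Γ := Γ) (s := ∅) (by simp) (by simp)

theorem TS.sup_span {W : Submodule F V} (h : Γ.TS W) {x : V} (hx : Γ.sing x) (hx' : x ∈ Γ.perp W) :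
    Γ.TS (W ⊔ span F {x}) := by
  rw [← span_eq W, ← span_union]
  refine ts_span ?_ ?_
  · rintro y (hy | rfl)
    · exact (h y hy).1
    · exact hx
  · rintro y (hy | rfl) z (hz | rfl)
    · exact h.B hy hz
    · exact Γ.refl _ _ (hx' y hy)
    · exact hx' z hz
    · exact Γ.sing_self _ hx

theorem flag_ts {n : ℕ} (D : Flag Γ.TS n) (i : ℕ) : Γ.TS (D.S i) := D.ts.mono (D.le_top' i)

theorem flag_B {n : ℕ} (D : Flag Γ.TS n) {i j : ℕ} {x y : V} (hx : x ∈ D.S i) (hy : y ∈ D.S j) :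
    Γ.B x y = 0 := D.ts.B (D.le_top' i hx) (D.le_top' j hy)

theorem linearIndependent_of_dual {ι : Type*} [Fintype ι] {g h : ι → V}
    (h1 : ∀ i j, i ≠ j → Γ.B (g i) (h j) = 0) (h2 : ∀ i, Γ.B (g i) (h i) ≠ 0) :
    LinearIndependent F g := by
  rw [Fintype.linearIndependent_iff]
  intro c hc j
  have := congrArg (Γ.Bl (h j)) hc
  rw [map_sum, map_zero, Finset.sum_eq_single j (fun i _ hi => by simp [h1 i j hi]) (by simp)] at this
  simpa [h2 j] using this

section fin

variable [Finite F] [FiniteDimensional F V]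

variable (Γ) in
theorem finrank_perp (W : Submodule F V) : finrank F W + finrank F (Γ.perp W) = finrank F V := by
  let W' : Submodule F (Dual F V) :=
    { carrier := Γ.Bl '' W
      add_mem' := by
        rintro _ _ ⟨a, ha, rfl⟩ ⟨b, hb, rfl⟩
        exact ⟨a + b, add_mem ha hb, by ext; simp⟩
      zero_mem' := ⟨0, zero_mem _, by ext; simp⟩
      smul_mem' := by
        rintro c _ ⟨a, ha, rfl⟩
        exact ⟨Γ.σ.symm c • a, smul_mem _ _ ha, by ext; simp⟩ }
  have hinj : Function.Injective Γ.Bl := fun a b h => sub_eq_zero.1 (Γ.nondeg _ fun v =>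
    Γ.refl _ _ (by simpa [sub_eq_zero] using LinearMap.congr_fun h v))
  have h1 : Nat.card W' = Nat.card W := Nat.card_image_of_injective hinj W
  rw [Module.natCard_eq_pow_finrank (K := F) (V := W'),
    Module.natCard_eq_pow_finrank (K := F) (V := W)] at h1
  have h2 := Nat.pow_right_injective (Finite.one_lt_card (α := F)) h1
  have h3 : Γ.perp W = W'.dualCoannihilator := by
    ext x
    rw [Submodule.mem_dualCoannihilator]
    exact ⟨by rintro h _ ⟨a, ha, rfl⟩; exact h a ha, fun h w hw => h _ ⟨w, hw, rfl⟩⟩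
  rw [h3, ← h2]
  exact Subspace.finrank_add_finrank_dualCoannihilator_eq W'

variable (Γ) in
theorem perp_perp (W : Submodule F V) : Γ.perp (Γ.perp W) = W := by
  have h1 := Γ.finrank_perp W
  have h2 := Γ.finrank_perp (Γ.perp W)
  exact (Submodule.eq_of_le_of_finrank_le (Γ.le_perp_perp W) (by omega)).symm

theorem exists_perp_ne {W : Submodule F V} {e : V} (he : e ∉ W) :
    ∃ y ∈ Γ.perp W, Γ.B y e ≠ 0 := by
  by_contra h
  push Not at h
  exact he (Γ.perp_perp W ▸ fun w hw => Γ.refl _ _ (h w hw))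

theorem sup_perp_eq_top {A D : Submodule F V} (hr : finrank F A = finrank F D)
    (h : D ⊓ Γ.perp A = ⊥) : D ⊔ Γ.perp A = ⊤ := by
  have h1 := Γ.finrank_perp A
  have h2 := Submodule.finrank_sup_add_finrank_inf_eq D (Γ.perp A)
  rw [h, finrank_bot] at h2
  exact Submodule.eq_top_of_finrank_eq (by omega)

theorem opp_symm {A D : Submodule F V} (hr : finrank F A = finrank F D)
    (h : D ⊓ Γ.perp A = ⊥) : A ⊓ Γ.perp D = ⊥ := by
  rw [eq_bot_iff]
  intro x hx
  have := Γ.mem_perp_sup hx.2 (Γ.le_perp_perp A hx.1)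
  rw [sup_perp_eq_top hr h] at this
  exact Γ.nondeg x fun v => this v trivial

theorem exists_e {A A' D : Submodule F V} (hr : finrank F A = finrank F D)
    (hr' : finrank F A' = finrank F D + 1) (h : D ⊓ Γ.perp A = ⊥) :
    ∃ e ∈ A', e ∈ Γ.perp D ∧ e ∉ A := by
  have h1 := Γ.finrank_perp D
  obtain ⟨e, e1, e2, e0⟩ := st_exists_inf (A := A') (B := Γ.perp D) (by omega)
  exact ⟨e, e1, e2, fun h3 => e0 ((Submodule.mem_bot F).1 (opp_symm hr h ▸ ⟨h3, e2⟩))⟩

variable (Γ) in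
/-- `n` is the Witt index -/
def Witt (n : ℕ) : Prop := (∃ W, Γ.TS W ∧ finrank F W = n) ∧ ∀ W, Γ.TS W → finrank F W ≤ n

omit [Finite F] in
variable (Γ) in
theorem exists_witt : ∃ n, Γ.Witt n := by
  classical
  have h : ∃ W, Γ.TS W ∧ finrank F W = Nat.findGreatest (fun k => ∃ W, Γ.TS W ∧ finrank F W = k)
      (finrank F V) :=
    Nat.findGreatest_spec (P := fun k => ∃ W, Γ.TS W ∧ finrank F W = k) (Nat.zero_le _)
      ⟨⊥, ts_bot, finrank_bot _ _⟩
  exact ⟨_, h, fun W hW => Nat.le_findGreatest (Submodule.finrank_le W) ⟨W, hW, rfl⟩⟩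

variable {n : ℕ}

omit [Finite F] in
theorem Witt.mem (hn : Γ.Witt n) {W : Submodule F V} (hW : Γ.TS W) (hr : finrank F W = n) {x : V}
    (hx : Γ.sing x) (hx' : x ∈ Γ.perp W) : x ∈ W := by
  by_contra h
  have := hn.2 _ (hW.sup_span hx hx')
  rw [st_finrank_sup_span h] at this
  omega

theorem Witt.exists_ext (hn : Γ.Witt n) {W : Submodule F V} (hr : finrank F W < n) :
    ∃ x, Γ.sing x ∧ x ∈ Γ.perp W ∧ x ∉ W := by
  obtain ⟨C, hC, hC'⟩ := hn.1
  by_contra h
  push Not at h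
  have h1 : finrank F ↥(C ⊓ Γ.perp W) ≤ finrank F ↥(C ⊓ W) :=
    Submodule.finrank_mono fun x hx => ⟨hx.1, h x (hC x hx.1).1 hx.2⟩
  have h2 : finrank F ↥(C ⊔ Γ.perp W) ≤ finrank F (Γ.perp (C ⊓ W)) :=
    Submodule.finrank_mono (sup_le (hC.le.trans (Γ.perp_anti inf_le_left))
      (Γ.perp_anti inf_le_right))
  have h3 := Submodule.finrank_sup_add_finrank_inf_eq C (Γ.perp W)
  have h4 := Γ.finrank_perp W
  have h5 := Γ.finrank_perp (C ⊓ W)
  omega

theorem Witt.exists_chamber (hn : Γ.Witt n) {k : ℕ} (hk : k ≤ n) (D : Flag Γ.TS k) :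
    ∃ D' : Flag Γ.TS n, ∀ i ≤ k, D'.S i = D.S i := by
  induction hk using Nat.decreasingInduction with
  | self => exact ⟨D, fun _ _ => rfl⟩
  | of_succ k hk ih =>
    obtain ⟨x, h1, h2, h3⟩ := hn.exists_ext (W := D.S k) (by rw [D.rank k le_rfl]; exact hk)
    obtain ⟨D', hD'⟩ := ih (D.snoc x h3 (D.ts.sup_span h1 h2))
    exact ⟨D', fun i hi => by rw [hD' i (by omega), D.snoc_le _ _ _ hi]⟩

/-- opposite chambers -/
def Opp (C D : Flag Γ.TS n) : Prop := ∀ i ≤ n, D.S i ⊓ Γ.perp (C.S i) = ⊥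

theorem Opp.symm {C D : Flag Γ.TS n} (h : Opp C D) : Opp D C := fun i hi =>
  opp_symm (by rw [C.rank i hi, D.rank i hi]) (h i hi)

theorem Opp.exists_e {C D : Flag Γ.TS n} (h : Opp C D) {k : ℕ} (hk : k < n) :
    ∃ e ∈ C.S (k + 1), e ∈ Γ.perp (D.S k) ∧ e ∉ C.S k :=
  Geo.exists_e (by rw [C.rank k hk.le, D.rank k hk.le]) (by rw [C.rank _ hk, D.rank k hk.le])
    (h k hk.le)

omit [Finite F] in
theorem Opp.B_ne {C D : Flag Γ.TS n} (h : Opp C D) {k : ℕ} (hk : k < n) {e f : V}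
    (e1 : e ∈ C.S (k + 1)) (e3 : e ∉ C.S k) (f1 : f ∈ D.S (k + 1)) (f2 : f ∈ Γ.perp (C.S k))
    (f3 : f ∉ D.S k) : Γ.B f e ≠ 0 := fun h0 => by
  have : f ∈ D.S (k + 1) ⊓ Γ.perp (C.S (k + 1)) :=
    ⟨f1, by rw [C.succ_eq hk e1 e3]; exact Γ.mem_perp_sup_span f2 h0⟩
  rw [h _ hk, Submodule.mem_bot] at this
  exact f3 (this ▸ zero_mem _)

theorem exists_opp (C : Flag Γ.TS n) : ∃ D, Opp C D := by
  have key : ∀ k ≤ n, ∃ D : Flag Γ.TS k, ∀ i ≤ k, D.S i ⊓ Γ.perp (C.S i) = ⊥ := by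
    intro k
    induction k with
    | zero => exact fun _ => ⟨Flag.nil ts_bot, fun i _ => bot_inf_eq _⟩
    | succ k ih =>
      intro hk
      obtain ⟨D, hD⟩ := ih (by omega)
      have r1 := C.rank k (by omega)
      have r2 := D.rank k le_rfl
      obtain ⟨e, e1, e2, e3⟩ := exists_e (A := C.S k) (A' := C.S (k + 1)) (D := D.S k)
        (by omega) (by rw [C.rank _ hk, r2]) (hD k le_rfl)
      have e4 : e ∉ C.S k ⊔ D.S k := by
        intro hh
        obtain ⟨a, ha, b, hb, rfl⟩ := Submodule.mem_sup.1 hh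
        have : b ∈ D.S k ⊓ Γ.perp (C.S k) := ⟨hb, fun w hw =>
          flag_B C (i := k + 1) (by simpa using sub_mem e1 (C.mono (Nat.le_succ k) ha)) hw⟩
        rw [hD k le_rfl, Submodule.mem_bot] at this
        exact e3 (by simpa [this] using ha)
      obtain ⟨y, y1, y2⟩ := exists_perp_ne (Γ := Γ) e4
      have es := (flag_ts C _ e e1).1
      obtain ⟨c, hc⟩ := Γ.partner e y es y2
      have f1 : y + c • e ∈ Γ.perp (D.S k) :=
        add_mem (Γ.perp_anti le_sup_right y1) (smul_mem _ _ e2)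
      have f2 : Γ.B (y + c • e) e ≠ 0 := by simpa [Γ.sing_self e es] using y2
      have f3 : y + c • e ∉ D.S k := fun h => f2 (Γ.refl _ _ (e2 _ h))
      refine ⟨D.snoc _ f3 (D.ts.sup_span hc f1), fun i hi => ?_⟩
      by_cases hik : i = k + 1
      · subst hik
        rw [D.snoc_succ, eq_bot_iff]
        rintro x ⟨hx, hx'⟩
        obtain ⟨a, ha, b, hb, rfl⟩ := Submodule.mem_sup.1 hx
        obtain ⟨d, rfl⟩ := Submodule.mem_span_singleton.1 hb
        have h1 := hx' e e1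
        rw [Γ.add_left, Γ.refl _ _ (e2 a ha), zero_add, Γ.smul_left, mul_eq_zero,
          or_iff_left f2] at h1
        subst h1
        rw [zero_smul, add_zero] at hx' ⊢
        exact hD k le_rfl ▸ ⟨ha, Γ.perp_anti (C.mono (Nat.le_succ k)) hx'⟩
      · rw [D.snoc_le _ _ _ (by omega)]
        exact hD i (by omega)
  exact key n le_rfl

theorem near (hn : Γ.Witt n) (C : Flag Γ.TS n) : ∃ δ : Flag Γ.TS n → ℕ, ∀ D, ¬ Opp C D →
    ∃ i : {i : ℕ // i < n}, ∀ D', Flag.adj (i + 1) D D' → D' ≠ D → δ D' < δ D := by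
  let E : ℕ → Submodule F V := fun j => Γ.perp (C.S (n - j))
  have hE : Monotone E := fun i j hij => Γ.perp_anti (C.mono (by omega))
  refine ⟨Flag.delta E, fun D hD => ?_⟩
  by_cases h0 : ∀ i, i + 1 = n → D.S (i + 1) ⊓ E 0 ≤ D.S i
  · rcases Flag.near_aux hE (fun j hj => by
      have h1 := Γ.finrank_perp (C.S (n - j))
      have h2 := Γ.finrank_perp (C.S (n - (j + 1)))
      rw [C.rank _ (by omega)] at h1 h2
      dsimp only [E]
      omega) D h0 with h | ⟨i, hi, h⟩
    · refine absurd (fun i hi => ?_) hD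
      have := h i (n - i) (by omega)
      dsimp only [E] at this
      rwa [show n - (n - i) = i by omega] at this
    · exact ⟨⟨i, by omega⟩, h⟩
  · push Not at h0
    obtain ⟨i, hi, h0⟩ := h0
    obtain ⟨x, hx, hx'⟩ := SetLike.not_le_iff_exists.1 h0
    subst hi
    refine ⟨⟨i, by omega⟩, fun D' h hne =>
      Flag.delta_lt_of hE (Nat.lt_succ_self i) h (Nat.zero_le _) hx.1 hx.2 hx' fun y hy => ?_⟩
    have x1 := hn.mem C.ts (C.rank _ le_rfl) (D.ts x hx.1).1 hx.2
    have y1 := hn.mem C.ts (C.rank _ le_rfl) (D'.ts y hy.1).1 hy.2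
    refine Flag.inf_eq_of_adj (Nat.lt_succ_self i) h hne ⟨hy.1, hn.mem D.ts (D.rank _ le_rfl)
      (D'.ts y hy.1).1 ?_⟩
    rw [D.succ_eq (by omega) hx.1 hx']
    refine Γ.mem_perp_sup_span (fun w hw => flag_B D' hy.1 (j := i) ?_) (C.ts.B y1 x1)
    rwa [← h i (by omega) (by simp)]

theorem apt (C : Flag Γ.TS n) : ∃ (W : Type) (_ : Fintype W) (ch : W → Flag Γ.TS n) (s : W → ℂ)
    (τ : {i : ℕ // i < n} → W → W) (w₀ : W),
    (∀ i w, τ i (τ i w) = w) ∧ (∀ i w, s (τ i w) = - s w) ∧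
      (∀ i w, Flag.adj (i.1 + 1) (ch w) (ch (τ i w))) ∧
      s w₀ ≠ 0 ∧ Opp C (ch w₀) ∧ ∀ w, Opp C (ch w) → w = w₀ := by
  obtain ⟨D, hD⟩ := exists_opp C
  choose e e1 e2 e3 using fun k : Fin n => hD.exists_e k.2
  choose f f1 f2 f3 using fun k : Fin n => hD.symm.exists_e k.2
  have hfe : ∀ k l, k ≠ l → Γ.B (f k) (e l) = 0 := fun k l hkl => by
    rcases lt_or_gt_of_ne hkl with h | h
    · exact Γ.refl _ _ (e2 l _ (D.mono h (f1 k)))
    · exact f2 k _ (C.mono h (e1 l))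
  have hfe' : ∀ k, Γ.B (f k) (e k) ≠ 0 := fun k => hD.B_ne k.2 (e1 k) (e3 k) (f1 k) (f2 k) (f3 k)
  let g : (Fin n → Bool) → Fin n → V := fun ε k => if ε k then e k else f k
  have hg : ∀ ε ε' k l, k ≠ l → Γ.B (g ε k) (g ε' l) = 0 := fun ε ε' k l hkl => by
    dsimp only [g]
    split_ifs
    · exact flag_B C (e1 k) (e1 l)
    · exact Γ.refl _ _ (hfe l k hkl.symm)
    · exact hfe k l hkl
    · exact flag_B D (f1 k) (f1 l)
  have hs : ∀ ε k, Γ.sing (g ε k) := fun ε k => by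
    dsimp only [g]
    split_ifs
    · exact (flag_ts C _ _ (e1 k)).1
    · exact (flag_ts D _ _ (f1 k)).1
  have hli : ∀ w : Equiv.Perm (Fin n) × (Fin n → Bool), LinearIndependent F (g w.2 ∘ w.1) :=
    fun w => (linearIndependent_of_dual (h := g fun k => !w.2 k) (hg _ _) fun k => by
      rcases Bool.eq_false_or_eq_true (w.2 k) with h | h
      · simpa [g, h] using fun h => hfe' k (Γ.refl _ _ h)
      · simpa [g, h] using hfe' k).comp _ w.1.injective
  have hts : ∀ w : Equiv.Perm (Fin n) × (Fin n → Bool),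
      Γ.TS (span F (Set.range (g w.2 ∘ w.1))) := fun w => by
    refine ts_span ?_ ?_
    · rintro _ ⟨k, rfl⟩; exact hs _ _
    · rintro _ ⟨k, rfl⟩ _ ⟨l, rfl⟩
      by_cases hkl : w.1 k = w.1 l
      · simp only [Function.comp, hkl]; exact Γ.sing_self _ (hs _ _)
      · exact hg _ _ _ _ hkl
  refine ⟨Equiv.Perm (Fin n) × (Fin n → Bool), inferInstance,
    fun w => Flag.ofVec _ (hli w) (hts w),
    fun w => ((Equiv.Perm.sign w.1 : ℤ) : ℂ) * ∏ k, if w.2 k then -1 else 1,
    fun i w => if h : i.1 + 1 < n then (w.1 * Equiv.swap ⟨i, i.2⟩ ⟨i + 1, h⟩, w.2)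
      else (w.1, Function.update w.2 (w.1 ⟨i, i.2⟩) (!w.2 (w.1 ⟨i, i.2⟩))),
    (1, fun _ => false), fun i w => ?_, fun i w => ?_, fun i w => ?_, by simp, ?_, fun w h => ?_⟩
  · beta_reduce
    split_ifs with h
    · rw [mul_assoc, Equiv.swap_mul_self, mul_one]
    · simp
  · beta_reduce
    split_ifs with h
    · rw [Equiv.Perm.sign_mul, Equiv.Perm.sign_swap (by simp [Fin.ext_iff])]
      simp
    · rw [← mul_neg]
      congr 1
      rw [← Finset.mul_prod_erase _ _ (Finset.mem_univ (w.1 ⟨i, i.2⟩)),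
        ← Finset.mul_prod_erase _ _ (Finset.mem_univ (w.1 ⟨i, i.2⟩)), ← neg_mul]
      congr 1
      · rcases Bool.eq_false_or_eq_true (w.2 (w.1 ⟨i, i.2⟩)) with h | h <;> simp [h]
      · exact Finset.prod_congr rfl fun k hk => by
          simp only [Function.update_of_ne (Finset.ne_of_mem_erase hk)]
  · beta_reduce
    split_ifs with h
    · exact Flag.adj_ofVec_swap (T := Γ.TS) (g w.2 ∘ w.1) (hli w) (hts w)
        ⟨i, i.2⟩ ⟨i + 1, h⟩ rfl (hli (w.1 * _, w.2)) (hts (w.1 * _, w.2))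
    · have hi : i.1 + 1 = n := by have := i.2; omega
      have := Flag.adj_ofVec_last (T := Γ.TS) _ _ (hli w) (hts w)
        (hli (w.1, Function.update w.2 (w.1 ⟨i, i.2⟩) (!w.2 (w.1 ⟨i, i.2⟩))))
        (hts (w.1, Function.update w.2 (w.1 ⟨i, i.2⟩) (!w.2 (w.1 ⟨i, i.2⟩)))) fun k hk => by
          have : w.1 k ≠ w.1 ⟨i, i.2⟩ := fun h' => by
            have := congrArg Fin.val (w.1.injective h')
            simp only at this
            omega
          simp only [Function.comp, g, Function.update_of_ne this]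
      intro k hk hk'
      exact this k hk (by omega)
  · intro i hi
    rw [Flag.ofVec_S, ← hD i hi, D.eq_span_of f f1 f3 hi]
    rfl
  · have key : ∀ k, w.2 (w.1 k) = false ∧ w.1 k ≤ k := fun k => by
      have h1 : g w.2 (w.1 k) ∉ Γ.perp (C.S (k + 1)) := fun h' => by
        have : g w.2 (w.1 k) ∈ (Flag.ofVec _ (hli w) (hts w) : Flag Γ.TS n).S (k + 1) ⊓
            Γ.perp (C.S (k + 1)) := ⟨subset_span ⟨k, Nat.lt_succ_self _, rfl⟩, h'⟩
        rw [h _ k.2, Submodule.mem_bot] at this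
        exact (hli w).ne_zero k this
      dsimp only [g] at h1
      split_ifs at h1 with h2
      · exact absurd (fun x hx => flag_B C (e1 _) hx) h1
      · refine ⟨by simpa using h2, not_lt.1 fun h3 => h1 (Γ.perp_anti (C.mono h3) (f2 _))⟩
    have h1 := perm_eq_one_of_le w.1 fun k => (key k).2
    refine Prod.ext h1 (funext fun k => ?_)
    simpa [h1] using (key k).1

end fin

end Geo

end CfsgH7
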