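import Cfsg.Agent.H7.Stein4

set_option autoImplicit false

namespace CfsgH7

open Module Submodule

namespace Geo

variable {F V : Type*} [Field F] [AddCommGroup V] [Module F V] {Γ : Geo F V}
  {G : Type*} [Group G] {ρ : G →* Module.End F V}

variable (Γ ρ) in
/-- action by isometries -/
def Isom : Prop :=
  ∀ g, (∀ u v, Γ.B (ρ g u) (ρ g v) = Γ.B u v) ∧ ∀ x, Γ.sing x → Γ.sing (ρ g x)

variable (Γ ρ) in
/-- existence of Eichler transformations -/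
def Eich : Prop :=
  ∀ e f f', Γ.sing e → Γ.sing f → Γ.sing f' → Γ.B f e = 1 → Γ.B f' e = 1 →
    ∃ u, ρ u e = e ∧ ρ u f = f' ∧ (∀ x, Γ.B x e = 0 → ρ u x - x ∈ span F {e}) ∧
      ∀ x, Γ.B x e = 0 → Γ.B x f = 0 → Γ.B x f' = 0 → ρ u x = x

theorem Isom.inv (h : Γ.Isom ρ) (g : G) (u v : V) : Γ.B (ρ g u) v = Γ.B u (ρ g⁻¹ v) := by
  rw [← (h g).1 u, st_apply_inv]

theorem Isom.ts (h : Γ.Isom ρ) (g : G) (W : Submodule F V) (hW : Γ.TS W) : Γ.TS (W.map (ρ g)) := by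
  rintro _ ⟨x, hx, rfl⟩
  refine ⟨(h g).2 x (hW x hx).1, ?_⟩
  rintro _ ⟨y, hy, rfl⟩
  rw [(h g).1, hW.B hx hy]

theorem Isom.perp_mem (h : Γ.Isom ρ) {g : G} {W : Submodule F V} (hW : ∀ x ∈ W, ρ g⁻¹ x ∈ W)
    {x : V} (hx : x ∈ Γ.perp W) : ρ g x ∈ Γ.perp W := fun w hw => by
  rw [h.inv, hx _ (hW w hw)]

variable [FiniteDimensional F V] {n : ℕ}

variable (ρ) in
/-- the unipotent radical of the stabiliser of a chamber -/
def U (C : Flag Γ.TS n) : Subgroup G := C.unip ρ ⊓ trivOn ρ (Γ.perp (C.S n)) (C.S n) C.ts.le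

theorem opp_map (h : Γ.Isom ρ) {C D : Flag Γ.TS n} (hD : Opp C D) {u : G} (hu : u ∈ C.unip ρ) :
    Opp C (flagPerm ρ h.ts n u D) := fun i hi =>
  st_map_inf_eq_bot ρ (hD i hi) fun _ hx => h.perp_mem
    (fun _ hy => by simpa using Flag.unip_mem ρ hu hi hy) hx

theorem U_nilp (h : Γ.Isom ρ) {C : Flag Γ.TS n} {u : G} (hu : u ∈ U ρ C) :
    IsNilpotent (ρ u - 1) := by
  have key : ∀ j ≤ n, ∀ x, ((ρ u - 1) ^ j) x ∈ Γ.perp (C.S j) := by
    intro j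
    induction j with
    | zero => intro _ x w hw; rw [C.zero, Submodule.mem_bot] at hw; simp [hw]
    | succ j ih =>
      intro hj x w hw
      rw [pow_succ', Module.End.mul_apply, LinearMap.sub_apply, Module.End.one_apply, Γ.sub_left,
        h.inv, ← Γ.sub_right]
      exact ih (by omega) x _ ((Flag.mem_unip ρ).1 (inv_mem hu.1) j hj w hw)
  refine ⟨n + 1 + n, LinearMap.ext fun x => ?_⟩
  rw [pow_add, pow_succ, Module.End.mul_apply, Module.End.mul_apply]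
  exact Flag.unip_pow ρ hu.1 le_rfl (hu.2 _ (key n le_rfl x))

variable [Finite F]

theorem trans (h : Γ.Isom ρ) (hE : Γ.Eich ρ) {C D D' : Flag Γ.TS n} (hD : Opp C D)
    (hD' : Opp C D') : ∃ u ∈ U ρ C, flagPerm ρ h.ts n u D = D' := by
  have key : ∀ k ≤ n, ∃ u ∈ U ρ C, ∀ i ≤ k, (flagPerm ρ h.ts n u D).S i = D'.S i := by
    intro k
    induction k with
    | zero =>
      refine fun _ => ⟨1, one_mem _, fun i hi => ?_⟩
      rw [Nat.le_zero.1 hi, Flag.zero, Flag.zero]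
    | succ k ih =>
      intro hk
      obtain ⟨u, hu, ee⟩ := ih (by omega)
      have h1 := opp_map h hD hu.1
      set D₁ := flagPerm ρ h.ts n u D with hD₁
      obtain ⟨e, e1, e2, e3⟩ := h1.exists_e hk
      have nf : ∀ {D₂ : Flag Γ.TS n}, Opp C D₂ → ∃ f ∈ D₂.S (k + 1), f ∈ Γ.perp (C.S k) ∧
          f ∉ D₂.S k ∧ Γ.B f e = 1 := fun {D₂} h2 => by
        obtain ⟨f, f1, f2, f3⟩ := h2.symm.exists_e hk
        have f4 := h2.B_ne hk e1 e3 f1 f2 f3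
        exact ⟨(Γ.B f e)⁻¹ • f, smul_mem _ _ f1, smul_mem _ _ f2,
          fun hh => f3 ((smul_mem_iff _ (inv_ne_zero f4)).1 hh), by simp [f4]⟩
      obtain ⟨f, f1, f2, f3, f4⟩ := nf h1
      obtain ⟨f', g1, g2, g3, g4⟩ := nf hD'
      obtain ⟨t, t1, t2, t3, t4⟩ := hE e f f' (flag_ts C _ _ e1).1 (flag_ts D₁ _ _ f1).1
        (flag_ts D' _ _ g1).1 f4 g4
      have t5 : ∀ x ∈ D₁.S k, ρ t x = x := fun x hx =>
        t4 x (Γ.refl _ _ (e2 x hx)) (flag_B D₁ hx f1) (flag_B D' (ee k le_rfl ▸ hx) g1)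
      have t6 : ∀ x ∈ C.S k, ρ t x = x := fun x hx =>
        t4 x (flag_B C hx e1) (Γ.refl _ _ (f2 x hx)) (Γ.refl _ _ (g2 x hx))
      have t7 : ∀ x ∈ C.S (k + 1), ρ t x = x := fun x hx => by
        rw [C.succ_eq hk e1 e3] at hx
        obtain ⟨a, ha, b, hb, rfl⟩ := Submodule.mem_sup.1 hx
        obtain ⟨c, rfl⟩ := Submodule.mem_span_singleton.1 hb
        rw [map_add, map_smul, t1, t6 a ha]
      have t8 : span F {e} ≤ C.S (k + 1) := (span_singleton_le_iff_mem _ _).2 e1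
      refine ⟨t * u, mul_mem ⟨(Flag.mem_unip ρ).2 fun i hi x hx => ?_, fun x hx => ?_⟩ hu,
        fun i hi => ?_⟩
      · rcases le_or_gt (k + 1) i with hki | hki
        · exact C.mono hki (t8 (t3 x (flag_B C hx e1)))
        · rw [t7 x (C.mono hki hx), sub_self]
          exact zero_mem _
      · exact C.le_top' _ (t8 (t3 x (hx e (C.le_top' _ e1))))
      · rw [map_mul, Equiv.Perm.mul_apply, ← hD₁, flagPerm_S]
        by_cases hik : i = k + 1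
        · subst hik
          rw [D₁.succ_eq hk f1 f3, st_map_sup_span t5, t2, ee k le_rfl, D'.succ_eq hk g1 g3]
        · rw [st_map_of_fix fun x hx => t5 x (D₁.mono (by omega) hx), ee i (by omega)]
  obtain ⟨u, hu, e⟩ := key n le_rfl
  exact ⟨u, hu, Flag.ext' e⟩

theorem free (h : Γ.Isom ρ) (hρ : Function.Injective ρ) {C D : Flag Γ.TS n}
    (hD : Opp C D) {u : G} (hu : u ∈ U ρ C) (ee : flagPerm ρ h.ts n u D = D) : u = 1 := by
  have hm : ∀ i, ∀ x ∈ D.S i, ρ u x ∈ D.S i := fun i x hx => by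
    rw [← ee]
    exact ⟨x, hx, rfl⟩
  have hm' : ∀ i, ∀ x ∈ Γ.perp (D.S i), ρ u x ∈ Γ.perp (D.S i) := fun i x hx =>
    h.perp_mem (fun _ hy => st_inv_mem ρ (hm i) hy) hx
  have key : ∀ k ≤ n, ∀ x ∈ C.S k, ρ u x = x := by
    intro k
    induction k with
    | zero => intro _ x hx; rw [C.zero, Submodule.mem_bot] at hx; simp [hx]
    | succ k ih =>
      intro hk x hx
      obtain ⟨e, e1, e2, e3⟩ := hD.exists_e hk
      have he : ρ u e - e ∈ C.S k ⊓ Γ.perp (D.S k) :=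
        ⟨(Flag.mem_unip ρ).1 hu.1 k hk e e1, sub_mem (hm' k e e2) e2⟩
      rw [hD.symm k (by omega), Submodule.mem_bot, sub_eq_zero] at he
      rw [C.succ_eq hk e1 e3] at hx
      obtain ⟨a, ha, b, hb, rfl⟩ := Submodule.mem_sup.1 hx
      obtain ⟨c, rfl⟩ := Submodule.mem_span_singleton.1 hb
      rw [map_add, map_smul, he, ih (by omega) a ha]
  have r : finrank F (C.S n) = finrank F (D.S n) := by rw [C.rank n le_rfl, D.rank n le_rfl]
  have k1 : ∀ x ∈ D.S n, ρ u x = x := fun x hx => by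
    have : ρ u x - x ∈ D.S n ⊓ Γ.perp (C.S n) := ⟨sub_mem (hm n x hx) hx, fun w hw => by
      rw [Γ.sub_left]
      conv_lhs => rw [← key n le_rfl w hw, (h u).1, key n le_rfl w hw, sub_self]⟩
    rwa [hD n le_rfl, Submodule.mem_bot, sub_eq_zero] at this
  have k2 : ∀ x ∈ Γ.perp (C.S n), ρ u x = x := fun x hx => by
    have hx' : x ∈ C.S n ⊔ Γ.perp (D.S n) := by
      rw [sup_perp_eq_top r.symm (hD.symm n le_rfl)]; trivial
    obtain ⟨a, ha, b, hb, rfl⟩ := Submodule.mem_sup.1 hx'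
    have : ρ u b - b ∈ C.S n ⊓ Γ.perp (D.S n) :=
      ⟨hu.2 b (by simpa using sub_mem hx (C.ts.le ha)), sub_mem (hm' n b hb) hb⟩
    rw [hD.symm n le_rfl, Submodule.mem_bot, sub_eq_zero] at this
    rw [map_add, this, key n le_rfl a ha]
  refine hρ (LinearMap.ext fun x => ?_)
  have hx : x ∈ D.S n ⊔ Γ.perp (C.S n) := by rw [sup_perp_eq_top r (hD n le_rfl)]; trivial
  obtain ⟨a, ha, b, hb, rfl⟩ := Submodule.mem_sup.1 hx
  rw [map_add, k1 a ha, k2 b hb, map_one, Module.End.one_apply]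

theorem U_mem_range (h : Γ.Isom ρ) (hρ : Function.Injective ρ) {H : Type*} [Group H]
    (ι : H →* G) (hE : Γ.Eich (ρ.comp ι)) {C : Flag Γ.TS n} {g : G} (hg : g ∈ U ρ C) :
    g ∈ ι.range := by
  have h' : Γ.Isom (ρ.comp ι) := fun g => h (ι g)
  obtain ⟨D, hD⟩ := exists_opp C
  obtain ⟨u, hu, e⟩ := trans h' hE hD (opp_map h hD hg.1)
  have hu' : ι u ∈ U ρ C := ⟨(Flag.mem_unip ρ).2 ((Flag.mem_unip (ρ.comp ι)).1 hu.1), hu.2⟩
  have e' : flagPerm ρ h.ts n (ι u) D = flagPerm ρ h.ts n g D := e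
  have := free h hρ hD (mul_mem (inv_mem hg) hu') (by
    rw [map_mul, Equiv.Perm.mul_apply, e', map_inv]
    simp)
  exact ⟨u, (inv_mul_eq_one.1 this).symm⟩

variable (Γ ρ) in
/-- the inductive step for finding an invariant chamber -/
def Step (p : ℕ) : Prop :=
  ∀ P : Subgroup G, IsPGroup p P → ∀ (k : ℕ) (D : Flag Γ.TS k), P ≤ D.unip ρ →
    (∃ x, Γ.sing x ∧ x ∈ Γ.perp (D.S k) ∧ x ∉ D.S k ∧ ∀ g ∈ P, ρ g x - x ∈ D.S k) ∨
      ∀ g ∈ P, ∀ x ∈ Γ.perp (D.S k), ρ g x - x ∈ D.S k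

theorem sylow (hn : Γ.Witt n) {p : ℕ} (hS : Γ.Step ρ p) {P : Subgroup G} (hP : IsPGroup p P) :
    ∃ C : Flag Γ.TS n, P ≤ U ρ C := by
  have key : ∀ k ≤ n, ∃ C : Flag Γ.TS k, P ≤ C.unip ρ := by
    intro k
    induction k with
    | zero => exact fun _ => ⟨Flag.nil ts_bot, fun g _ => (Flag.mem_unip ρ).2 (by simp)⟩
    | succ k ih =>
      intro hk
      obtain ⟨C, hC⟩ := ih (by omega)
      obtain ⟨x, x1, x2, x3, x4⟩ : ∃ x, Γ.sing x ∧ x ∈ Γ.perp (C.S k) ∧ x ∉ C.S k ∧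
          ∀ g ∈ P, ρ g x - x ∈ C.S k := by
        rcases hS P hP k C hC with h | h
        · exact h
        · obtain ⟨x, x1, x2, x3⟩ := hn.exists_ext (W := C.S k) (by rw [C.rank k le_rfl]; exact hk)
          exact ⟨x, x1, x2, x3, fun g hg => h g hg x x2⟩
      exact ⟨C.snoc x x3 (C.ts.sup_span x1 x2), fun g hg => Flag.snoc_unip ρ (hC hg) x3 _ (x4 g hg)⟩
  obtain ⟨C, hC⟩ := key n le_rfl
  rcases hS P hP n C hC with ⟨x, x1, x2, x3, -⟩ | h
  · exact absurd (hn.mem C.ts (C.rank n le_rfl) x1 x2) x3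
  · exact ⟨C, fun g hg => ⟨hC hg, h g hg⟩⟩

omit [Finite F] in
/-- a fixed vector in the commutator space -/
theorem exists_fixed_comm [Finite V] (h : Γ.Isom ρ) (p : ℕ) [Fact p.Prime] [CharP F p]
    {P : Subgroup G} (hP : IsPGroup p P) {W : Submodule F V} (hW : Γ.TS W)
    (hPW : ∀ g ∈ P, ∀ x ∈ W, ρ g x ∈ W)
    (hne : ¬ ∀ g ∈ P, ∀ x ∈ Γ.perp W, ρ g x - x ∈ W) :
    ∃ v ∈ Γ.perp W, v ∉ W ∧ (∀ g ∈ P, ρ g v - v ∈ W) ∧
      ∀ x ∈ Γ.perp W, (∀ g ∈ P, ρ g x - x ∈ W) → Γ.B v x = 0 := by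
  let M : Submodule F V :=
    { carrier := {v | v ∈ Γ.perp W ∧ ∀ x ∈ Γ.perp W, (∀ g ∈ P, ρ g x - x ∈ W) → Γ.B v x = 0}
      add_mem' := fun ha hb => ⟨add_mem ha.1 hb.1, fun x hx hx' => by
        simp [ha.2 x hx hx', hb.2 x hx hx']⟩
      zero_mem' := ⟨zero_mem _, fun x _ _ => by simp⟩
      smul_mem' := fun c a ha => ⟨smul_mem _ _ ha.1, fun x hx hx' => by simp [ha.2 x hx hx']⟩ }
  have hp : ∀ g ∈ P, ∀ x ∈ Γ.perp W, ρ g x ∈ Γ.perp W := fun g hg x hx =>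
    h.perp_mem (hPW _ (inv_mem hg)) hx
  have hk : ∀ g ∈ P, ∀ y ∈ Γ.perp W, ∀ x, (∀ g ∈ P, ρ g x - x ∈ W) →
      Γ.B (ρ g y) x = Γ.B y x := fun g hg y hy x hx => by
    rw [← sub_eq_zero, h.inv, ← Γ.sub_right]
    exact hy _ (hx _ (inv_mem hg))
  have hWM : W < M := by
    refine lt_of_le_of_ne (fun w hw => ⟨hW.le hw, fun x hx _ => Γ.refl _ _ (hx w hw)⟩) fun e => ?_
    refine hne fun g hg y hy => ?_
    rw [e]
    exact ⟨sub_mem (hp g hg y hy) hy, fun x _ hx => by rw [Γ.sub_left, hk g hg y hy x hx, sub_self]⟩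
  obtain ⟨v, v1, v2, v3⟩ := st_exists_fixed ρ p hP hWM hPW fun g hg y hy =>
    ⟨hp g hg y hy.1, fun x hx hx' => by rw [hk g hg y hy.1 x hx', hy.2 x hx hx']⟩
  exact ⟨v, v1.1, v2, v3, v1.2⟩

omit [Finite F] in
theorem step_of_sing [Finite V] (h : Γ.Isom ρ) (p : ℕ) [Fact p.Prime] [CharP F p]
    (hs : ∀ x, Γ.B x x = 0 → Γ.sing x) : Γ.Step ρ p := by
  intro P hP k D hD
  rw [or_iff_not_imp_right]
  intro hne
  obtain ⟨v, v1, v2, v3, v4⟩ := exists_fixed_comm h p hP D.ts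
    (fun g hg x hx => Flag.unip_mem ρ (hD hg) le_rfl hx) hne
  exact ⟨v, hs v (v4 v v1 v3), v1, v2, v3⟩

/-- the chamber system of the polar space -/
noncomputable def data (hn : Γ.Witt n) (p : ℕ) [Fact p.Prime] [CharP F p] (h : Γ.Isom ρ)
    (hρ : Function.Injective ρ) (hE : Γ.Eich ρ) (hS : Γ.Step ρ p) :
    StData G (Flag Γ.TS n) {i : ℕ // i < n} p where
  φ := flagPerm ρ h.ts n
  adj i := Flag.adj (i + 1)
  adj_refl _ _ _ _ _ := rfl
  adj_symm _ _ _ h k hk hk' := (h k hk hk').symm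
  adj_trans _ _ _ _ h h' k hk hk' := (h k hk hk').trans (h' k hk hk')
  adj_map _ g _ _ h k hk hk' := by rw [flagPerm_S, flagPerm_S, h k hk hk']
  U C := U ρ C
  O := Opp
  U_fix _ _ hu := Flag.unip_fix ρ _ hu.1
  U_p C u := by
    obtain ⟨k, hk⟩ := st_pow_eq_one ρ p hρ (U_nilp h u.2)
    exact ⟨k, Subtype.ext hk⟩
  U_O _ _ hu _ hD := opp_map h hD hu.1
  trans _ _ _ := trans h hE
  free _ _ hD _ hu := free h hρ hD hu
  near := near hn
  apt := apt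
  sylow _ hP := sylow hn hS hP

theorem steinberg [Finite V] [Finite G] (p : ℕ) [Fact p.Prime] [CharP F p] (h : Γ.Isom ρ)
    (hρ : Function.Injective ρ) (hE : Γ.Eich ρ) (hS : Γ.Step ρ p)
    (hZ : ∀ z ∈ Subgroup.center G, ∀ x, Γ.sing x → ρ z x ∈ span F {x}) :
    ∃ χ : G ⧸ Subgroup.center G → ℂ, Cfsg.IsIrrCharacter (G ⧸ Subgroup.center G) χ ∧
      ∀ P : Sylow p (G ⧸ Subgroup.center G), χ 1 = Nat.card P ∧
        ∀ x : G ⧸ Subgroup.center G, x ∈ P → x ≠ 1 → χ x = 0 := by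
  obtain ⟨n, hn⟩ := Γ.exists_witt
  exact (data hn p h hρ hE hS).steinberg_quot _ fun z hz D =>
    st_fix_flag ρ h.ts D fun v hv => hZ z hz v (D.ts v hv).1

end Geo

end CfsgH7
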