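import Cfsg.Agent.H7.Stein5
import Cfsg.Agent.H7.Polar

set_option autoImplicit false

namespace CfsgH7

open Module Submodule

namespace Polar

variable {K V G : Type*} [Field K] [AddCommGroup V] [Module K V] [Group G] (P : Polar K V G)

/-- the polar space of a skew-hermitian or alternating form -/
def geo : Geo K V where
  σ := P.σ
  B := P.B
  add_left := P.add_left
  smul_left := P.smul_left
  add_right := P.add_right
  smul_right := P.smul_right
  refl _ _ := P.perp_symm
  nondeg := P.nondeg
  sing x := P.B x x = 0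
  sing_zero := by simp
  sing_smul c x h := by simp [h]
  sing_add x y hx hy h := by simp [hx, hy, h, P.perp_symm h]
  sing_self _ h := h
  partner e x he h := by
    obtain ⟨t, ht⟩ := P.hc x
    have h' : P.σ (P.B x e) ≠ 0 := by simpa using h
    refine ⟨-t / P.σ (P.B x e), ?_⟩
    simp only [add_left, add_right, smul_left, smul_right, he, P.skew x e, map_div₀, map_neg, σσ]
    field_simp
    linear_combination (P.σ (P.B x e) * P.B x e) * ht

theorem geo_eich : P.geo.Eich P.ρ := by
  intro e f f' he hf hf' h h'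
  change P.B _ _ = 0 at he hf hf'
  change P.B _ _ = 1 at h h'
  let P' : Polar K V G := { P with
    e := e, f := -f, he := he, hf := by simpa using hf
    hef := by rw [P.neg_right, P.skew f e, h]; simp }
  have h1 : P.B e f = -1 := by rw [P.skew f e, h]; simp
  have h2 : P.B e f' = -1 := by rw [P.skew f' e, h']; simp
  obtain ⟨g, hg⟩ := P'.eich (f - f' + P.σ (P.B f f') • e) (-P.σ (P.B f f'))
    (by change P.B _ e = 0; simp [h, h', he])
    (by
      change P.B _ _ + _ - P.σ _ = 0
      simp [h, h', he, hf, hf', h1, h2, P.skew f f'])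
  change ∀ v, P.ρ g v = v - P.B v e • _ - P.B v _ • e - (_ * P.B v e) • e at hg
  refine ⟨g, by simp [hg, he, h1, h2], ?_, fun x (hx : P.B x e = 0) => ?_,
    fun x (h1 : P.B x e = 0) (h2 : P.B x f = 0) (h3 : P.B x f' = 0) => by simp [hg, h1, h2, h3]⟩
  · rw [hg]
    simp [h, hf]
    abel
  · rw [hg, hx]
    simp only [zero_smul, sub_zero, mul_zero, sub_sub_cancel_left]
    exact neg_mem (smul_mem _ _ (mem_span_singleton_self e))

include P in
theorem steinberg [Finite K] [Finite V] [Finite G] (p : ℕ) [Fact p.Prime] [CharP K p] :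
    ∃ χ : G ⧸ Subgroup.center G → ℂ, Cfsg.IsIrrCharacter (G ⧸ Subgroup.center G) χ ∧
      ∀ P : Sylow p (G ⧸ Subgroup.center G), χ 1 = Nat.card P ∧
        ∀ x : G ⧸ Subgroup.center G, x ∈ P → x ≠ 1 → χ x = 0 := by
  have := P.fin
  have h : P.geo.Isom P.ρ := fun g => ⟨P.isom g, fun x hx => (P.isom g x x).trans hx⟩
  refine Geo.steinberg p h P.inj P.geo_eich (Geo.step_of_sing h p fun _ hx => hx) fun z hz x _ => ?_
  obtain ⟨c, hc⟩ := P.mem_center_iff_scalar.1 hz
  exact Submodule.mem_span_singleton.2 ⟨c, (hc x).symm⟩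

end Polar

end CfsgH7
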