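import Cfsg.Agent.H7.Stein5
import Cfsg.Agent.H8.Root

set_option autoImplicit false

namespace CfsgH7

open Module Submodule QuadraticMap CfsgH8

variable {F V : Type*} [Field F] [AddCommGroup V] [Module F V] {Q : QuadraticForm F V}

/-- the polar space of a quadratic form -/
def oGeo (hQ : ND Q) : Geo F V where
  σ := RingEquiv.refl F
  B := polar Q
  add_left := polar_add_left Q
  smul_left := polar_sl
  add_right := polar_add_right Q
  smul_right := polar_sr
  refl u v h := by rw [pcomm, h]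
  nondeg _ := hQ.eq_zero
  sing x := Q x = 0
  sing_zero := map_zero Q
  sing_smul c x h := by rw [Q_smul, h, mul_zero]
  sing_add x y hx hy h := by rw [Q_add, hx, hy, h]; simp
  sing_self x h := by rw [polar_self', h, mul_zero]
  partner e x he h := ⟨-Q x / polar Q x e, by
    rw [Q_add, Q_smul, he, polar_sr]
    field_simp
    ring⟩

variable {G : Type*} [Group G]

/-- the linear action -/
def oRho (e : G ≃* OG Q) : G →* Module.End F V where
  toFun g := (e g).1.toLinearMap
  map_one' := by rw [_root_.map_one]; rfl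
  map_mul' g h := by rw [_root_.map_mul]; rfl

theorem oRho_apply (e : G ≃* OG Q) (g : G) (x : V) : oRho e g x = (e g).1 x := rfl

theorem oRho_inj (e : G ≃* OG Q) : Function.Injective (oRho e) := fun _ _ h =>
  e.injective (OG.ext' fun x => LinearMap.congr_fun h x)

theorem oRho_isom (hQ : ND Q) (e : G ≃* OG Q) : (oGeo hQ).Isom (oRho e) := fun g =>
  ⟨fun u v => OG.map_polar (e g) u v, fun x hx => (OG.map_Q (e g) x).trans hx⟩

variable [FiniteDimensional F V]

theorem oRho_eich (hQ : ND Q) (hG : Good Q) (e : G ≃* OG Q) :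
    (oGeo hQ).Eich ((oRho e).comp (commutator G).subtype) := by
  intro u f f' hu hf hf' h h'
  change Q _ = 0 at hu hf hf'
  change polar Q _ _ = 1 at h h'
  have hv : polar Q u (f - f') = 0 := by rw [polar_sub_right, pcomm u, pcomm u, h, h', sub_self]
  have hm : e.symm (sieg Q u (f - f')) ∈ commutator G :=
    (mem_commutator_map e.symm _).2 (sieg_mem_commutator hQ hG _ _)
  have key : ∀ x, ((oRho e).comp (commutator G).subtype) ⟨_, hm⟩ x = (sieg Q u (f - f')).1 x :=
    fun x => by simp [oRho_apply]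
  refine ⟨⟨_, hm⟩, by rw [key, sieg_apply_self hu hv], ?_, fun x (hx : polar Q x u = 0) => ?_,
    fun x (h1 : polar Q x u = 0) (h2 : polar Q x f = 0) (h3 : polar Q x f' = 0) => ?_⟩
  · rw [key, sieg_apply hu hv, Q_sub, hf, hf', pcomm u f, h, polar_sub_left, polar_self', hf,
      pcomm f' f]
    module
  · rw [key, sieg_apply_of_perp hu hv (by rw [pcomm, hx]), add_sub_cancel_left]
    exact smul_mem _ _ (mem_span_singleton_self u)
  · rw [key, sieg_apply_of_perp hu hv (by rw [pcomm, h1]), pcomm, polar_sub_right, h2, h3]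
    simp

variable [Finite F]

theorem refl_notMem (hQ : ND Q) (hG : Good Q) {v : V} (hv : Q v ≠ 0) :
    refl Q v ∉ commutator (OG Q) := fun h => by
  have := ((mem_commutator_iff hQ hG _).1 h).1
  rw [dickF_refl hQ hv] at this
  exact absurd this (by decide)

theorem oRho_step [Finite V] (hQ : ND Q) (hG : Good Q) (e : G ≃* OG Q) (p : ℕ) [Fact p.Prime]
    [CharP F p] : (oGeo hQ).Step ((oRho e).comp (commutator G).subtype) p := by
  have hI : (oGeo hQ).Isom ((oRho e).comp (commutator G).subtype) := fun g => oRho_isom hQ e g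
  by_cases h2 : (2 : F) = 0
  swap
  · refine Geo.step_of_sing hI p fun x (hx : polar Q x x = 0) => ?_
    rw [polar_self'] at hx
    exact (mul_eq_zero.1 hx).resolve_left h2
  intro P hP k D hD
  set ρ := (oRho e).comp (commutator G).subtype with hρ
  rw [or_iff_not_imp_right]
  intro hne
  have hPW : ∀ g ∈ P, ∀ x ∈ D.S k, ρ g x ∈ D.S k := fun g hg x hx =>
    Flag.unip_mem ρ (hD hg) le_rfl hx
  obtain ⟨v, v1, v2, v3, -⟩ := Geo.exists_fixed_comm hI p hP D.ts hPW hne
  by_cases hv : Q v = 0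
  · exact ⟨v, hv, v1, v2, v3⟩
  have hvv : polar Q v v = 0 := by rw [polar_self', h2, zero_mul]
  have hQρ : ∀ g x, Q (ρ g x) = Q x := fun g x => OG.map_Q _ x
  have hW : ∀ x ∈ D.S k, Q x = 0 := fun x hx => (D.ts x hx).1
  have hvW : ∀ x ∈ D.S k, polar Q v x = 0 := v1
  have dec : ∀ x ∈ D.S k ⊔ span F {v}, ∃ w ∈ D.S k, ∃ d : F, x = w + d • v := fun x hx => by
    obtain ⟨a, ha, b, hb, rfl⟩ := Submodule.mem_sup.1 hx
    obtain ⟨c, rfl⟩ := Submodule.mem_span_singleton.1 hb
    exact ⟨a, ha, c, rfl⟩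
  have hv' : v ∈ D.S k ⊔ span F {v} := mem_sup_right (mem_span_singleton_self v)
  have t1 : ∀ g ∈ P, ∀ x ∈ D.S k ⊔ span F {v}, ρ g x - x ∈ D.S k := fun g hg x hx => by
    obtain ⟨w, hw, d, rfl⟩ := dec x hx
    have : ρ g (w + d • v) - (w + d • v) = ρ g w - w + d • (ρ g v - v) := by
      rw [map_add, map_smul, smul_sub]; abel
    rw [this]
    exact add_mem (sub_mem (hPW g hg w hw) hw) (smul_mem _ _ (v3 g hg))
  have t2 : ∀ g ∈ P, ∀ x ∈ D.S k ⊔ span F {v}, ρ g x ∈ D.S k ⊔ span F {v} := fun g hg x hx => by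
    simpa using add_mem (mem_sup_left (t1 g hg x hx)) hx
  have t3 : D.S k ⊔ span F {v} ≤ (oGeo hQ).perp (D.S k ⊔ span F {v}) :=
    sup_le (fun w hw => (oGeo hQ).mem_perp_sup_span (D.ts.le hw) ((oGeo hQ).refl _ _ (v1 w hw)))
      ((span_singleton_le_iff_mem _ _).2 ((oGeo hQ).mem_perp_sup_span v1 hvv))
  rcases t3.lt_or_eq with hlt | heq
  · obtain ⟨x, x1, x2, x3⟩ := st_exists_fixed ρ p hP hlt t2 fun g hg y hy =>
      hI.perp_mem (t2 _ (inv_mem hg)) hy
    obtain ⟨c, hc⟩ := isSquare_of_two_eq_zero h2 (Q x / Q v)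
    have x4 : x + c • v ∈ (oGeo hQ).perp (D.S k ⊔ span F {v}) :=
      add_mem x1 (smul_mem _ _ (t3 hv'))
    have x5 : Q (x + c • v) = 0 := by
      have : polar Q x v = 0 := x1 v hv'
      rw [Q_add, Q_smul, polar_sr, this, pow_two, ← hc, div_mul_cancel₀ _ hv]
      linear_combination Q x * h2
    refine ⟨x + c • v, x5, (oGeo hQ).perp_anti le_sup_left x4, fun h => x2 ?_, fun g hg => ?_⟩
    · simpa using sub_mem (mem_sup_left h) (smul_mem _ c hv')
    · have : ρ g (x + c • v) - (x + c • v) ∈ D.S k ⊔ span F {v} := by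
        have : ρ g (x + c • v) - (x + c • v) = ρ g x - x + c • (ρ g v - v) := by
          rw [map_add, map_smul, smul_sub]; abel
        rw [this]
        exact add_mem (x3 g hg) (smul_mem _ _ (mem_sup_left (v3 g hg)))
      obtain ⟨w, hw, d, hd⟩ := dec _ this
      have e1 := hQρ g (x + c • v)
      have e2 : polar Q (x + c • v) (w + d • v) = 0 := x4 _ (hd ▸ this)
      rw [sub_eq_iff_eq_add'.1 hd, Q_add, e2, Q_add w, hW w hw, Q_smul, polar_sr, pcomm w,
        hvW w hw] at e1
      have : d = 0 := by simpa [hv] using e1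
      rw [hd, this]
      simpa using hw
  · exfalso
    push Not at hne
    obtain ⟨g, hg, y, y1, y2⟩ := hne
    have y3 : polar Q y v ≠ 0 := fun h =>
      y2 (t1 g hg y (heq ▸ (oGeo hQ).mem_perp_sup_span y1 h))
    have hgv : ∀ x ∈ (oGeo hQ).perp (D.S k), polar Q (ρ g x) v = polar Q x v := fun x hx => by
      have := hx _ (v3 _ (inv_mem hg))
      rw [(oGeo hQ).sub_right, ← hI.inv, sub_eq_zero] at this
      exact this
    have hgp : ∀ x ∈ (oGeo hQ).perp (D.S k), ρ g x ∈ (oGeo hQ).perp (D.S k) := fun x hx =>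
      hI.perp_mem (hPW _ (inv_mem hg)) hx
    obtain ⟨w, hw, d, hd⟩ := dec (ρ g y - y) (heq ▸ (oGeo hQ).mem_perp_sup_span
      (sub_mem (hgp y y1) y1) (by
        change polar Q _ _ = 0
        rw [polar_sub_left, hgv y y1, sub_self]))
    have hd0 : d ≠ 0 := by
      rintro rfl
      exact y2 (by simpa [hd] using hw)
    have hdv : d * Q v + polar Q y v = 0 := by
      have e1 := hQρ g y
      have e2 : polar Q y w = 0 := y1 w hw
      rw [sub_eq_iff_eq_add'.1 hd, Q_add, Q_add w, hW w hw, Q_smul, polar_sr, pcomm w,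
        hvW w hw, polar_add_right, polar_sr, e2] at e1
      exact mul_left_cancel₀ hd0 (by linear_combination e1)
    let g' : G := e.symm (refl Q v) * g
    have hg' : ∀ x, oRho e g' x = (refl Q v).1 (ρ g x) := fun x => by
      simp [g', oRho_apply, hρ]
    have s1 : ∀ x, polar Q x v = 0 → oRho e g' x = ρ g x ∨ x ∉ (oGeo hQ).perp (D.S k) :=
      fun x hx => or_iff_not_imp_right.2 fun hx' => by
        rw [hg', refl_of_perp (by rw [pcomm, hgv x (not_not.1 hx'), hx])]
    have s2 : oRho e g' y - y ∈ D.S k := by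
      rw [hg', refl_apply, pcomm, hgv y y1, sub_right_comm, hd]
      have : (Q v)⁻¹ * polar Q y v = d := by
        field_simp
        linear_combination hdv - d * Q v * h2
      simpa [this] using hw
    have s3 : ∀ x ∈ (oGeo hQ).perp (D.S k), oRho e g' x - x ∈ D.S k := fun x hx => by
      have h1 : x - (polar Q x v / polar Q y v) • y ∈ (oGeo hQ).perp (D.S k) :=
        sub_mem hx (smul_mem _ _ y1)
      have h3 : polar Q (x - (polar Q x v / polar Q y v) • y) v = 0 := by
        rw [polar_sub_left, polar_sl, div_mul_cancel₀ _ y3, sub_self]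
      have h4 := t1 g hg _ (heq.ge ((oGeo hQ).mem_perp_sup_span h1 h3))
      rw [← (s1 _ h3).resolve_right (not_not.2 h1)] at h4
      have := add_mem h4 (smul_mem _ (polar Q x v / polar Q y v) s2)
      rw [map_sub, map_smul, smul_sub] at this
      convert this using 1
      abel
    obtain ⟨n, hn⟩ := (oGeo hQ).exists_witt
    have hkn : k ≤ n := D.rank k le_rfl ▸ hn.2 _ D.ts
    obtain ⟨C, hC⟩ := hn.exists_chamber hkn D
    have hU : g' ∈ Geo.U (oRho e) C := by
      have hkC : D.S k ≤ C.S n := hC k le_rfl ▸ C.mono hkn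
      refine ⟨(Flag.mem_unip _).2 fun i hi x hx => ?_, fun x hx =>
        hkC (s3 x ((oGeo hQ).perp_anti hkC hx))⟩
      rcases le_or_gt k i with hki | hki
      · exact C.mono hki (hC k le_rfl ▸ s3 x fun w hw => Geo.flag_B C hx (hkC hw))
      · rw [hC _ hki] at hx
        have hx' := D.mono hki hx
        rw [hC _ hki.le, (s1 x (by rw [pcomm, hvW x hx'])).resolve_right
          (not_not.2 (D.ts.le hx'))]
        exact (Flag.mem_unip ρ).1 (hD hg) i hki x hx
    obtain ⟨u, hu⟩ := Geo.U_mem_range (oRho_isom hQ e) (oRho_inj e) _ (oRho_eich hQ hG e) hU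
    refine refl_notMem hQ hG hv ((mem_commutator_map e.symm _).1 ?_)
    have : e.symm (refl Q v) = ((u * g⁻¹ : commutator G) : G) := by
      rw [Subgroup.coe_mul, Subgroup.coe_inv, eq_mul_inv_iff_mul_eq]
      exact hu.symm
    rw [this]
    exact Subtype.property _

theorem mem_span_of_two (hQ : ND Q) (hG : Good Q) (hn : finrank F V ≤ 2) {z : OG Q}
    (hz : z ∈ commutator (OG Q)) {x : V} (hx : Q x = 0) : z.1 x ∈ span F {x} := by
  by_contra h
  have hx0 : x ≠ 0 := by rintro rfl; simp at h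
  have hy : Q (z.1 x) = 0 := by rw [OG.map_Q, hx]
  have htop : span F {x} ⊔ span F {z.1 x} = ⊤ := Submodule.eq_top_of_finrank_eq (by
    have := Submodule.finrank_le (span F {x} ⊔ span F {z.1 x})
    rw [st_finrank_sup_span h, finrank_span_singleton hx0] at this ⊢
    omega)
  have dec : ∀ y, ∃ a b : F, y = a • x + b • z.1 x := fun y => by
    have : y ∈ span F {x} ⊔ span F {z.1 x} := htop ▸ trivial
    obtain ⟨_, ha, _, hb, rfl⟩ := Submodule.mem_sup.1 this
    obtain ⟨a, rfl⟩ := Submodule.mem_span_singleton.1 ha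
    obtain ⟨b, rfl⟩ := Submodule.mem_span_singleton.1 hb
    exact ⟨a, b, rfl⟩
  have hxx : polar Q x x = 0 := by rw [polar_self', hx, mul_zero]
  have hb : polar Q x (z.1 x) ≠ 0 := fun h0 => hx0 (hQ.eq_zero fun y => by
    obtain ⟨a, b, rfl⟩ := dec y
    rw [polar_add_right, polar_sr, polar_sr, hxx, h0]; simp)
  have hv : Q (x - z.1 x) ≠ 0 := by rw [Q_sub, hx, hy]; simpa using hb
  have g1 : (refl Q (x - z.1 x) * z).1 x = x := refl_swap' (hx.trans hy.symm) hv
  have g2 : (refl Q (x - z.1 x) * z).1 (z.1 x) = z.1 x := by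
    obtain ⟨a, b, hab⟩ := dec ((refl Q (x - z.1 x) * z).1 (z.1 x))
    have e1 := OG.map_polar (refl Q (x - z.1 x) * z) x (z.1 x)
    have e2 := OG.map_Q (refl Q (x - z.1 x) * z) (z.1 x)
    rw [g1, hab, polar_add_right, polar_sr, polar_sr, hxx] at e1
    have hb1 : b = 1 := mul_right_cancel₀ hb (by linear_combination e1)
    rw [hab, hb1, one_smul, Q_add, Q_smul, hx, hy, polar_sl] at e2
    have ha : a = 0 := by simpa [hb] using e2
    rw [hab, ha, hb1]; simp
  have : refl Q (x - z.1 x) * z = 1 := OG.ext' fun y => by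
    obtain ⟨a, b, rfl⟩ := dec y
    rw [map_add, map_smul, map_smul, g1, g2]; rfl
  refine refl_notMem hQ hG hv ?_
  rw [eq_inv_of_mul_eq_one_left this]
  exact inv_mem hz

theorem steinberg_O [Finite V] [Finite G] (hQ : ND Q) (hG : Good Q) (e : G ≃* OG Q) (p : ℕ)
    [Fact p.Prime] [CharP F p] :
    ∃ χ : commutator G ⧸ Subgroup.center (commutator G) → ℂ,
      Cfsg.IsIrrCharacter (commutator G ⧸ Subgroup.center (commutator G)) χ ∧
      ∀ P : Sylow p (commutator G ⧸ Subgroup.center (commutator G)), χ 1 = Nat.card P ∧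
        ∀ x : commutator G ⧸ Subgroup.center (commutator G), x ∈ P → x ≠ 1 → χ x = 0 := by
  refine Geo.steinberg (Γ := oGeo hQ) (ρ := (oRho e).comp (commutator G).subtype) p
    (fun g => oRho_isom hQ e g) ((oRho_inj e).comp Subtype.val_injective) (oRho_eich hQ hG e)
    (oRho_step hQ hG e p) fun z hz x (hx : Q x = 0) => ?_
  change (e z).1 x ∈ _
  rcases le_or_gt (finrank F V) 2 with hn | hn
  · exact mem_span_of_two hQ hG hn ((mem_commutator_map e _).2 z.2) hx
  by_cases hx0 : x = 0
  · simp [hx0]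
  refine mem_span_of_fixed hQ hn hx hx0 fun v hv => ?_
  have hm : e.symm (sieg Q x v) ∈ commutator G :=
    (mem_commutator_map e.symm _).2 (sieg_mem_commutator hQ hG _ _)
  have := congrArg (fun g : commutator G => (e g).1 x) (Subgroup.mem_center_iff.1 hz ⟨_, hm⟩)
  simpa [sieg_apply_self hx hv] using this

end CfsgH7
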