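import Cfsg.Agent.H7.Stein1

set_option autoImplicit false

namespace CfsgH7

open scoped commutatorElement

/-- existence of a Steinberg character -/
def HasSt (p : ℕ) (G : Type*) [Group G] : Prop :=
  ∃ χ : G → ℂ, Cfsg.IsIrrCharacter G χ ∧
    ∀ P : Sylow p G, χ 1 = Nat.card P ∧ ∀ x : G, x ∈ P → x ≠ 1 → χ x = 0

theorem HasSt.comap {p : ℕ} [Fact p.Prime] {G K : Type*} [Group G] [Group K] [Finite G]
    (h : HasSt p K) (f : G →* K) (hf : Function.Surjective f)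
    (hk : ∀ x, f x = 1 → ∀ k, x ^ p ^ k = 1 → x = 1) : HasSt p G := by
  obtain ⟨χ, ⟨n, ρ, hρ, rfl⟩, h⟩ := h
  refine ⟨fun x => ρ.character (f x), ⟨n, ρ.comp f, ?_, rfl⟩, fun P => ?_⟩
  · let c : Subrepresentation (ρ.comp f : Representation ℂ G _) → Subrepresentation ρ := fun M =>
      ⟨M.toSubmodule, fun g v hv => by
        obtain ⟨g, rfl⟩ := hf g
        exact M.apply_mem_toSubmodule g hv⟩
    have hc : Function.Injective c := fun M N hMN =>
      Subrepresentation.toSubmodule_injective (congrArg Subrepresentation.toSubmodule hMN :)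
    have : Nontrivial (Subrepresentation (ρ.comp f : Representation ℂ G _)) := ⟨⟨⊥, ⊤, fun hh =>
      bot_ne_top (α := Subrepresentation ρ) (congrArg c hh)⟩⟩
    exact ⟨fun M => (eq_bot_or_eq_top (c M)).imp (fun h' => hc h') fun h' => hc h'⟩
  · obtain ⟨h1, h2⟩ := h (P.mapSurjective hf)
    have hi : ∀ x ∈ P, f x = 1 → x = 1 := fun x hx h0 => by
      obtain ⟨k, hk'⟩ := P.isPGroup' ⟨x, hx⟩
      exact hk x h0 k (congrArg Subtype.val hk')
    refine ⟨?_, fun x hx hx1 => h2 _ ⟨x, hx, rfl⟩ fun h0 => hx1 (hi x hx h0)⟩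
    beta_reduce
    rw [map_one, h1]
    congr 1
    refine Nat.card_image_of_injOn (f := f) (s := (P : Subgroup G)) fun a ha b hb hab => ?_
    exact mul_inv_eq_one.1 (hi _ (mul_mem ha (inv_mem hb)) (by simp [hab]))

/-- the chamber system of `S₃` -/
def s3Data : StData (Equiv.Perm (Fin 3)) (Fin 3) Unit 2 where
  φ := MonoidHom.id _
  adj _ _ _ := True
  adj_refl _ _ := trivial
  adj_symm _ _ _ _ := trivial
  adj_trans _ _ _ _ _ _ := trivial
  adj_map _ _ _ _ _ := trivial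
  U C := MulAction.stabilizer _ C
  O C D := D ≠ C
  U_fix _ _ hu := hu
  U_p C u := ⟨1, Subtype.ext ((by decide : ∀ (C : Fin 3) (u : Equiv.Perm (Fin 3)), u C = C →
    u ^ 2 ^ 1 = 1) C u u.2)⟩
  U_O := (by decide : ∀ (C : Fin 3) (u : Equiv.Perm (Fin 3)), u C = C → ∀ D, D ≠ C → u D ≠ C)
  trans := (by decide : ∀ C D D' : Fin 3, D ≠ C → D' ≠ C →
    ∃ u : Equiv.Perm (Fin 3), u C = C ∧ u D = D')
  free := (by decide : ∀ C D : Fin 3, D ≠ C →
    ∀ u : Equiv.Perm (Fin 3), u C = C → u D = D → u = 1)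
  near C := ⟨fun D => if D = C then 1 else 0, fun D hD => ⟨(), fun D' _ h => by
    rw [not_not.1 hD] at h ⊢
    simp [h]⟩⟩
  apt C := ⟨Bool, inferInstance, fun b => if b then C else C + 1, fun b => if b then 1 else -1,
    fun _ b => !b, false, by simp, by simp, fun _ _ => trivial, by simp, by simp, by simp⟩
  sylow P hP := by
    have h1 : ∀ u ∈ P, u ^ 2 = 1 := fun u hu => by
      obtain ⟨k, hk⟩ := hP ⟨u, hu⟩
      rcases (by decide : ∀ u : Equiv.Perm (Fin 3), u ^ 2 = 1 ∨ u ^ 3 = 1) u with h | h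
      · exact h
      · have h2 : u ^ 2 ^ k = 1 := congrArg Subtype.val hk
        have := pow_gcd_eq_one.2 ⟨h2, h⟩
        rw [Nat.Coprime.gcd_eq_one (Nat.Coprime.pow_left k (by norm_num)), pow_one] at this
        rw [this, one_pow]
    by_cases h : ∀ u ∈ P, u = 1
    · exact ⟨0, fun u hu => by rw [h u hu]; exact one_mem _⟩
    push Not at h
    obtain ⟨u, hu, hu1⟩ := h
    obtain ⟨C, hC⟩ := (by decide : ∀ u : Equiv.Perm (Fin 3), u ≠ 1 → u ^ 2 = 1 → ∃ C,
      ∀ v : Equiv.Perm (Fin 3), v ^ 2 = 1 → (u * v) ^ 2 = 1 → v C = C) u hu1 (h1 u hu)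
    exact ⟨C, fun v hv => hC v (h1 v hv) (h1 _ (mul_mem hu hv))⟩

theorem hasSt_wreath {G : Type*} [Group G] [Finite G] {A B : Subgroup G}
    (eA : A ≃* Equiv.Perm (Fin 3)) (eB : B ≃* Equiv.Perm (Fin 3)) (hAB : A ⊓ B = ⊥)
    (hc : ∀ a ∈ A, ∀ b ∈ B, a * b = b * a) (hi : (A ⊔ B).index = 2) (g : G)
    (hg : A.map (MulAut.conj g).toMonoidHom = B) :
    HasSt 2 (commutator G ⧸ Subgroup.center (commutator G)) := by
  let ψ : A × B →* G := MonoidHom.noncommCoprod A.subtype B.subtype fun a b => hc a a.2 b b.2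
  have hψ : ∀ x : A × B, ψ x = x.1 * x.2 := fun _ => rfl
  have hinj : Function.Injective ψ := (injective_iff_map_eq_one ψ).2 fun x hx => by
    rw [hψ, mul_eq_one_iff_eq_inv] at hx
    have h1 : (x.1 : G) ∈ A ⊓ B := ⟨x.1.2, hx ▸ B.inv_mem x.2.2⟩
    rw [hAB, Subgroup.mem_bot] at h1
    rw [h1, eq_comm, inv_eq_one] at hx
    exact Prod.ext (Subtype.ext h1) (Subtype.ext hx)
  have hr : ψ.range = A ⊔ B := by
    refine (MonoidHom.noncommCoprod_range A.subtype B.subtype _).trans ?_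
    rw [Subgroup.range_subtype, Subgroup.range_subtype]
  rw [← hr] at hi
  have g1 : ∀ a ∈ A, g * a * g⁻¹ ∈ B := fun a ha => hg ▸ ⟨a, ha, rfl⟩
  have cA : ∀ n ∈ ψ.range, ∀ a ∈ A, n * a * n⁻¹ ∈ A := by
    rintro _ ⟨x, rfl⟩ a ha
    have : ψ x * a * (ψ x)⁻¹ = x.1 * a * (x.1 : G)⁻¹ := by
      rw [hψ, mul_assoc (x.1 : G), ← hc a ha _ x.2.2]; group
    rw [this]
    exact mul_mem (mul_mem x.1.2 ha) (inv_mem x.1.2)
  have g2 : ∀ b ∈ B, g * b * g⁻¹ ∈ A := fun b hb => by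
    rw [← hg] at hb
    obtain ⟨a, ha, rfl⟩ := hb
    have := cA _ (Subgroup.mul_self_mem_of_index_two hi g) a ha
    simpa [mul_assoc] using this
  have g3 : g ∉ ψ.range := fun h => by
    have h1 : g * (eA.symm (Equiv.swap 0 1)) * g⁻¹ ∈ A ⊓ B :=
      ⟨cA g h _ (Subtype.property _), g1 _ (Subtype.property _)⟩
    rw [hAB, Subgroup.mem_bot, mul_inv_eq_one, mul_eq_left] at h1
    have h2 : eA.symm (Equiv.swap 0 1) = 1 := Subtype.ext h1
    exact absurd (congrArg eA h2) (by simp)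
  have sg : ∀ u : Equiv.Perm (Fin 3), Equiv.Perm.sign u = 1 ↔ u ^ 3 = 1 := by decide
  have sA : ∀ a : A, Equiv.Perm.sign (eA a) = 1 ↔ (a : G) ^ 3 = 1 := fun a => by
    rw [sg, ← map_pow, eA.map_eq_one_iff, Subtype.ext_iff]; rfl
  have sB : ∀ a : B, Equiv.Perm.sign (eB a) = 1 ↔ (a : G) ^ 3 = 1 := fun a => by
    rw [sg, ← map_pow, eB.map_eq_one_iff, Subtype.ext_iff]; rfl
  have ue : ∀ x y : ℤˣ, (x = 1 ↔ y = 1) → x = y := by decide
  let S : A × B →* ℤˣ := ((Equiv.Perm.sign.comp eA.toMonoidHom).comp (MonoidHom.fst _ _)) *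
    ((Equiv.Perm.sign.comp eB.toMonoidHom).comp (MonoidHom.snd _ _))
  have hS : ∀ x : A × B, S x = Equiv.Perm.sign (eA x.1) * Equiv.Perm.sign (eB x.2) := fun _ => rfl
  have cj : ∀ x : A × B, ∃ y : A × B, ψ y = g * ψ x * g⁻¹ ∧ S y = S x := fun x => by
    refine ⟨(⟨_, g2 _ x.2.2⟩, ⟨_, g1 _ x.1.2⟩), ?_, ?_⟩
    · rw [hψ, hψ, hc _ x.1.2 _ x.2.2]; simp [mul_assoc]
    · rw [hS, hS, mul_comm]
      congr 1
      · exact ue _ _ (by rw [sA, sB]; simp [conj_pow])
      · exact ue _ _ (by rw [sA, sB]; simp [conj_pow])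
  have dec : ∀ x : G, (∃ y, x = ψ y) ∨ ∃ y, x = g * ψ y := fun x => by
    by_cases hx : x ∈ ψ.range
    · obtain ⟨y, rfl⟩ := hx; exact Or.inl ⟨y, rfl⟩
    · obtain ⟨y, hy⟩ := (Subgroup.mul_mem_iff_of_index_two hi (a := g⁻¹) (b := x)).2
        (by simp [hx, g3])
      exact Or.inr ⟨y, by simp [hy]⟩
  have hK : commutator G ≤ S.ker.map ψ := by
    rw [commutator_def, Subgroup.commutator_le]
    intro x _ y _
    have k1 : ∀ n m : A × B, ⁅ψ n, g * ψ m⁆ ∈ S.ker.map ψ := fun n m => by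
      obtain ⟨y, hy, hy'⟩ := cj (m * n⁻¹ * m⁻¹)
      refine ⟨n * y, by simp [hy', mul_comm, mul_left_comm], ?_⟩
      simp only [map_mul, hy, map_inv, commutatorElement_def]; group
    rcases dec x with ⟨n, rfl⟩ | ⟨n, rfl⟩ <;> rcases dec y with ⟨m, rfl⟩ | ⟨m, rfl⟩
    · exact ⟨⁅n, m⁆, by simp [map_commutatorElement, commutatorElement_eq_one_iff_mul_comm,
        mul_comm], map_commutatorElement _ _ _⟩
    · exact k1 n m
    · rw [← commutatorElement_inv]; exact inv_mem (k1 m n)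
    · obtain ⟨y, hy, hy'⟩ := cj (m * n⁻¹)
      obtain ⟨z, hz, hz'⟩ := cj (n * y * m⁻¹)
      refine ⟨z, by simp [hz', hy', mul_comm, mul_left_comm], ?_⟩
      simp only [hz, map_mul, hy, map_inv, commutatorElement_def]; group
  have hle : commutator G ≤ ψ.range := hK.trans (Subgroup.map_le_range _ _)
  let φ : commutator G →* Equiv.Perm (Fin 3) := (eA.toMonoidHom.comp (MonoidHom.fst _ _)).comp
    ((MonoidHom.ofInjective hinj).symm.toMonoidHom.comp (Subgroup.inclusion hle))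
  have hφ : ∀ (x : commutator G) (y : A × B), ψ y = x → φ x = eA y.1 := fun x y h => by
    have : (MonoidHom.ofInjective hinj).symm (Subgroup.inclusion hle x) = y := by
      rw [MulEquiv.symm_apply_eq]; exact Subtype.ext h.symm
    exact congrArg (fun y : A × B => eA y.1) this
  have hs : Function.Surjective φ := fun u => by
    obtain ⟨a, rfl⟩ := eA.surjective u
    refine ⟨⟨⁅(a : G), g⁆, Subgroup.commutator_mem_commutator trivial trivial⟩,
      hφ _ (a, ⟨_, g1 _ (inv_mem a.2)⟩) ?_⟩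
    rw [hψ]; simp [commutatorElement_def, mul_assoc]
  have hZ : ∀ z ∈ Subgroup.center (commutator G), φ z = 1 := fun z hz => by
    refine (by decide : ∀ u : Equiv.Perm (Fin 3), (∀ v, v * u = u * v) → u = 1) _ fun v => ?_
    obtain ⟨v, rfl⟩ := hs v
    rw [← map_mul, ← map_mul, Subgroup.mem_center_iff.1 hz]
  refine HasSt.comap s3Data.steinberg (QuotientGroup.lift _ φ hZ) (fun u => ?_) fun x hx k hk => ?_
  · obtain ⟨x, rfl⟩ := hs u
    exact ⟨x, rfl⟩
  · obtain ⟨x, rfl⟩ := QuotientGroup.mk_surjective x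
    obtain ⟨y, hy, hy'⟩ := hK x.2
    have h1 : y.1 = 1 := eA.map_eq_one_iff.1 ((hφ x y hy').symm.trans hx)
    have h2 : (y.2 : G) ^ 3 = 1 := (sB _).1 (by simpa [hS, h1] using hy)
    have h3 : x ^ 3 = 1 := Subtype.ext (by
      rw [Subgroup.coe_pow, ← hy', hψ, h1]; simpa using h2)
    have h4 : (x : commutator G ⧸ Subgroup.center (commutator G)) ^ 3 = 1 := by
      rw [← QuotientGroup.mk_pow, h3, QuotientGroup.mk_one]
    have := pow_gcd_eq_one.2 ⟨hk, h4⟩
    rwa [Nat.Coprime.gcd_eq_one (Nat.Coprime.pow_left k (by norm_num)), pow_one] at this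

end CfsgH7
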