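/-
Alternating sections of `G₂` and `³D₄`.
-/
import Cfsg.Agent.H7.Tor2
import Cfsg.Agent.H7.TorW
import Cfsg.Prelude.Def_LieTwisted

set_option autoImplicit false
set_option linter.unusedSectionVars false

namespace CfsgH7

open CfsgH8 CfsgH8.Chev Matrix Sec CfsgH5 Cfsg.Lie Equiv

theorem false_A7 {H : Type*} [Group H] [Finite H] (hN : NC H 5 6)
    (π : H →* alternatingGroup (Fin 7)) (hπ : Function.Surjective π) : False :=
  haveI : Fact (Nat.Prime 5) := ⟨by decide⟩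
  hN.false π hπ
    (c := ⟨swap 0 4 * swap 0 3 * swap 0 2 * swap 0 1, by simp [Perm.mem_alternatingGroup]⟩)
    (σ := ⟨swap 1 3 * swap 1 4 * swap 1 2 * swap 5 6, by simp [Perm.mem_alternatingGroup]⟩)
    (Subtype.ext (Equiv.ext (by decide))) (fun e => by
      have := DFunLike.congr_fun (congrArg Subtype.val e) 0
      revert this
      decide) (k := 2) (Subtype.ext (Equiv.ext (by decide))) (by decide)

theorem cast_ne {F : Type*} [Field F] (p : ℕ) [Fact p.Prime] [CharP F p] {s : ℕ} (hs : s.Prime)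
    (h : p ≠ s) : (s : F) ≠ 0 := fun e =>
  h ((Nat.prime_dvd_prime_iff_eq Fact.out hs).1 ((CharP.cast_eq_zero_iff F p s).1 e))

theorem bound_of {G : Type*} [Group G] [Finite G] {p : ℕ} (h1 : p ≠ 5 → NC G 5 6)
    (h2 : p ≠ 2 → SQ G) (r : ℕ) (H : Subgroup G) (K : Subgroup H) [K.Normal]
    (h : Nonempty (H ⧸ K ≃* alternatingGroup (Fin r))) : r ≤ 6 + (if p = 5 then 1 else 0) := by
  have hj := fun H' : Subgroup H => H.subtype_injective.comp H'.subtype_injective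
  split_ifs with hp
  · exact of_section H K h fun H' π hπ =>
      ((h2 (by omega)).comap (H.subtype.comp H'.subtype) (hj H')).false π hπ
  · exact of_section H K h fun H' π hπ =>
      false_A7 ((h1 hp).comap (H.subtype.comp H'.subtype) (hj H')) π hπ

theorem wG2 (K : Type) [Field K] (L : List (Fin chevG2.rank)) (i : Fin chevG2.rank) :
    ((okG2.chev K).wr L)^[6] ((okG2.chev K).p i) = (okG2.chev K).p i := by
  obtain ⟨c, h1, h2⟩ := enumW okG2 (W := 72) (M := 2 ^ 72 - 1) (E := wEG2) (NX := wNG2) (m := 12)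
    (fun c => lin 2 fun i => Nat.beq (itr c 6 (tabG2.si i)) (tabG2.si i)) (by decide)
    (by decide +kernel) (by decide +kernel) K L
  exact Fin.ext ((h2 6 _).trans (Nat.eq_of_beq_eq_true ((lin_iff _ _).1 h1 i i.2)))

theorem boundG2 {F : Type*} [Field F] [Finite F] (p : ℕ) [Fact p.Prime] [CharP F p] (r : ℕ)
    (H : Subgroup (chevG2.group F)) (K : Subgroup H) [K.Normal]
    (h : Nonempty (H ⧸ K ≃* alternatingGroup (Fin r))) : r ≤ 6 + (if p = 5 then 1 else 0) := by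
  haveI : Fact (Nat.Prime 5) := ⟨by decide⟩
  refine bound_of (fun hp => nc_of okG2 (by decide +kernel) (by decide) wG2 F
    (cast_ne p Fact.out hp) (by decide)) (fun hp => ?_) r H K h
  obtain ⟨K, _, _, φ, c, e, h1, h2⟩ := exists_reg okG2 F one_lt_two (cast_ne p Nat.prime_two hp)
    (by decide : 0 < 6)
  refine (WExp.sq (okG2.extra K (by decide +kernel)) ⟨le_rfl, fun _ _ L _ => wG2 K L⟩
    (hh_mem_GG _ _) (pw_pow h1 _) h2 (D4.f2 0) (D4.f2 1) fun χ _ _ a b => ch_ext fun j => ?_).comap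
    _ (bc_inj okG2 φ)
  rw [cv_one]
  fin_cases j
  exacts [a, b]

section fold
variable {ι R l ι' R' l' F : Type*} [Fintype ι] [DecidableEq ι] [Fintype l] [DecidableEq l]
  [Fintype ι'] [DecidableEq ι'] [Fintype l'] [DecidableEq l'] [Field F]
  {C : Chev ι R l F} {C' : Chev ι' R' l' F} (Φ : Fold C C') (φ : F →+* F)

/-- the twisted group -/
def Tw : Subgroup (GL ι F) := GG C ⊓ MonoidHom.eqLocus
  ((MulAut.conj Φ.T).toMonoidHom.comp (GeneralLinearGroup.map φ)) (MonoidHom.id _)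

theorem mem_Tw {g : GL ι F} :
    g ∈ Tw Φ φ ↔ g ∈ GG C ∧ Φ.T * GeneralLinearGroup.map φ g * Φ.T⁻¹ = g := Iff.rfl

omit Φ in
theorem map_nw (L : List l) : GeneralLinearGroup.map φ (C.nw L) = C.nw L := by
  induction L with
  | nil => exact _root_.map_one _
  | cons i L ih =>
    rw [nw_cons, _root_.map_mul, ih, n, _root_.map_mul, _root_.map_mul, map_x, map_x]
    simp

theorem Tw_comm [Finite R] {g : GL ι F} (hg : g ∈ Tw Φ φ) {L : List l} (h : Bru C g L) :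
    Φ.π ∘ C.wr L = C.wr L ∘ Φ.π := by
  obtain ⟨u, hu, χ, v, hv, rfl⟩ := h
  have hA := Φ.extra.acts_nw L
  obtain ⟨χ₁, e₁, -⟩ := Φ.T_hh ((Units.map φ.toMonoidHom).comp χ)
  have hv' : Φ.T⁻¹ * v * Φ.T ∈ C.U C.f 1 := Φ.acts.conj_mem' (fun r hr => by
    obtain ⟨s, rfl⟩ := Finite.injective_iff_surjective.1 Φ.acts.pi_inj r
    refine ⟨s, ?_, rfl⟩
    have h1 := Φ.pos s
    have h2 := Φ.pos (Φ.π s)
    rw [Φ.so_π] at h2
    exact h1.2 (h2.1 hr)) hv
  have hu' := C.map_mem φ hu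
  change _ ∈ C.U C.f 1 at hu'
  rw [Φ.U_eq] at hu'
  have hu'' := Φ.T_conj_U _ _ hu'
  rw [← Φ.U_eq] at hu''
  refine Φ.extra.unique (Φ.acts.mul hA) (hA.mul Φ.acts) hu'' hu (C.map_mem φ hv) hv' (χ := χ₁)
    (χ' := χ) ?_
  have e := ((mem_Tw Φ φ).1 hg).2
  rw [_root_.map_mul, _root_.map_mul, _root_.map_mul, map_hh, map_nw] at e
  rw [← e₁]
  have e' := congrArg (· * Φ.T) e
  simp only [mul_assoc, inv_mul_cancel_left, mul_inv_cancel_left, inv_mul_cancel, mul_one] at e' ⊢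
  exact e'

theorem hh_mem_Tw {χ : Ch l F} (h : ∀ v, φ (cv χ v) = cv χ v) :
    C.hh χ ∈ Tw Φ φ ↔ chm χ Φ.a = χ := by
  have e : (Units.map φ.toMonoidHom).comp χ = χ := MonoidHom.ext fun v => Units.ext (h v.toAdd)
  rw [mem_Tw, map_hh, e, mul_inv_eq_iff_eq_mul, ← Φ.acts.mul_hh, mul_right_inj, (hh_inj C).eq_iff]
  exact ⟨fun h => h.2.symm, fun h => ⟨hh_mem_GG _ _, h.symm⟩⟩

end fold

theorem wD4 (K : Type) [Field K] (φ : K →+* K) : WExp (D4.CD K) (Tw (D4.fold K) φ) 6 := by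
  refine ⟨inf_le_left, fun g hg L hL i => ?_⟩
  obtain ⟨c, h1, h2⟩ := enumW okD4 (W := 144) (M := 2 ^ 144 - 1) (E := wED4) (NX := wND4) (m := 192)
    (fun c => bimp (lin 24 fun s => Nat.beq (D4.piN (itr c 1 s) % 24) (itr c 1 (D4.piN s % 24)))
      (lin 4 fun i => Nat.beq (itr c 6 (tabD4.si i)) (tabD4.si i))) (by decide)
    (by decide +kernel) (by decide +kernel) K L
  simp only [bimp_eq, Bool.or_eq_true, Bool.not_eq_true', ← Bool.not_eq_true, lin_iff,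
    Nat.beq_eq] at h1
  refine Fin.ext ((h2 6 _).trans (h1.resolve_left (fun h => h fun s hs => ?_) i i.2))
  have := congrArg Fin.val (congrFun (Tw_comm _ φ hg hL) ⟨s, hs⟩)
  exact (congrArg (D4.piN · % 24) (h2 1 ⟨s, hs⟩)).symm.trans (this.trans (h2 1 _))

theorem x_comm {F : Type*} [Field F] (r s : Fin chevD4.nroots)
    (h : s ≠ r ∧ s.val ≠ tabD4.ng r ∧ ∀ k : Fin 24, ∃ j : Fin 4, ∃ j' : Fin 4,
      tabD4.rtc r j = 0 ∧ tabD4.rtc s j' = 0 ∧ tabD4.rtc r 1 = 0 ∧ tabD4.rtc s 1 = 0 ∧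
      tabD4.rtc r j' ≠ 0 ∧ tabD4.rtc s j ≠ 0 ∧
        (tabD4.rtc k 1 ≠ 0 ∨ tabD4.rtc k j = 0 ∨ tabD4.rtc k j' = 0)) (t u : F) :
    (D4.CD F).x r t * (D4.CD F).x s u = (D4.CD F).x s u * (D4.CD F).x r t := by
  have h1 := (D4.CD F).comm_all r s h.1 (fun e => h.2.1 (congrArg Fin.val e)) t u
  have h2 : (D4.CD F).Xs ((D4.CD F).cs r s) ≤ ⊥ := (D4.CD F).Xs_le (by
    rintro k ⟨a, b, ha, hb, e⟩ _
    obtain ⟨j, j', h3, h4, h5, h6, h7, h8, h9⟩ := h.2.2 k
    have e1 : tabD4.rtc k 1 = a * tabD4.rtc r 1 + b * tabD4.rtc s 1 := congrFun e (D4.f4 1)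
    have e2 : tabD4.rtc k j = a * tabD4.rtc r j + b * tabD4.rtc s j := congrFun e j
    have e3 : tabD4.rtc k j' = a * tabD4.rtc r j' + b * tabD4.rtc s j' := congrFun e j'
    rw [e1, e2, e3] at h9
    simp [h3, h4, h5, h6, h7, h8] at h9
    omega)
  have h3 := Subgroup.mem_bot.1 (h2 h1)
  rw [mul_assoc, mul_assoc, inv_mul_eq_one, eq_inv_mul_iff_mul_eq] at h3
  exact h3

theorem mem_TwD4 {F K : Type*} [Field F] [Field K] (ψ : F →+* K) (φ : K →+* K) {q : ℕ}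
    (h1 : ∀ t, φ (ψ t) = ψ (t ^ q)) (h2 : ∀ t : F, t ^ q ^ 3 = t) {g : GL chevD4.Idx F}
    (hg : g ∈ twistedD4 F q) : GeneralLinearGroup.map ψ g ∈ Tw (D4.fold K) φ := by
  refine (Subgroup.closure_le ((Tw (D4.fold K) φ).comap (GeneralLinearGroup.map ψ))).2 ?_ hg
  have hx : ∀ r t, (D4.CD K).x r t ∈ GG (D4.CD K) := fun r t =>
    Xs_le_GG _ ((D4.CD K).x_mem (Set.mem_univ _) _)
  have key : ∀ (r : Fin chevD4.nroots) (t : F), D4.epsN r = 1 → D4.T K * GeneralLinearGroup.map φ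
      ((D4.CD K).x r (ψ t)) * (D4.T K)⁻¹ = (D4.CD K).x (D4.piF r) (ψ (t ^ q)) := fun r t h => by
    rw [map_x, D4.T_x, h, h1, Int.cast_one, one_mul]
  have k1 : ∀ (r : Fin chevD4.nroots) (t : F), D4.epsN r = 1 ∧ D4.piF r = r → t ^ q = t →
      ∀ g : GL chevD4.Idx F, (g : Matrix _ _ F) = chevD4.wordMat F [(r, t)] →
      GeneralLinearGroup.map ψ g ∈ Tw (D4.fold K) φ := fun r t h ht g e => by
    obtain rfl : g = (D4.CD F).x r t := Units.ext (e.trans (mul_one _))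
    rw [okD4.map_xU]
    exact ⟨hx _ _, (key r t h.1).trans (by rw [h.2, ht]; rfl)⟩
  have k2 : ∀ (r : Fin chevD4.nroots) (t : F), D4.epsN r = 1 ∧ D4.epsN (D4.piF r) = 1 ∧
      D4.epsN (D4.piF (D4.piF r)) = 1 ∧ D4.piF (D4.piF (D4.piF r)) = r →
      (∀ t u, (D4.CD K).x r t * (D4.CD K).x (D4.piF r) u =
        (D4.CD K).x (D4.piF r) u * (D4.CD K).x r t) →
      (∀ t u, (D4.CD K).x r t * (D4.CD K).x (D4.piF (D4.piF r)) u =
        (D4.CD K).x (D4.piF (D4.piF r)) u * (D4.CD K).x r t) →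
      ∀ g : GL chevD4.Idx F, (g : Matrix _ _ F) = chevD4.wordMat F
        [(r, t), (D4.piF r, t ^ q), (D4.piF (D4.piF r), t ^ q ^ 2)] →
      GeneralLinearGroup.map ψ g ∈ Tw (D4.fold K) φ := fun r t h c1 c2 g e => by
    obtain rfl : g = (D4.CD F).x r t * ((D4.CD F).x (D4.piF r) (t ^ q) *
      (D4.CD F).x (D4.piF (D4.piF r)) (t ^ q ^ 2)) :=
        Units.ext (e.trans (congrArg (_ * ·) (congrArg (_ * ·) (mul_one _))))
    rw [_root_.map_mul, _root_.map_mul, okD4.map_xU, okD4.map_xU, okD4.map_xU]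
    refine (mem_Tw _ _).2 ⟨mul_mem (hx _ _) (mul_mem (hx _ _) (hx _ _)), ?_⟩
    have a1 := key _ t h.1
    have a2 := key _ (t ^ q) h.2.1
    have a3 := key _ (t ^ q ^ 2) h.2.2.1
    rw [← pow_mul, ← sq] at a2
    rw [← pow_mul, ← pow_succ, h2, h.2.2.2] at a3
    refine Eq.trans ?_ (show _ = _ by rw [← mul_assoc, c1, mul_assoc, c2]).symm
    rw [_root_.map_mul, _root_.map_mul, ← conj_mul, ← conj_mul]
    exact congrArg₂ _ a1 (congrArg₂ _ a2 a3)
  rintro g ⟨w, ⟨t, ht, r, hr, rfl⟩ | ⟨t, r, hr, rfl⟩, e⟩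
  · simp only [List.mem_cons, List.not_mem_nil, or_false] at hr
    rcases hr with rfl | rfl
    · exact k1 (D4.f24 14) t (by decide) ht g e
    · exact k1 (D4.f24 9) t (by decide) ht g e
  · simp only [List.mem_cons, List.not_mem_nil, or_false] at hr
    rcases hr with rfl | rfl
    · exact k2 (D4.f24 18) t (by decide) (x_comm _ _ (by decide +kernel))
        (x_comm _ _ (by decide +kernel)) g e
    · exact k2 (D4.f24 5) t (by decide) (x_comm _ _ (by decide +kernel))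
        (x_comm _ _ (by decide +kernel)) g e

theorem exists_k {s q : ℕ} (e : ℕ) (hs : s.Prime) (h3 : ¬ 3 ∣ s * (s - 1)) (hq : q.Coprime s) :
    ∃ j, q ^ (3 * j + 1) ≡ 1 [MOD s ^ e] := by
  have h1 : ¬ 3 ∣ (s ^ (e + 1)).totient := fun h => by
    rw [Nat.totient_prime_pow_succ hs] at h
    rcases (Nat.Prime.dvd_mul Nat.prime_three).1 h with h | h
    exacts [h3 ((Nat.prime_three.dvd_of_dvd_pow h).mul_right _), h3 (h.mul_left _)]
  have h2 := (Nat.ModEq.pow_totient (hq.pow_right (e + 1))).pow (s ^ (e + 1)).totient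
  generalize (s ^ (e + 1)).totient = n at h1 h2
  refine ⟨n * n / 3, ?_⟩
  rw [show 3 * (n * n / 3) + 1 = n * n by
    have : n * n % 3 = 1 := by
      rw [Nat.mul_mod]
      obtain h | h : n % 3 = 1 ∨ n % 3 = 2 := by omega
      all_goals rw [h]
    omega, pow_mul]
  rw [one_pow] at h2
  exact h2.of_dvd (pow_dvd_pow s e.le_succ)

theorem exists_TwD4 {F : Type*} [Field F] [Fintype F] (p a : ℕ) [Fact p.Prime] [CharP F p]
    (hF : Fintype.card F = (p ^ a) ^ 3) {s : ℕ} (hs : s.Prime) (h3 : ¬ 3 ∣ s * (s - 1))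
    (hp : p ≠ s) : ∃ (K : Type) (_ : Field K) (_ : Finite K) (φ : K →+* K)
      (j : twistedD4 F (p ^ a) →* Tw (D4.fold K) φ) (χ : Ch _ K) (e : ℕ), Function.Injective j ∧
      (D4.CD K).hh χ ∈ Tw (D4.fold K) φ ∧ χ ^ s ^ e = 1 ∧ SR (D4.CD K) (χ ^ 6) := by
  obtain ⟨K, _, _, ψ, c, e, h1, h2⟩ := exists_reg okD4 F hs.one_lt (cast_ne p hs hp)
    (by decide : 0 < 6)
  haveI := (ψ.charP_iff_charP p).1 inferInstance
  obtain ⟨j, hj⟩ := exists_k (q := p ^ a) e hs h3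
    (((Nat.coprime_primes Fact.out hs).2 hp).pow_left a)
  let φ := iterateFrobenius K p (a * (3 * j + 1))
  have hc : φ c = c := by
    rw [iterateFrobenius_def, pow_mul, ← Units.val_pow_eq_pow_val, pow_eq_pow_mod _ h1, hj,
      ← pow_eq_pow_mod _ h1, pow_one]
  refine ⟨K, _, inferInstance, φ, ((GeneralLinearGroup.map ψ).comp (Subgroup.subtype _)).codRestrict
    _ fun g => mem_TwD4 ψ φ (fun t => ?_) (fun t => hF ▸ FiniteField.pow_card t) g.2, pw c ht, e,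
    fun _ _ e => Subtype.ext (map_inj ψ (congrArg Subtype.val e)),
    (hh_mem_Tw _ _ fun v => by rw [cv_pw, map_zpow₀, hc]).2 (ch_ext fun i => ?_), pw_pow h1 _, h2⟩
  · rw [iterateFrobenius_def, ← _root_.map_pow, pow_mul, pow_succ, pow_mul, pow_mul, ← hF,
      FiniteField.pow_card_pow]
  · rw [cv_chm, cv_pw, cv_pw]
    congr 1
    revert i
    change ∀ i : Fin 4, ∑ j : Fin 4, (Pi.single i 1 : Fin 4 → ℤ) (D4.f4 (D4.rhoI j)) =
      ∑ j : Fin 4, (Pi.single i 1 : Fin 4 → ℤ) j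
    decide

theorem boundD4 {F : Type*} [Field F] [Fintype F] (p a : ℕ) [Fact p.Prime] [CharP F p]
    (hF : Fintype.card F = (p ^ a) ^ 3) (r : ℕ) (H : Subgroup (twistedD4 F (p ^ a)))
    (K : Subgroup H) [K.Normal] (h : Nonempty (H ⧸ K ≃* alternatingGroup (Fin r))) :
    r ≤ 6 + (if p = 5 then 1 else 0) := by
  haveI : Fact (Nat.Prime 5) := ⟨by decide⟩
  refine bound_of (fun hp => ?_) (fun hp => ?_) r H K h
  · obtain ⟨K, _, _, φ, j, χ, e, h1, h2, h3, h4⟩ := exists_TwD4 p a hF Nat.prime_five (by decide) hp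
    exact ((wD4 K φ).nc (D4.extra K) (by decide) h2 h3 h4).comap j h1
  obtain ⟨K, _, _, φ, j, χ, e, h1, h2, h3, h4⟩ := exists_TwD4 p a hF Nat.prime_two (by decide) hp
  refine ((wD4 K φ).sq (D4.extra K) h2 h3 h4 (D4.f4 0) (D4.f4 1) fun χ b1 b2 b3 b4 => ?_).comap j h1
  have b5 := (hh_mem_Tw _ _ fun v => by
    have := congrArg (cv · v) b2
    simp only [cv_pow, cv_one, sq_eq_one_iff] at this
    rcases this with h | h <;> simp [h]).1 b1
  have b6 : ∀ i j : Fin chevD4.rank, D4.aL (Pi.single i 1) = Pi.single j 1 →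
      cv χ (Pi.single i 1) = 1 → cv χ (Pi.single j 1) = 1 := fun i j e h => by
    rw [← e, ← h]
    exact congrArg (cv · (Pi.single i 1)) b5
  have b7 := b6 _ (D4.f4 2) (by decide) b3
  have b8 := b6 _ (D4.f4 3) (by decide) b7
  refine ch_ext fun j => ?_
  rw [cv_one]
  fin_cases j
  exacts [b3, b4, b7, b8]

end CfsgH7
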