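/-
Alternating sections of `F₄`.
-/
import Cfsg.Agent.H7.Tor3
import Cfsg.Agent.H8.CkF4

set_option autoImplicit false
set_option linter.unusedSectionVars false

namespace CfsgH7

open CfsgH8 CfsgH8.Chev Matrix Sec CfsgH5 Cfsg.Lie Equiv

section abs
variable {ι R l F : Type*} [Fintype ι] [DecidableEq ι] [Fintype l] [DecidableEq l] [Field F]
  {C : Chev ι R l F} [Finite R] (hE : C.Extra)
include hE

theorem iter_pow {h : GL ι F} {L : List l} (hL : Bru C h L) {χ : Ch l F} {k : ℕ}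
    (e : h * C.hh χ * h⁻¹ = C.hh χ ^ k) (n : ℕ) (r : R) :
    cv χ (C.rt r) = cv χ (C.rt ((C.wr L)^[n] r)) ^ k ^ n := by
  have := fusion_iter hE hL (χ := fun n => χ ^ k ^ n) (fun n => by
    rw [hh_pow, hh_pow, ← conj_pow, e, ← pow_mul, ← pow_succ']) n r
  simpa only [cv_pow, pow_zero, pow_one] using this

variable {Γ : Subgroup (GL ι F)} {N : ℕ} (hW : WExp C Γ N) [Finite Γ]
include hW

theorem WExp.conj_one {s : ℕ} [Fact s.Prime] (hs : s.Coprime N) {χ : Ch l F}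
    (h1 : C.hh χ ∈ Γ) {e : ℕ} (h2 : χ ^ s ^ e = 1) (h3 : SR C (χ ^ N)) {g : GL ι F} (hg : g ∈ Γ)
    (h4 : g ^ s = 1) (h5 : g ≠ 1) : ∃ y ∈ Γ, ∃ ψ, y * g * y⁻¹ = C.hh ψ ∧
      (∀ v, cv ψ v ^ s = 1) ∧ ∃ i, cv ψ (C.rt (C.p i)) ≠ 1 := by
  obtain ⟨y, hy⟩ := hW.conj_T hE hs h1 h2 h3 _ (isPGroup_zpowers (c := ⟨g, hg⟩) (Subtype.ext h4))
  obtain ⟨ψ, e⟩ := hy _ (Subgroup.mem_zpowers _)
  have e' : (y : GL ι F) * g * (y : GL ι F)⁻¹ = C.hh ψ := e.symm
  refine ⟨y, y.2, ψ, e', fun v => ?_, ?_⟩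
  · rw [← cv_pow, hh_inj C (a₁ := ψ ^ s) (a₂ := 1) (by
      rw [hh_pow, ← e', conj_pow, h4, _root_.map_one]; group), cv_one]
  · by_contra h
    push Not at h
    rw [ch_ext' C (χ := ψ) (χ' := 1) fun i => by rw [h, cv_one], _root_.map_one] at e'
    exact h5 (by simpa using e')

end abs

theorem extraF4 (K : Type*) [Field K] : (okF4.chev K).Extra := okF4.extra K (by decide +kernel)

theorem wF4 (K : Type) [Field K] (L : List (Fin chevF4.rank)) :
    (∀ i, ((okF4.chev K).wr L)^[24] ((okF4.chev K).p i) = (okF4.chev K).p i) ∧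
    ((∀ i, ((okF4.chev K).wr L)^[8] ((okF4.chev K).p i) = (okF4.chev K).p i) ∨
     (∀ i, ((okF4.chev K).wr L)^[6] ((okF4.chev K).p i) = (okF4.chev K).p i) ∨
     ∀ i, ((okF4.chev K).wr L)^[6] ((okF4.chev K).p i) = (okF4.chev K).neg ((okF4.chev K).p i)) := by
  obtain ⟨c, h1, h2⟩ := enumW okF4 (W := 288) (M := 2 ^ 288 - 1) (E := wEF4) (NX := wNF4)
    (m := 1152) (fun c => band (lin 4 fun i => Nat.beq (itr c 24 (tabF4.si i)) (tabF4.si i))
      (bor (lin 4 fun i => Nat.beq (itr c 8 (tabF4.si i)) (tabF4.si i))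
      (bor (lin 4 fun i => Nat.beq (itr c 6 (tabF4.si i)) (tabF4.si i))
        (lin 4 fun i => Nat.beq (itr c 6 (tabF4.si i)) (tabF4.ng (tabF4.si i)))))) (by decide)
    (by decide +kernel) (by decide +kernel) K L
  simp only [band_eq, bor_eq, Bool.or_eq_true, Bool.and_eq_true, lin_iff, Nat.beq_eq] at h1
  exact ⟨fun i => Fin.ext ((h2 24 _).trans (h1.1 i i.2)), h1.2.imp
    (fun h i => Fin.ext ((h2 8 _).trans (h i i.2))) (Or.imp
    (fun h i => Fin.ext ((h2 6 _).trans (h i i.2))) fun h i => Fin.ext ((h2 6 _).trans (h i i.2)))⟩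

theorem ncF4 (F : Type*) [Field F] [Finite F] {s : ℕ} [Fact s.Prime] (hF : (s : F) ≠ 0)
    (hs : s.Coprime 24) : NC (chevF4.group F) s 24 :=
  nc_of okF4 (by decide +kernel) (by decide) (fun K _ L => (wF4 K L).1) F hF hs

theorem eq_one_of {K : Type*} [Field K] {x : K} {s m : ℕ} (h : x ^ s = 1) (h' : x = x ^ (m + 1))
    (hs : s.gcd m = 1) (h0 : s ≠ 0) : x = 1 := by
  have hx : x ≠ 0 := fun e => by simp [e, h0] at h
  rw [← pow_one x, ← hs, pow_gcd_eq_one]
  exact ⟨h, mul_right_cancel₀ hx (by rw [← pow_succ, ← h', one_mul])⟩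

theorem twoF4 {F : Type*} [Field F] [Finite F] (h7 : ((7 : ℕ) : F) ≠ 0) (h5 : ((5 : ℕ) : F) ≠ 0)
    {g g' h : chevF4.group F} (a1 : g ^ 7 = 1) (a2 : g ≠ 1) (a3 : g' ^ 5 = 1) (a4 : g' ≠ 1)
    (a5 : g' * g * g'⁻¹ = g) (a6 : h * g * h⁻¹ = g ^ 3) (a7 : h * g' * h⁻¹ = g' ^ 2) : False := by
  haveI : Fact (Nat.Prime 5) := ⟨by decide⟩
  haveI : Fact (Nat.Prime 7) := ⟨by decide⟩
  obtain ⟨B, hB⟩ := exists_bound okF4
  obtain ⟨K, _, _, φ, c, hc⟩ := exists_ext F (7 ^ (24 * B) * 5 ^ (24 * B)) (by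
    push_cast at h5 h7 ⊢
    exact mul_ne_zero (pow_ne_zero _ h7) (pow_ne_zero _ h5))
  have c7 : orderOf (c ^ 5 ^ (24 * B)) = 7 ^ (24 * B) := by
    rw [orderOf_pow_of_dvd (by positivity) (hc ▸ dvd_mul_left _ _), hc,
      Nat.mul_div_cancel _ (by positivity)]
  have c5 : orderOf (c ^ 7 ^ (24 * B)) = 5 ^ (24 * B) := by
    rw [orderOf_pow_of_dvd (by positivity) (hc ▸ dvd_mul_right _ _), hc,
      Nat.mul_div_cancel_left _ (by positivity)]
  let j := (GG (okF4.chev K)).subtype.comp (bc okF4 φ)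
  have hj : Function.Injective j := Subtype.val_injective.comp (bc_inj okF4 φ)
  have hm : ∀ x, j x ∈ GG (okF4.chev K) := fun x => (bc okF4 φ x).2
  have hW : ∀ Γ ≤ GG (okF4.chev K), WExp (okF4.chev K) Γ 24 := fun Γ h =>
    ⟨h, fun _ _ L _ => (wF4 K L).1⟩
  obtain ⟨y, hy, χ, b1, b2, i, b3⟩ := (hW _ le_rfl).conj_one (extraF4 K) (s := 7) (by decide)
    (hh_mem_GG _ _) (pw_pow (c7 ▸ pow_orderOf_eq_one _) _)
    (SR_ht (by decide) (by decide) (hB K) c7) (hm g) (by rw [← _root_.map_pow, a1, j.map_one])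
    fun e => a2 (hj (e.trans j.map_one.symm))
  obtain ⟨z, hz, χ', d1, d2, i', d3⟩ := (hW (_ ⊓ Subgroup.centralizer {(okF4.chev K).hh χ})
    inf_le_left).conj_one (extraF4 K) (s := 5) (by decide)
    ⟨hh_mem_GG _ _, Subgroup.mem_centralizer_singleton_iff.2 (hh_comm _ _ _)⟩
    (pw_pow (c5 ▸ pow_orderOf_eq_one _) _) (SR_ht (by decide) (by decide) (hB K) c5)
    (g := y * j g' * y⁻¹) ⟨(GG _).mul_mem (mul_mem hy (hm _)) (inv_mem hy),
      Subgroup.mem_centralizer_singleton_iff.2 (by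
        rw [← b1, conj_mul, conj_mul, ← _root_.map_mul, ← _root_.map_mul,
          mul_inv_eq_iff_eq_mul.1 a5])⟩
    (by rw [conj_pow, ← _root_.map_pow, a3, j.map_one]; group)
    fun e => a4 (hj (by simpa using e))
  have hz' : z * (y * j g * y⁻¹) * z⁻¹ = (okF4.chev K).hh χ := by
    rw [b1, Subgroup.mem_centralizer_singleton_iff.1 hz.2, mul_inv_cancel_right]
  obtain ⟨L, hL⟩ := bru_of (extraF4 K) (g := z * y * j h * (z * y)⁻¹)
    (mul_mem (mul_mem (mul_mem hz.1 hy) (hm _)) (inv_mem (mul_mem hz.1 hy)))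
  have key : ∀ (x : chevF4.group F) k, h * x * h⁻¹ = x ^ k → z * y * j h * (z * y)⁻¹ *
      (z * (y * j x * y⁻¹) * z⁻¹) * (z * y * j h * (z * y)⁻¹)⁻¹ =
        (z * (y * j x * y⁻¹) * z⁻¹) ^ k := fun x k e => by
    rw [conj_pow, conj_pow, ← _root_.map_pow, ← e, _root_.map_mul, _root_.map_mul, _root_.map_inv]
    group
  have e1 := iter_pow (extraF4 K) hL (hz' ▸ key g 3 a6)
  have e2 := iter_pow (extraF4 K) hL (d1 ▸ key g' 2 a7)
  rcases (wF4 K L).2 with h | h | h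
  · exact b3 (eq_one_of (m := 6560) (b2 _) (by have := e1 8 ((okF4.chev K).p i); rwa [h] at this) 
      (by decide) (by decide))
  · exact d3 (eq_one_of (m := 63) (d2 _) (by have := e2 6 ((okF4.chev K).p i'); rwa [h] at this) 
      (by decide) (by decide))
  · have := e1 6 ((okF4.chev K).p i)
    rw [h, (okF4.chev K).rt_neg, cv_neg, inv_pow, ← one_div,
      eq_div_iff (pow_ne_zero _ (cv_ne _ _))] at this
    refine b3 (eq_one_of (m := 730) (b2 _) ?_ (by decide) (by decide))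
    rw [pow_succ, pow_succ' _ 729, show 729 = 3 ^ 6 from rfl, this, one_mul]

theorem boundF4 {F : Type*} [Field F] [Finite F] (p : ℕ) [Fact p.Prime] [CharP F p] (r : ℕ)
    (H : Subgroup (chevF4.group F)) (K : Subgroup H) [K.Normal]
    (h : Nonempty (H ⧸ K ≃* alternatingGroup (Fin r))) : r ≤ 10 + (if p = 11 then 1 else 0) := by
  haveI : Fact (Nat.Prime 5) := ⟨by decide⟩
  haveI : Fact (Nat.Prime 7) := ⟨by decide⟩
  haveI : Fact (Nat.Prime 11) := ⟨by decide⟩
  have hj := fun H' : Subgroup H => H.subtype_injective.comp H'.subtype_injective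
  split_ifs with hp
  · refine of_section H K h fun H' π hπ => ?_
    have h7 : ((7 : ℕ) : F) ≠ 0 := cast_ne p Fact.out (by omega)
    have h5 : ((5 : ℕ) : F) ≠ 0 := cast_ne p Fact.out (by omega)
    let j := H.subtype.comp H'.subtype
    obtain ⟨g, g', h, a1, a2, a3, a4, a5, a6, a7⟩ := exists_two
      ((ncF4 F h7 (by decide)).comap j (hj H')) ((ncF4 F h5 (by decide)).comap j (hj H')) π hπ
      (c := ⟨swap 0 1 * swap 1 2 * swap 2 3 * swap 3 4 * swap 4 5 * swap 5 6,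
        by simp [Perm.mem_alternatingGroup]⟩)
      (c' := ⟨swap 7 8 * swap 8 9 * swap 9 10 * swap 10 11, by simp [Perm.mem_alternatingGroup]⟩)
      (σ := ⟨swap 1 3 * swap 2 6 * swap 3 6 * swap 4 5 * swap 5 6 * swap 8 9 * swap 9 11 *
        swap 10 11, by simp [Perm.mem_alternatingGroup]⟩)
      (Subtype.ext (Equiv.ext (by decide +kernel))) (fun e => by
        have := DFunLike.congr_fun (congrArg Subtype.val e) 0
        revert this
        decide +kernel) (Subtype.ext (Equiv.ext (by decide +kernel))) (fun e => by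
        have := DFunLike.congr_fun (congrArg Subtype.val e) 7
        revert this
        decide +kernel) (Subtype.ext (Equiv.ext (by decide +kernel))) (k := 3) (k' := 2)
      (Subtype.ext (Equiv.ext (by decide +kernel))) (Subtype.ext (Equiv.ext (by decide +kernel)))
    exact twoF4 h7 h5 (g := j g) (g' := j g') (h := j h) (congrArg j a1) (fun e => a2 (hj H' e))
      (congrArg j a3) (fun e => a4 (hj H' e)) (congrArg j a5) (congrArg j a6) (congrArg j a7)
  · exact of_section H K h fun H' π hπ => ((ncF4 F (cast_ne p Fact.out hp) (by decide)).comap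
      (H.subtype.comp H'.subtype) (hj H')).false π hπ
      (c := ⟨swap 0 1 * swap 1 2 * swap 2 3 * swap 3 4 * swap 4 5 * swap 5 6 * swap 6 7 * swap 7 8 *
        swap 8 9 * swap 9 10, by simp [Perm.mem_alternatingGroup]⟩)
      (σ := ⟨swap 1 3 * swap 2 6 * swap 3 9 * swap 4 9 * swap 5 9 * swap 6 7 * swap 7 10 *
        swap 8 10, by simp [Perm.mem_alternatingGroup]⟩)
      (Subtype.ext (Equiv.ext (by decide +kernel))) (fun e => by
        have := DFunLike.congr_fun (congrArg Subtype.val e) 0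
        revert this
        decide +kernel) (k := 3) (Subtype.ext (Equiv.ext (by decide +kernel))) (by decide)

end CfsgH7
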