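/-
Alternating sections of `²F₄`.
-/
import Cfsg.Agent.H7.Tor4

set_option autoImplicit false
set_option linter.unusedSectionVars false

namespace CfsgH7

open CfsgH8 CfsgH8.Chev Matrix Sec CfsgH5 Cfsg.Lie Equiv

section blk
variable {ι κ K : Type*} [Fintype ι] [DecidableEq ι] [Fintype κ] [DecidableEq κ] [Field K]
  (e : κ ⊕ κ ≃ ι)

theorem mul_split (M N : Matrix ι ι K) (i j : ι) : (M * N) i j =
    ∑ k, M i (e (.inl k)) * N (e (.inl k)) j + ∑ k, M i (e (.inr k)) * N (e (.inr k)) j := by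
  rw [mul_apply, ← e.sum_comp, Fintype.sum_sum_type]

variable (K) in
/-- block triangular matrices -/
def BT : Subgroup (GL ι K) where
  carrier := {g | (∀ i j, (g : Matrix ι ι K) (e (.inr i)) (e (.inl j)) = 0) ∧
    ∀ i j, ((g⁻¹ : GL ι K) : Matrix ι ι K) (e (.inr i)) (e (.inl j)) = 0}
  one_mem' := ⟨fun _ _ => one_apply_ne (by simp), fun _ _ => one_apply_ne (by simp)⟩
  inv_mem' h := ⟨h.2, by simpa using h.1⟩
  mul_mem' {a b} ha hb := ⟨fun i j => by simp [mul_split e, ha.1, hb.1], fun i j => by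
    rw [_root_.mul_inv_rev, Units.val_mul, mul_split e]; simp only [ha.2, hb.2]; simp⟩

/-- upper left block -/
def blkA : BT K e →* Matrix κ κ K where
  toFun g := .of fun i j => (g.1 : Matrix ι ι K) (e (.inl i)) (e (.inl j))
  map_one' := by ext i j; simp [one_apply]
  map_mul' a b := by ext i j; simp [mul_split e, b.2.1, mul_apply]

/-- lower right block -/
def blkD : BT K e →* Matrix κ κ K where
  toFun g := .of fun i j => (g.1 : Matrix ι ι K) (e (.inr i)) (e (.inr j))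
  map_one' := by ext i j; simp [one_apply]
  map_mul' a b := by ext i j; simp [mul_split e, a.2.1, mul_apply]

theorem rank_conj {G : Type*} [Group G] (f : G →* Matrix κ κ K) (y g : G) :
    (f (y * g * y⁻¹) - 1).rank = (f g - 1).rank := by
  have key : ∀ y g : G, (f (y * g * y⁻¹) - 1).rank ≤ (f g - 1).rank := fun y g => by
    rw [show f (y * g * y⁻¹) - 1 = f y * (f g - 1) * f y⁻¹ by
      rw [mul_sub, sub_mul, mul_one, ← _root_.map_mul, ← _root_.map_mul, ← _root_.map_mul,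
        mul_inv_cancel, f.map_one]]
    exact (rank_mul_le_left _ _).trans (rank_mul_le_right _ _)
  exact le_antisymm (key y g) (by simpa [mul_assoc] using key y⁻¹ (y * g * y⁻¹))

theorem rank_diag [DecidableEq K] (w : κ → K) :
    (diagonal w - 1).rank = ∑ i, if w i = 1 then 0 else 1 := by
  rw [← diagonal_one, diagonal_sub, rank_diagonal, Fintype.card_subtype, Finset.card_filter]
  exact Finset.sum_congr rfl fun i _ => by simp [sub_eq_zero]

end blk

/-- odd part of an entry -/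
def od (l : List (ℕ × ℤ)) : List ℕ := (l.filter fun km => km.2 % 2 ≠ 0).map Prod.fst

theorem sum_od {K : Type*} [Field K] [CharP K 2] (l : List (ℕ × ℤ)) (t : K) :
    (l.map fun km => (km.2 : K) * t ^ km.1).sum = ((od l).map (t ^ ·)).sum := by
  induction l with
  | nil => rfl
  | cons a l ih =>
    have h : (a.2 : K) = (a.2 % 2 : ℤ) := (CharP.intCast_eq_intCast K 2).2 (Int.mod_modEq _ _).symm
    rcases Int.emod_two_eq_zero_or_one a.2 with e | e <;> simp [od, e, h, ← ih] <;> simp [od, ih]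

/-- decoding an index -/
def ix (c : ℕ) : chevF4.Idx :=
  if h : c < 4 then .inl ⟨c, h⟩ else .inr ⟨(c - 4) % 48, Nat.mod_lt _ (by decide)⟩

/-- short part -/
def aN (i : ℕ) : ℕ := ap 6 63 0xc2caeaa689e696181f6175924503ce34c2c7040 i

/-- long part -/
def dN (i : ℕ) : ℕ := ap 6 63 0xcf2c6f92e8de72d89d69529b654253206144083 i

/-- the splitting -/
noncomputable def eF : Fin 26 ⊕ Fin 26 ≃ chevF4.Idx :=
  Equiv.ofBijective (Sum.elim (fun i => ix (aN i)) fun i => ix (dN i)) (by decide +kernel)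

/-- roots by index -/
def f48 (n : ℕ) : Fin chevF4.nroots := ⟨n % 48, Nat.mod_lt _ (by decide)⟩

theorem ck1 : ∀ r ∈ [33, 27, 25, 24, 14, 20, 22, 23], ∀ i j : Fin 26,
    od (entD chevF4 r (ix (dN i)) (ix (aN j))) = [] := by decide +kernel

theorem ck2 : ∀ r ∈ [(33, 24, 2), (24, 33, 1), (14, 23, 2), (23, 14, 1), (27, 25, 2), (25, 27, 1),
    (28, 30, 2), (30, 28, 1), (20, 22, 2), (22, 20, 1), (19, 17, 2), (17, 19, 1)], ∀ i j : Fin 26,
    od (entD chevF4 r.1 (ix (dN i)) (ix (dN j))) =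
      (od (entD chevF4 r.2.1 (ix (aN i)) (ix (aN j)))).map (r.2.2 * ·) := by decide +kernel

variable {K : Type*} [Field K]

theorem word_eq (t u : K) (L L' : List (ℕ × ℤ × ℕ × ℕ))
    (h : (∀ q ∈ L, q.1 < 48) ∧ (∀ q ∈ L', q.1 < 48) ∧ ∀ c < 52, eqV (tabF4.wordF chevF4 L
      [⟨c, 0, 0, 1⟩]) (tabF4.wordF chevF4 L' [⟨c, 0, 0, 1⟩]) = true) :
    (L.map fun q => chevF4.x K q.1 (q.2.1 * t ^ q.2.2.1 * u ^ q.2.2.2)).prod =
      (L'.map fun q => chevF4.x K q.1 (q.2.1 * t ^ q.2.2.1 * u ^ q.2.2.2)).prod :=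
  Rp.eq (codeD_inj _) (codeD_lt _) (okF4.rpW K t u L h.1) (okF4.rpW K t u L' h.2.1) h.2.2

theorem xF_comm (r s : ℕ) (h : r < 48 ∧ s < 48 ∧ ∀ c < 52, eqV (tabF4.wordF chevF4
      [(r, 1, 1, 0), (s, 1, 0, 1)] [⟨c, 0, 0, 1⟩]) (tabF4.wordF chevF4 [(s, 1, 0, 1), (r, 1, 1, 0)]
      [⟨c, 0, 0, 1⟩]) = true) (t u : K) :
    chevF4.x K r t * chevF4.x K s u = chevF4.x K s u * chevF4.x K r t := by
  simpa using word_eq t u [(r, 1, 1, 0), (s, 1, 0, 1)] [(s, 1, 0, 1), (r, 1, 1, 0)]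
    ⟨by simp [h], by simp [h], h.2.2⟩

variable [CharP K 2]

theorem x_od (r : Fin chevF4.nroots) (t : K) (i j : chevF4.Idx) :
    ((okF4.chev K).x r t : Matrix _ _ K) i j =
      (1 : Matrix _ _ K) i j + ((od (entD chevF4 r i j)).map (t ^ ·)).sum := by
  rw [(okF4.chev K).x_ent, sum_od]; rfl

theorem GG_le_BT : GG (okF4.chev K) ≤ BT K eF := by
  have key : ∀ r : Fin chevF4.nroots, r.val ∈ [33, 27, 25, 24, 14, 20, 22, 23] → ∀ t,
      (okF4.chev K).x r t ∈ BT K eF := fun r hr t => by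
    have : ∀ t i j, ((okF4.chev K).x r t : Matrix _ _ K) (eF (.inr i)) (eF (.inl j)) = 0 :=
      fun t i j => by
        rw [x_od, one_apply_ne (by simp)]
        exact (congrArg (fun l => 0 + (List.map (t ^ ·) l).sum) (ck1 r hr i j)).trans (by simp)
    exact ⟨this t, by rw [← x_neg]; exact this _⟩
  rintro _ ⟨x, hx, χ, rfl⟩
  refine mul_mem ((okF4.chev K).Xs_univ_le (fun i => key _ ?_) (fun i => key _ ?_) hx)
    ⟨fun i j => diagonal_apply_ne _ (by simp), fun i j => ?_⟩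
  · revert i; change ∀ i : Fin 4, tabF4.si i ∈ _; decide +kernel
  · revert i; change ∀ i : Fin 4, tabF4.ng (tabF4.si i) ∈ _; decide +kernel
  · rw [← hh_inv]; exact diagonal_apply_ne _ (by simp)

/-- root elements in the block triangular group -/
noncomputable def xB (r : ℕ) (t : K) : BT K eF :=
  ⟨(okF4.chev K).x (f48 r) t, GG_le_BT (Xs_le_GG _ ((okF4.chev K).x_mem (Set.mem_univ _) _))⟩

theorem blkD_x {r s k : ℕ} (h : (r, s, k) ∈ [(33, 24, 2), (24, 33, 1), (14, 23, 2), (23, 14, 1),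
    (27, 25, 2), (25, 27, 1), (28, 30, 2), (30, 28, 1), (20, 22, 2), (22, 20, 1), (19, 17, 2),
    (17, 19, 1)]) (t : K) : blkD eF (xB r t) = blkA eF (xB s (t ^ k)) := by
  ext i j
  have hr : (f48 r).val = r ∧ (f48 s).val = s := by revert h; simp [f48]; omega
  change ((okF4.chev K).x (f48 r) t : Matrix _ _ K) (eF (.inr i)) (eF (.inr j)) =
    ((okF4.chev K).x (f48 s) (t ^ k) : Matrix _ _ K) (eF (.inl i)) (eF (.inl j))
  rw [x_od, x_od, hr.1, hr.2]
  congr 1
  · simp [one_apply]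
  · rw [show od (entD chevF4 r (eF (.inr i)) (eF (.inr j))) = _ from ck2 _ h i j, List.map_map]
    simp only [← pow_mul]
    rfl

/-- the Ree subgroup -/
noncomputable def Ree (φ : K →+* K) : Subgroup (BT K eF) :=
  MonoidHom.eqLocus (blkD eF) (φ.mapMatrix.toMonoidHom.comp (blkA eF))

theorem blkA_map (φ : K →+* K) (r : ℕ) (t : K) :
    φ.mapMatrix (blkA eF (xB r t)) = blkA eF (xB r (φ t)) := by
  ext i j
  exact congrArg (fun g : GL _ K => (g : Matrix _ _ K) (eF (.inl i)) (eF (.inl j)))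
    ((okF4.chev K).map_x φ (f48 r) t)

theorem xB_val {r : ℕ} (hr : r < 48) (t : K) :
    ((xB r t).1 : Matrix _ _ K) = chevF4.x K r t := by
  change chevF4.x K (r % 48) t = _
  rw [Nat.mod_eq_of_lt hr]

theorem xB_add (r : ℕ) (t u : K) : xB r (t + u) = xB r t * xB r u :=
  Subtype.ext ((okF4.chev K).x_add _ _ _)

theorem mem_Ree {F : Type*} [Field F] (ψ : F →+* K) (φ : K →+* K) {n : ℕ}
    (h1 : ∀ t, φ t = t ^ (2 * n)) (h2 : ∀ t : F, t ^ (2 * n * n) = t) {g : GL chevF4.Idx F}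
    (hg : g ∈ twistedF4 F n) : GeneralLinearGroup.map ψ g ∈ GG (okF4.chev K) ⊓
      (Ree φ).map (BT K eF).subtype := by
  refine (Subgroup.closure_le ((GG (okF4.chev K) ⊓ (Ree φ).map (BT K eF).subtype).comap
    (GeneralLinearGroup.map ψ))).2 ?_ hg
  have hw : ∀ (w : List (ℕ × F)) (g : GL chevF4.Idx F), (∀ q ∈ w, q.1 < 48) →
      (g : Matrix _ _ F) = chevF4.wordMat F w → (w.map fun q => xB q.1 (ψ q.2)).prod ∈ Ree φ →
      GeneralLinearGroup.map ψ g ∈ GG (okF4.chev K) ⊓ (Ree φ).map (BT K eF).subtype := by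
    intro w g hw e h
    obtain rfl : g = (w.map fun q => (okF4.chev F).x (f48 q.1) q.2).prod := Units.ext (by
      rw [e, ← Units.coeHom_apply, map_list_prod, List.map_map]
      exact congrArg List.prod (List.map_congr_left fun q hq => by
        change _ = chevF4.x F (q.1 % 48) q.2
        rw [Nat.mod_eq_of_lt (hw q hq)]))
    refine ⟨?_, _, h, ?_⟩
    · rw [map_list_prod]
      refine Subgroup.list_prod_mem _ fun x hx => ?_
      simp only [List.map_map, List.mem_map, Function.comp] at hx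
      obtain ⟨q, -, rfl⟩ := hx
      rw [okF4.map_xU]
      exact Xs_le_GG _ ((okF4.chev K).x_mem (Set.mem_univ _) _)
    · rw [map_list_prod, map_list_prod, List.map_map, List.map_map]
      exact congrArg List.prod (List.map_congr_left fun q _ => (okF4.map_xU ψ _ _).symm)
  have h3 : ∀ t : F, φ (ψ (t ^ n)) = ψ t := fun t => by
    rw [h1, ← _root_.map_pow, ← pow_mul, mul_comm, h2]
  have k1 : ∀ (r s : ℕ) (t : F), (∀ t : K, blkD eF (xB r t) = blkA eF (xB s (t ^ 2))) →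
      (∀ t : K, blkD eF (xB s t) = blkA eF (xB r (t ^ 1))) →
      (∀ t u : K, xB r t * xB s u = xB s u * xB r t) →
      ((f4PairWord n r s t).map fun q => xB q.1 (ψ q.2)).prod ∈ Ree φ := by
    intro r s t a1 a2 a3
    change blkD eF (xB r (ψ (t ^ n)) * (xB s (ψ t) * 1)) =
      φ.mapMatrix (blkA eF (xB r (ψ (t ^ n)) * (xB s (ψ t) * 1)))
    simp only [mul_one, _root_.map_mul, a1, a2, blkA_map, h3, pow_one]
    rw [← _root_.map_mul, ← _root_.map_mul, a3, h1, _root_.map_pow, ← pow_mul, mul_comm n]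
  have k2 : ∀ (a b c d : ℕ) (t u : F), (∀ t : K, blkD eF (xB a t) = blkA eF (xB b (t ^ 2))) →
      (∀ t : K, blkD eF (xB b t) = blkA eF (xB a (t ^ 1))) →
      (∀ t : K, blkD eF (xB c t) = blkA eF (xB d (t ^ 2))) →
      (∀ t : K, blkD eF (xB d t) = blkA eF (xB c (t ^ 1))) →
      (∀ t u : K, xB c t * xB d u = xB d u * xB c t) →
      (∀ t u : K, xB b u * xB a t = xB a t * xB b u * xB c (t * u) * xB d (t ^ 2 * u)) →
      ((b2ClassWord n a b c d t u).map fun q => xB q.1 (ψ q.2)).prod ∈ Ree φ := by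
    intro a b c d t u a1 a2 a3 a4 a5 a6
    change blkD eF (xB a (ψ (t ^ n)) * (xB b (ψ t) * (xB c (ψ (t ^ (n + 1) + u)) *
        (xB d (ψ (u ^ (2 * n))) * 1)))) =
      φ.mapMatrix (blkA eF (xB a (ψ (t ^ n)) * (xB b (ψ t) * (xB c (ψ (t ^ (n + 1) + u)) *
        (xB d (ψ (u ^ (2 * n))) * 1)))))
    have e1 : φ (ψ (t ^ (n + 1) + u)) = ψ t * ψ (t ^ n) ^ 2 + ψ (u ^ (2 * n)) := by
      rw [pow_succ, _root_.map_add, _root_.map_add, _root_.map_mul, _root_.map_mul, h3, h1, h1]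
      simp only [_root_.map_pow, ← pow_mul, mul_comm n]
    have e2 : φ (ψ (u ^ (2 * n))) = ψ t ^ 2 * ψ (t ^ n) ^ 2 + ψ (t ^ (n + 1) + u) ^ 2 := by
      rw [mul_comm 2, pow_mul, _root_.map_pow, _root_.map_pow, h3, _root_.map_add, CharTwo.add_sq,
        pow_succ t, _root_.map_mul, mul_pow, mul_comm (ψ t ^ 2), ← add_assoc, CharTwo.add_self_eq_zero,
        zero_add]
    have e3 : φ (ψ t) = ψ (t ^ n) ^ 2 := by rw [h1, _root_.map_pow, ← pow_mul, mul_comm n]
    simp only [mul_one, _root_.map_mul, a1, a2, a3, a4, blkA_map, h3, pow_one]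
    simp only [← _root_.map_mul (blkA eF)]
    rw [e1, e2, e3, ← mul_assoc, a6, xB_add, xB_add, ← a5]
    simp only [mul_assoc]
    rw [← mul_assoc (xB d _), ← a5, mul_assoc]
  have cm : ∀ r s, (r < 48 ∧ s < 48 ∧ ∀ c < 52, eqV (tabF4.wordF chevF4
      [(r, 1, 1, 0), (s, 1, 0, 1)] [⟨c, 0, 0, 1⟩]) (tabF4.wordF chevF4 [(s, 1, 0, 1), (r, 1, 1, 0)]
      [⟨c, 0, 0, 1⟩]) = true) → ∀ t u : K, xB r t * xB s u = xB s u * xB r t := fun r s h t u =>
    Subtype.ext (Units.ext (by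
      simpa only [Subgroup.coe_mul, Units.val_mul, xB_val h.1, xB_val h.2.1] using xF_comm r s h t u))
  rintro g ⟨w, ⟨t, rfl | rfl⟩ | ⟨t, u, rfl | rfl⟩, e⟩
  · exact hw _ g (by simp [f4PairWord, f4p1, f4p4]) e (k1 33 24 t (blkD_x (by simp))
      (blkD_x (by simp)) (cm _ _ (by decide +kernel)))
  · exact hw _ g (by simp [f4PairWord, f4m1, f4m4]) e (k1 14 23 t (blkD_x (by simp))
      (blkD_x (by simp)) (cm _ _ (by decide +kernel)))
  · refine hw _ g (by simp [b2ClassWord, f4a, f4b, f4ab, f4aab]) e (k2 27 25 28 30 t u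
      (blkD_x (by simp)) (blkD_x (by simp)) (blkD_x (by simp)) (blkD_x (by simp))
      (cm _ _ (by decide +kernel)) fun t u => Subtype.ext (Units.ext ?_))
    simpa [xB_val, CharTwo.neg_eq, mul_assoc] using word_eq t u [(25, 1, 0, 1), (27, 1, 1, 0)]
      [(27, 1, 1, 0), (25, 1, 0, 1), (28, 1, 1, 1), (30, -1, 2, 1)] (by decide +kernel)
  · refine hw _ g (by simp [b2ClassWord, f4ma, f4mb, f4mab, f4maab]) e (k2 20 22 19 17 t u
      (blkD_x (by simp)) (blkD_x (by simp)) (blkD_x (by simp)) (blkD_x (by simp))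
      (cm _ _ (by decide +kernel)) fun t u => Subtype.ext (Units.ext ?_))
    simpa [xB_val, CharTwo.neg_eq, mul_assoc] using word_eq t u [(22, 1, 0, 1), (20, 1, 1, 0)]
      [(20, 1, 1, 0), (22, 1, 0, 1), (19, -1, 1, 1), (17, -1, 2, 1)] (by decide +kernel)

/-- counting -/
def cnt (n : ℕ) (f : ℕ → Bool) : ℕ :=
  Nat.rec (motive := fun _ => ℕ) 0 (fun i ih => bif' (f i) (Nat.succ ih) ih) n

theorem cnt_eq (n : ℕ) (f : ℕ → Bool) : cnt n f = ∑ i : Fin n, if f i = true then 1 else 0 := by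
  induction n with
  | zero => rfl
  | succ n ih =>
    rw [Fin.sum_univ_castSucc]
    change bif' (f n) (cnt n f + 1) (cnt n f) = _ + if f n = true then 1 else 0
    rw [ih]
    cases f n <;> rfl

/-- weights modulo seven -/
def nn (c j : ℕ) : ℕ := ap 4 15 0x2342134212421232122211220122123112211121012111110111001100011220112001201110011000101100010010006000060066000060066066600650665065500006006606666666065666566556654606556655655565456535643554350000000000000000
  (Nat.add (Nat.mul 4 c) j)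

/-- values modulo seven -/
def vl (a b c d k : ℕ) : ℕ := force k fun k => Nat.mod (Nat.add (Nat.add (Nat.add (Nat.mul (nn k 0) a)
  (Nat.mul (nn k 1) b)) (Nat.mul (nn k 2) c)) (Nat.mul (nn k 3) d)) 7

/-- the check -/
def ck7 (a b c d : ℕ) : Bool :=
  bimp (Nat.beq (cnt 26 fun i => Nat.beq (vl a b c d (dN i)) 0)
    (cnt 26 fun i => Nat.beq (vl a b c d (aN i)) 0))
  (bimp (Nat.beq (cnt 48 fun i => Nat.beq (vl a b c d (Nat.add 4 i)) 1)
    (cnt 48 fun i => Nat.beq (vl a b c d (Nat.add 4 i)) 4))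
  (bimp (Nat.beq (cnt 48 fun i => Nat.beq (vl a b c d (Nat.add 4 i)) 2)
    (cnt 48 fun i => Nat.beq (vl a b c d (Nat.add 4 i)) 1))
    (Nat.beq (Nat.add (Nat.add (Nat.add a b) c) d) 0)))

theorem ck7_all : lin 7 (fun a => force a fun a => lin 7 fun b => force b fun b => lin 7 fun c =>
    force c fun c => lin 7 fun d => force d fun d => ck7 a b c d) = true := by decide +kernel

theorem nn_spec : ∀ c : Fin 52, ∀ j : Fin 4, (nn c j : ℤ) % 7 = tabF4.wtN c j % 7 := by
  decide +kernel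

theorem code_ix : ∀ i : Fin 26, codeD chevF4 (ix (aN i)) = aN i ∧ codeD chevF4 (ix (dN i)) = dN i := by
  decide +kernel

theorem cv_prod {l F : Type*} [Fintype l] [DecidableEq l] [Field F] (χ : Ch l F) (u : l → ℤ) :
    cv χ u = ∏ j, cv χ (Pi.single j 1) ^ u j := by
  conv_lhs => rw [← Finset.univ_sum_single u, cv, ofAdd_sum, _root_.map_prod, Units.coe_prod]
  refine Finset.prod_congr rfl fun j _ => ?_
  rw [← cv_zsmul, ← Pi.single_smul, smul_eq_mul, mul_one]; rfl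

theorem cv_vl {F : Type*} [Field F] {ω : F} (hω : IsPrimitiveRoot ω 7) (χ : Ch (Fin 4) F)
    (v : Fin 4 → ℕ) (hv : ∀ j, ω ^ v j = cv χ (Pi.single j 1)) (k : Fin 52) :
    cv χ (fun j => tabF4.wtN k j) = ω ^ vl (v 0) (v 1) (v 2) (v 3) k := by
  have h0 := hω.ne_zero (by decide)
  rw [cv_prod χ]
  simp only [← hv, Fin.prod_univ_four, ← zpow_natCast, ← _root_.zpow_mul, ← zpow_add₀ h0]
  rw [← div_eq_one_iff_eq (zpow_ne_zero _ h0), ← zpow_sub₀ h0, hω.zpow_eq_one_iff_dvd, vl, force_eq]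
  change ((7 : ℕ) : ℤ) ∣ _ - ((_ % 7 : ℕ) : ℤ)
  rw [Int.natCast_mod]
  refine Int.ModEq.dvd (.trans (Int.mod_modEq _ _) ?_)
  simp only [mul_comm (v _ : ℤ), Nat.add_eq, Nat.mul_eq, Nat.cast_add, Nat.cast_mul]
  exact (((Int.ModEq.mul_right _ (nn_spec k 0)).add (Int.ModEq.mul_right _ (nn_spec k 1))).add
    (Int.ModEq.mul_right _ (nn_spec k 2))).add (Int.ModEq.mul_right _ (nn_spec k 3))

theorem boundRee {F : Type*} [Field F] [Fintype F] {m : ℕ} (hF : Fintype.card F = 2 ^ (2 * m + 1))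
    (r : ℕ) (H : Subgroup (twistedF4 F (2 ^ m))) (N : Subgroup H) [N.Normal]
    (h : Nonempty (H ⧸ N ≃* alternatingGroup (Fin r))) : r ≤ 6 := by
  classical
  haveI : Fact (Nat.Prime 7) := ⟨by decide⟩
  haveI : CharP F 2 := charP_of_card_eq_prime_pow hF
  refine of_section H N h fun H' π hπ => ?_
  obtain ⟨K, _, _, ψ, c, e, h1, h2⟩ := exists_reg okF4 F (by decide : 1 < 7)
    (cast_ne 2 Fact.out (by decide)) (by decide : 0 < 24)
  haveI := (ψ.charP_iff_charP 2).1 inferInstance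
  let φ := iterateFrobenius K 2 (m + 1)
  let j := (GeneralLinearGroup.map ψ).comp ((twistedF4 F (2 ^ m)).subtype.comp
    (H.subtype.comp H'.subtype))
  have hj : Function.Injective j := (map_inj ψ).comp (Subtype.val_injective.comp
    (Subtype.val_injective.comp Subtype.val_injective))
  have hm := fun x : H' => mem_Ree ψ φ (n := 2 ^ m) (fun t => by rw [← pow_succ']; rfl)
    (fun t => by
      rw [← pow_succ', ← pow_add, show m + 1 + m = 2 * m + 1 by ring, ← hF, FiniteField.pow_card])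
    x.1.1.2
  have hW : WExp (okF4.chev K) (GG _) 24 := ⟨le_rfl, fun _ _ L _ => (wF4 K L).1⟩
  obtain ⟨g, h, a1, a2, a3, -⟩ := exists_conj_elt π hπ 7
    (c := ⟨swap 0 1 * swap 1 2 * swap 2 3 * swap 3 4 * swap 4 5 * swap 5 6,
      by simp [Perm.mem_alternatingGroup]⟩)
    (σ := ⟨swap 1 2 * swap 2 4 * swap 3 6 * swap 5 6, by simp [Perm.mem_alternatingGroup]⟩)
    (Subtype.ext (Equiv.ext (by decide +kernel))) (fun e => by
      have := DFunLike.congr_fun (congrArg Subtype.val e) 0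
      revert this
      decide +kernel) (k := 2) (Subtype.ext (Equiv.ext (by decide +kernel)))
    fun P hP => ((hW.nc (extraF4 K) (by decide) (hh_mem_GG _ _) (pw_pow h1 _) h2).comap
      (j.codRestrict _ fun x => (hm x).1) (fun _ _ e => hj (congrArg Subtype.val e)) P hP).1
  obtain ⟨y, hy, χ, b1, b2, i, b3⟩ := hW.conj_one (extraF4 K) (s := 7) (by decide)
    (hh_mem_GG _ _) (pw_pow h1 _) h2 (g := j g) (hm g).1 (by rw [← _root_.map_pow, a1, j.map_one])
    fun e => a2 (hj (e.trans j.map_one.symm))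
  obtain ⟨L, hL⟩ := bru_of (extraF4 K) (g := y * j h * y⁻¹)
    (mul_mem (mul_mem hy (hm h).1) (inv_mem hy))
  have e1 := iter_pow (extraF4 K) hL (χ := χ) (k := 2) (by
    rw [← b1, conj_pow, ← _root_.map_pow, ← a3, _root_.map_mul, _root_.map_mul, _root_.map_inv]
    group) 1
  have hω : IsPrimitiveRoot (cv χ ((okF4.chev K).rt ((okF4.chev K).p i))) 7 := by
    rw [IsPrimitiveRoot.iff_orderOf, orderOf_eq_prime (b2 _) b3]
  generalize e0 : cv χ ((okF4.chev K).rt ((okF4.chev K).p i)) = ω at hω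
  choose v hv hv' using fun j : Fin 4 => hω.eq_pow_of_pow_eq_one (b2 (Pi.single j 1))
  have e2 : ∀ k, vl (v 0) (v 1) (v 2) (v 3) k < 7 := fun k => by
    rw [vl, force_eq]; exact Nat.mod_lt _ (by decide)
  have e3 : ∀ k x, x < 7 → (cv χ ((okF4.chev K).wt k) = ω ^ x ↔
      Nat.beq (vl (v 0) (v 1) (v 2) (v 3) (codeD _ k)) x = true) := fun k x hx => by
    rw [show cv χ ((okF4.chev K).wt k) = _ from cv_vl hω χ v hv' ⟨_, codeD_lt _ k⟩, Nat.beq_eq]
    exact ⟨hω.pow_inj (e2 _) hx, fun e => e ▸ rfl⟩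
  have e4 : ∀ x x', x < 7 → x' < 7 → 2 * x' % 7 = x →
      cnt 48 (fun i => Nat.beq (vl (v 0) (v 1) (v 2) (v 3) (Nat.add 4 i)) x) =
      cnt 48 (fun i => Nat.beq (vl (v 0) (v 1) (v 2) (v 3) (Nat.add 4 i)) x') := by
    intro x x' hx hx' hxx
    rw [cnt_eq, cnt_eq]
    refine Fintype.sum_bijective _ (Finite.injective_iff_bijective.1
      ((extraF4 K).acts_nw L).pi_inj) _ _ fun r => if_congr ?_ rfl rfl
    refine (e3 (.inr r) x hx).symm.trans (Iff.trans ?_ (e3 (.inr ((okF4.chev K).wr L r)) x' hx'))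
    have e5 := e1 r
    rw [← (okF4.chev K).wt_e, ← (okF4.chev K).wt_e] at e5
    refine (Eq.congr_left e5).trans ?_
    change cv χ ((okF4.chev K).wt (.inr ((okF4.chev K).wr L r))) ^ 2 = _ ↔ _
    rw [← hxx, ← pow_eq_pow_mod _ hω.pow_eq_one, mul_comm, pow_mul]
    refine ⟨fun e => ?_, fun e => by rw [e]⟩
    have := congrArg (· ^ 4) e
    simp only [← pow_mul, show 2 * 4 = 7 + 1 from rfl, pow_succ _ 7, b2, one_mul, mul_assoc] at this
    rw [this, mul_add, pow_add, mul_comm x', pow_mul, hω.pow_eq_one, one_pow, one_mul, mul_one]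
  obtain ⟨z, hz, e5⟩ := (hm g).2
  have e6 := (rank_conj (blkD eF) ⟨y, GG_le_BT hy⟩ z).trans ((congrArg (fun M => (M - 1).rank)
    hz).trans (rank_conj (φ.mapMatrix.toMonoidHom.comp (blkA eF)) ⟨y, GG_le_BT hy⟩ z).symm)
  have e7 : ((⟨y, GG_le_BT hy⟩ * z * ⟨y, GG_le_BT hy⟩⁻¹ : BT K eF) : GL _ K) =
      (okF4.chev K).hh χ := by rw [← b1, ← show z.1 = j g from e5]; rfl
  generalize (⟨y, GG_le_BT hy⟩ * z * ⟨y, GG_le_BT hy⟩⁻¹ : BT K eF) = t at e6 e7
  rw [show blkD eF t = diagonal fun i => cv χ ((okF4.chev K).wt (eF (.inr i))) by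
      ext i j; simp [blkD, e7, hh_val, diagonal_apply],
    show (φ.mapMatrix.toMonoidHom.comp (blkA eF)) t =
        diagonal fun i => φ (cv χ ((okF4.chev K).wt (eF (.inl i)))) by
      ext i j; simp [blkA, e7, hh_val, diagonal_apply, apply_ite φ], rank_diag, rank_diag] at e6
  have e8 : ∀ (f : Fin 26 → Prop) [DecidablePred f] (g : ℕ → Bool), (∀ i, f i ↔ g i = true) →
      cnt 26 g + ∑ i, (if f i then 0 else 1) = 26 := fun f _ g h => by
    rw [cnt_eq, ← Finset.sum_add_distrib, Finset.sum_congr rfl (g := fun _ => 1) fun i _ => by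
      by_cases h' : f i <;> simp [h', ← h i]]
    simp
  have e9 := e8 (fun i => cv χ ((okF4.chev K).wt (eF (.inr i))) = 1)
    (fun i => Nat.beq (vl (v 0) (v 1) (v 2) (v 3) (dN i)) 0) fun i => by
    rw [← (code_ix i).2]; exact (pow_zero ω ▸ e3 (eF (.inr i)) 0 (by decide) :)
  have e10 := e8 (fun i => φ (cv χ ((okF4.chev K).wt (eF (.inl i)))) = 1)
    (fun i => Nat.beq (vl (v 0) (v 1) (v 2) (v 3) (aN i)) 0) fun i => by
      rw [← (code_ix i).1, map_eq_one_iff _ φ.injective]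
      exact (pow_zero ω ▸ e3 (eF (.inl i)) 0 (by decide) :)
  have e11 := ck7_all
  simp only [lin_iff, force_eq] at e11
  have e12 := e11 _ (hv 0) _ (hv 1) _ (hv 2) _ (hv 3)
  simp only [ck7, bimp_eq, Bool.or_eq_true, Bool.not_eq_true', ← Bool.not_eq_true, Nat.beq_eq,
    Nat.add_eq] at e12
  have e13 := ((e12.resolve_left (not_not.2 (by omega))).resolve_left (not_not.2
    (e4 1 4 (by decide) (by decide) rfl))).resolve_left (not_not.2 (e4 2 1 (by decide) (by decide) rfl))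
  refine b3 ?_
  have e14 : ∀ i : Fin 4, v i = 0 := by
    simp only [Fin.forall_fin_succ, IsEmpty.forall_iff, and_true]
    change v 0 = 0 ∧ v 1 = 0 ∧ v 2 = 0 ∧ v 3 = 0
    omega
  rw [(okF4.chev K).rt_p]
  exact (hv' i).symm.trans ((congrArg (ω ^ ·) (e14 i)).trans (pow_zero ω))

end CfsgH7
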